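import Cfsg.Agent.H5.ZS2
import Cfsg.Agent.H2.Tr1

/-! Glauberman's `Z*`-theorem. -/

set_option autoImplicit false
set_option linter.unusedSectionVars false

namespace Cfsg.Agent.H5.ZStar

open Cfsg Finset Cfsg.Agent.H5.Char Subgroup Cfsg.Agent.H5.Odd

/-- any two conjugates of `z` have a product of odd order -/
def Isol {G : Type*} [Group G] (z : G) : Prop :=
  ∀ a b, IsConj z a → IsConj z b → Odd (orderOf (a * b))

/-- the products of two conjugates of `z` lie in a subgroup of odd order -/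
def Cen {G : Type*} [Group G] (z : G) : Prop :=
  ∃ U : Subgroup G, Odd (Nat.card U) ∧ ∀ a b, IsConj z a → IsConj z b → a * b ∈ U

variable {G : Type*} [Group G]

theorem conj_sq {z a : G} (hz : z * z = 1) (h : IsConj z a) : a * a = 1 := by
  obtain ⟨c, rfl⟩ := isConj_iff.1 h
  rw [conj_mul, hz]; simp

theorem isConj_of_odd {x y : G} (hx : x * x = 1) (hy : y * y = 1) (h : Odd (orderOf (x * y))) :
    IsConj x y := by
  obtain ⟨n, h2, h3⟩ := exists_conj_involution hx hy h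
  exact isConj_iff.mpr ⟨x * (x * y) ^ n, by rw [inv_eq_of_sq h2, h3]⟩

theorem Cen.normal [Finite G] {z : G} (h : Cen z) : ∃ K : Subgroup G, K.Normal ∧ Odd (Nat.card K) ∧
    ∀ a b, IsConj z a → IsConj z b → a * b ∈ K := by
  obtain ⟨U, h1, h2⟩ := h
  let J : Set G := {g | ∃ a b, IsConj z a ∧ IsConj z b ∧ g = a * b}
  refine ⟨normalClosure J, inferInstance, h1.of_dvd_nat (card_dvd_of_le ?_), fun a b ha hb =>
    subset_normalClosure ⟨a, b, ha, hb, rfl⟩⟩
  rw [normalClosure, closure_le]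
  intro g hg
  obtain ⟨-, ⟨a, b, ha, hb, rfl⟩, hc⟩ := Group.mem_conjugatesOfSet_iff.mp hg
  obtain ⟨c, rfl⟩ := isConj_iff.mp hc
  rw [← conj_mul]
  exact h2 _ _ (ha.trans (isConj_iff.2 ⟨c, rfl⟩)) (hb.trans (isConj_iff.2 ⟨c, rfl⟩))

theorem Isol.sub {z : G} (h : Isol z) (H : Subgroup G) (a : H) (ha : IsConj z a) : Isol a := fun b c hb hc => by
  rw [← Subgroup.orderOf_coe]
  exact h _ _ (ha.trans (H.subtype.map_isConj hb)) (ha.trans (H.subtype.map_isConj hc))

theorem Isol.quot {z : G} (h : Isol z) (N : Subgroup G) [N.Normal] : Isol (QuotientGroup.mk' N z) :=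
  fun b c hb hc => by
  obtain ⟨x, rfl⟩ := isConj_iff.1 hb
  obtain ⟨y, rfl⟩ := isConj_iff.1 hc
  obtain ⟨x, rfl⟩ := QuotientGroup.mk'_surjective N x
  obtain ⟨y, rfl⟩ := QuotientGroup.mk'_surjective N y
  simp only [← map_mul, ← map_inv]
  exact (h _ _ (isConj_iff.2 ⟨x, rfl⟩) (isConj_iff.2 ⟨y, rfl⟩)).of_dvd_nat (orderOf_map_dvd _ _)

theorem Isol.fus {z v a b : G} (hz : z * z = 1) (h : Isol z) (hzv : z * v = v * z) (ha : IsConj z a)
    (hb : IsConj v b) (hab : a * b = b * a) : IsConj (z * v) (a * b) := by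
  obtain ⟨g, rfl⟩ := isConj_iff.1 hb
  have hc : IsConj z (g * z * g⁻¹) := isConj_iff.2 ⟨g, rfl⟩
  obtain ⟨n, h2, h3⟩ := exists_conj_involution (conj_sq hz ha) (conj_sq hz hc) (h _ _ ha hc)
  have h4 : Commute (a * (a * (g * z * g⁻¹)) ^ n) (g * v * g⁻¹) :=
    .mul_left hab (.pow_left (.mul_left hab (by rw [Commute, SemiconjBy, conj_mul, conj_mul, hzv])) n)
  refine (isConj_iff.2 ⟨g, rfl⟩).trans (isConj_iff.2 ⟨a * (a * (g * z * g⁻¹)) ^ n, ?_⟩).symm
  rw [← conj_mul, h4.eq, mul_inv_cancel_right, inv_eq_of_sq h2, h3, conj_mul]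

theorem chi_eq [Fintype G] {z v : G} (hz : z * z = 1) (h : Isol z) (hv : v * v = 1) (hzv : z * v = v * z)
    (hn : ¬ IsConj z v)
    (ih : ∀ c : G, c ≠ 1 → c * c = 1 → ∀ a : centralizer ({c} : Set G), IsConj z a → Cen a)
    {χ : Irr G} (hχ : w χ ∉ 𝔭) : χ.1 z * χ.1 v = χ.1 1 * χ.1 (z * v) := by
  have key : ∀ y, χ.1 (y * z * y⁻¹ * v) = χ.1 (z * v) := fun y => by
    have ha : IsConj z (y * z * y⁻¹) := isConj_iff.2 ⟨y, rfl⟩
    generalize y * z * y⁻¹ = a at ha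
    have a2 := conj_sq hz ha
    obtain ⟨m, m1, m2, m3, m4⟩ := exists_central_involution a2 hv fun e =>
      hn (ha.trans (isConj_of_odd a2 hv e))
    let H := centralizer ({(a * v) ^ m} : Set G)
    have mH : ∀ {x}, x ∈ H ↔ x * (a * v) ^ m = (a * v) ^ m * x := mem_centralizer_singleton_iff
    obtain ⟨K, hK, k1, k2⟩ := (ih _ m1 m2 ⟨a, mH.2 m3⟩ ha).normal
    have k3 : (a * v) ^ 2 ∈ K.map H.subtype :=
      ⟨_, k2 _ _ (.refl _) (isConj_iff.2 ⟨⟨v, mH.2 m4⟩, rfl⟩), by simp [inv_eq_of_sq hv, sq, mul_assoc]⟩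
    have k4 : Odd (Nat.card (K.map H.subtype)) := k1.of_dvd_nat (card_map_dvd _ _)
    obtain ⟨k, rfl⟩ : Odd m := Nat.not_even_iff_odd.1 fun ⟨k, e⟩ => m1
      (eq_one_of_sq_of_odd (odd_orderOf_of_mem k4 (by rw [e, ← two_mul, pow_mul]; exact pow_mem k3 _)) m2)
    have e1 := const_on hχ m2 _ k4 (fun n ⟨x, _, e⟩ => e ▸ mH.1 x.2)
      (fun c hc n ⟨x, hx, e⟩ => ⟨_, hK.conj_mem x hx ⟨c, mH.2 hc⟩, e ▸ rfl⟩) (pow_mem k3 (k + 1))
    rw [← pow_mul, show 2 * (k + 1) = 2 * k + 1 + 1 by ring, pow_succ _ (2 * k + 1), ← mul_assoc, m2,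
      one_mul] at e1
    have e2 : IsConj v (a * (a * v) ^ (2 * k + 1)) := isConj_iff.2 ⟨((a * v) ^ k)⁻¹, by
      have := conj_pow_of_inverts (u := a) (w := a * v) (by
        simp [inv_eq_of_sq, a2, hv, ← mul_assoc]) k
      rw [inv_inv, ← this, inv_eq_of_sq a2, two_mul, add_right_comm, pow_add, pow_succ]
      simp only [mul_assoc]⟩
    obtain ⟨g, e3⟩ := isConj_iff.1 (h.fus hz hzv ha e2 (by rw [mul_assoc, m3]))
    rw [e1, ← cl χ (z * v) g, e3, ← mul_assoc, a2, one_mul]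
  have := sum_conj_mul χ z v
  simp only [key, sum_const, card_univ, nsmul_eq_mul, ← Nat.card_eq_fintype_card] at this
  apply mul_left_cancel₀ (card_ne (G := G))
  rw [mul_left_comm _ (χ.1 1), this, mul_div_cancel₀ _ (deg_ne χ), mul_assoc]

theorem contra [Finite G] {z v : G} (hz : z * z = 1) (h : Isol z) (hv : v * v = 1) (hzv : z * v = v * z)
    (v1 : v ≠ 1) (vz : v ≠ z) (hgen : ∀ N : Subgroup G, N.Normal → z ∈ N → N = ⊤)
    (ih : ∀ c : G, c ≠ 1 → c * c = 1 → ∀ a : centralizer ({c} : Set G), IsConj z a → Cen a) : False := by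
  classical
  have := Fintype.ofFinite G
  have h1 : z * v * (z * v) = 1 := by rw [mul_assoc, ← mul_assoc v, ← hzv, mul_assoc, hv, mul_one, hz]
  have h2 : z * (z * v) = v := by rw [← mul_assoc, hz, one_mul]
  have h3 : z * v ≠ 1 := fun e => vz (by rw [← h2, e, mul_one])
  have h4 := orth hv v1
  have h5 := orth h1 h3
  have h6 : ∑ χ : Irr G with w χ ∉ 𝔭, χ.1 1 * (χ.1 v + χ.1 (z * v)) = 0 := by
    simp only [mul_add, sum_add_distrib, h4, h5, add_zero]
  rw [sum_eq_single_of_mem (triv G) (by simpa using w_triv) fun χ hχ χ1 => ?_] at h6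
  · norm_num [triv_apply] at h6
  have a1 := chi_eq hz h hv hzv (fun e => h3 (eq_one_of_sq_of_odd (h _ _ (.refl _) e) h1)) ih
    (mem_filter.1 hχ).2
  have a2 := chi_eq hz h h1 (by rw [h2, mul_assoc, ← hzv, h2])
    (fun e => v1 (eq_one_of_sq_of_odd (h2 ▸ h _ _ (.refl _) e) hv)) ih (mem_filter.1 hχ).2
  rw [h2] at a2
  obtain ⟨K, k1, k2, k3⟩ := H2.Tr.exists_ker χ χ1
  have a3 : χ.1 z - χ.1 1 ≠ 0 := fun e => k2 (hgen K k1 (k3 z fun k => by
    rcases Nat.even_or_odd' k with ⟨j, rfl | rfl⟩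
    · rw [pow_mul, sq, hz, one_pow]
    · rw [pow_succ, pow_mul, sq, hz, one_pow, one_mul, sub_eq_zero.1 e]))
  rw [mul_left_cancel₀ a3 (show _ * (χ.1 v + χ.1 (z * v)) = _ * 0 by linear_combination a1 + a2), mul_zero]

theorem aux.{u} (n : ℕ) : ∀ (G : Type u) [Group G] [Finite G], Nat.card G = n →
    ∀ z : G, z * z = 1 → Isol z → Cen z := by
  induction n using Nat.strong_induction_on with
  | _ n ih =>
  intro G _ _ hn z hz h
  have hsub : ∀ H : Subgroup G, H ≠ ⊤ → ∀ a : H, IsConj z a → Cen a := fun H t a ha =>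
    ih (Nat.card H) (by
      have := card_mul_index H
      have := one_lt_index_of_ne_top t
      have := Nat.card_pos (α := H)
      nlinarith) H rfl a (Subtype.ext (conj_sq hz ha)) (h.sub H a ha)
  by_cases hgen : ∀ N : Subgroup G, N.Normal → z ∈ N → N = ⊤
  swap
  · push Not at hgen
    obtain ⟨N, hN, hzN, t⟩ := hgen
    obtain ⟨U, u1, u2⟩ := hsub N t ⟨z, hzN⟩ (.refl _)
    have key : ∀ a, IsConj z a → ∃ ha : a ∈ N, IsConj (⟨z, hzN⟩ : N) ⟨a, ha⟩ := fun a ha => by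
      obtain ⟨c, e⟩ := isConj_iff.1 ha
      have m : a ∈ N := e ▸ hN.conj_mem z hzN c
      exact ⟨m, isConj_of_odd (Subtype.ext hz) (Subtype.ext (conj_sq hz ha))
        (by rw [← Subgroup.orderOf_coe]; exact h _ _ (.refl _) ha)⟩
    exact ⟨U.map N.subtype, u1.of_dvd_nat (card_map_dvd _ _), fun a b ha hb =>
      ⟨_, u2 _ _ (key a ha).2 (key b hb).2, rfl⟩⟩
  by_cases hc : ∃ c : G, c ≠ 1 ∧ c * c = 1 ∧ centralizer ({c} : Set G) = ⊤
  · obtain ⟨c, c1, c2, c3⟩ := hc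
    have c4 : ∀ g, g * c = c * g := fun g => mem_centralizer_singleton_iff.1 (c3 ▸ mem_top g)
    have c5 : ∀ x ∈ zpowers c, ∀ g, g * x = x * g := by
      rintro _ ⟨k, rfl⟩ g
      exact (Commute.zpow_right (c4 g) k).eq
    have hN : (zpowers c).Normal := ⟨fun x hx g => by rwa [c5 x hx, mul_inv_cancel_right]⟩
    have c6 : Nat.card (zpowers c) = 2 := by
      rw [Nat.card_zpowers, orderOf_eq_prime (p := 2) (by rw [sq, c2]) c1]
    have c7 := card_mul_index (zpowers c)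
    obtain ⟨U, u1, u2⟩ := ih (Nat.card (G ⧸ zpowers c)) (by
      have := Nat.card_pos (α := G)
      rw [← index_eq_card]; rw [c6] at c7; omega) _ rfl _ (by rw [← map_mul, hz, map_one]) (h.quot _)
    let V := U.comap (QuotientGroup.mk' (zpowers c))
    have v1 : Nat.card V = 2 * Nat.card U := by
      rw [← c6]; exact QuotientGroup.card_preimage_mk _ (U : Set (G ⧸ zpowers c))
    have v2 : zpowers c ≤ V := fun x hx => by
      rw [mem_comap, show QuotientGroup.mk' _ x = 1 from (QuotientGroup.eq_one_iff x).2 hx]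
      exact one_mem _
    have v3 : Nat.card ((zpowers c).subgroupOf V) = 2 := by
      rw [Nat.card_congr (subgroupOfEquivOfLe v2).toEquiv, c6]
    have v4 : ((zpowers c).subgroupOf V).index = Nat.card U := by
      have := card_mul_index ((zpowers c).subgroupOf V)
      rw [v3, v1] at this
      omega
    obtain ⟨W, hW⟩ := exists_right_complement'_of_coprime (N := (zpowers c).subgroupOf V)
      (by rw [v3, v4]; exact Nat.coprime_two_left.2 u1)
    have w1 : W.index = 2 := hW.index_eq_card.trans v3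
    refine ⟨W.map V.subtype, (hW.symm.index_eq_card ▸ v4 ▸ u1).of_dvd_nat (card_map_dvd _ _),
      fun a b ha hb => ?_⟩
    obtain ⟨k, hk⟩ := exists_sqrt_of_odd (h a b ha hb)
    have m : (a * b) ^ k ∈ V := pow_mem (by
      rw [mem_comap, map_mul]
      exact u2 _ _ (MonoidHom.map_isConj _ ha) (MonoidHom.map_isConj _ hb)) k
    exact ⟨_, mul_self_mem_of_index_two w1 ⟨_, m⟩, hk⟩
  push Not at hc
  by_cases h1 : ∀ x y : G, x ≠ 1 → y ≠ 1 → x * x = 1 → y * y = 1 → x * y = y * x → x = y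
  · by_cases z1 : z = 1
    · exact ⟨⊥, by simp, fun a b ha hb => by
        rw [z1, isConj_one_right] at ha hb
        simp [ha, hb]⟩
    obtain ⟨K, -, k1, k2⟩ := H7.BS.bs' h1
    have := fun a (ha : IsConj z a) (e : a = 1) => z1 (isConj_one_left.1 (e ▸ ha))
    exact ⟨K, k1, fun a b ha hb => k2 a b (this a ha) (this b hb) (conj_sq hz ha) (conj_sq hz hb)⟩
  exfalso
  push Not at h1
  obtain ⟨x, y, x1, y1, x2, y2, hxy, xy⟩ := h1
  have fin : ∀ a v, IsConj z a → v * v = 1 → a * v = v * a → v ≠ 1 → v ≠ a → False := fun a v ha v2 e v1 va =>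
    contra (conj_sq hz ha) (fun b c hb hc => h b c (ha.trans hb) (ha.trans hc)) v2 e v1 va
      (fun N hN m => by
        obtain ⟨c, e⟩ := isConj_iff.1 ha.symm
        exact hgen N hN (e ▸ hN.conj_mem a m c))
      fun c c1 c2 b hb => hsub _ (hc c c1 c2) b (ha.trans hb)
  by_cases ho : Odd (orderOf (z * x))
  · exact fin x y (isConj_of_odd hz x2 ho) y2 hxy y1 xy.symm
  obtain ⟨m, m1, m2, m3, m4⟩ := exists_central_involution hz x2 ho
  by_cases e : (z * x) ^ m = z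
  · rw [e] at m4
    exact fin z x (.refl _) x2 m4.symm x1 fun e => ho (by simp [e, hz])
  · exact fin z _ (.refl _) m2 m3 m1 e

/-- **Glauberman's `Z*`-theorem** -/
theorem zstar' [Finite G] {z : G} (hz : z * z = 1) (h : ∀ g, Odd (orderOf (z * (g * z * g⁻¹)))) :
    ∃ K : Subgroup G, K.Normal ∧ Odd (Nat.card K) ∧ ∀ a b, IsConj z a → IsConj z b → a * b ∈ K :=
  (aux _ G rfl z hz fun a b ha hb => by
    obtain ⟨c, rfl⟩ := isConj_iff.1 ha
    obtain ⟨d, rfl⟩ := isConj_iff.1 hb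
    rw [show c * z * c⁻¹ * (d * z * d⁻¹) = MulAut.conj c (z * (c⁻¹ * d * z * (c⁻¹ * d)⁻¹)) by
      simp [mul_assoc], MulEquiv.orderOf_eq]
    exact h _).normal

theorem zstar [Finite G] {z : G} (hz : z * z = 1) (h : ∀ g, Odd (orderOf (z * (g * z * g⁻¹)))) (g : G) :
    g * z * g⁻¹ * z ∈ Cfsg.pPrimeCore 2 G := by
  obtain ⟨K, hn, ho, hK⟩ := zstar' hz h
  exact (le_sSup (s := {N : Subgroup G | N.Normal ∧ (Nat.card N).Coprime 2})
    ⟨hn, Nat.coprime_two_right.mpr ho⟩ : K ≤ _) (hK _ _ (isConj_iff.2 ⟨g, rfl⟩) (.refl _))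

end Cfsg.Agent.H5.ZStar
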