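import Cfsg.Agent.H1.N1d
import Cfsg.Agent.H6.Y2

/-! Elements with a quadratic minimal polynomial in projective representations of degree four. -/

set_option autoImplicit false

namespace Cfsg.Agent.H5.G2

open Matrix Cfsg.Agent.MH Cfsg.Agent.H1.Mit Cfsg.Agent.H1.N1 Cfsg.Agent.H1.N1.PR

variable {T K : Type*} [Group T] [Field K] {ρ : PR T K} {g x y z : T} {G X Y : M4 K} {d e : Fin 4 → K}

theorem quad_nil {N : M4 K} {a b : K} (h : N * N = a • N + b • 1) (h4 : N ^ 4 = 0) : N * N = 0 := by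
  have e : (N * (N - a • 1)) ^ 4 = (b ^ 4) • 1 := by
    rw [mul_sub, h]; simp [_root_.smul_pow]
  rw [Commute.mul_pow ((Commute.refl N).sub_right ((Commute.one_right N).smul_right a)), h4, zero_mul] at e
  obtain rfl : b = 0 := by simpa using congrFun (congrFun e 0) 0 |>.symm
  rw [zero_smul, add_zero] at h
  have : N ^ 4 = a ^ 3 • N := by simp [pow_succ, h, smul_smul]
  rcases smul_eq_zero.1 (this.symm.trans h4) with k | k
  · rw [h, pow_eq_zero_iff (by decide) |>.1 k, zero_smul]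
  · simp [k]

theorem unip {r : ℕ} (hr : r.Prime) (r0 : (r : K) = 0) (q : ρ.Rt x) (o : ρ.O x X) (e : x ^ r = 1) : (X - 1) * (X - 1) = 0 := by
  obtain ⟨a, b, k⟩ := q.all o.1
  refine quad_nil (a := a - 2) (b := a + b - 1) ?_ (nil_of_pow (k := 1) hr r0 (by simpa using o.pow_eq e))
  simp only [mul_sub, sub_mul, k, mul_one, one_mul]; module

/-- the order of a rotation -/
theorem ord (h : ρ.Gm) (q : ρ.Rt x) (o : Od x) : ∃ r : ℕ, r.Prime ∧ Odd r ∧ x ^ r = 1 ∧ (r = 3 ∨ r = 5) := by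
  rcases h.ord q with e | e | e
  · exact ⟨3, by decide, by decide, by simp [o.eq_one (by rwa [← pow_two])], by simp⟩
  · exact ⟨3, by decide, by decide, e, by simp⟩
  · exact ⟨5, by decide, by decide, e, by simp⟩

/-- two entries are true -/
def Two (σ : Fin 4 → Bool) : Prop := (σ 0).toNat + (σ 1).toNat + (σ 2).toNat + (σ 3).toNat = 2

instance (σ : Fin 4 → Bool) : Decidable (Two σ) := by unfold Two; infer_instance

set_option synthInstance.maxSize 2000 in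
theorem two3 : ∀ σ τ υ, Two σ → Two τ → Two υ → (τ = σ ∨ (τ = fun i => !σ i) ∨ υ = σ ∨ (υ = fun i => !σ i) ∨
    υ = τ ∨ υ = fun i => !τ i) ∨ ∃ k, ∃ c : Bool, ∀ i, i ≠ k → (σ i).toNat + (τ i).toNat + (υ i).toNat = 1 + c.toNat := by
  decide +kernel

theorem dg2 (h : ρ.Gm) (q : ρ.Rt x) (o : ρ.O x (diagonal d)) (x1 : x ≠ 1) {α : K} {j : Fin 4} (hα : α = d j ∨ α⁻¹ = d j) :
    α ≠ 0 ∧ α ≠ 1 ∧ ∃ σ, Two σ ∧ ∀ i, d i = if σ i then α else α⁻¹ := by
  classical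
  obtain ⟨a, b, k⟩ := q.all o.1
  have k1 : ∀ i, d i = d j ∨ d i = a - d j := fun i => by
    have e1 := congrFun (congrFun k i) i
    have e2 := congrFun (congrFun k j) j
    simp at e1 e2
    grind
  let σ : Fin 4 → Bool := fun i => decide (d i = d j)
  have k2 : ∀ i, d i = if σ i then d j else a - d j := fun i => by have := k1 i; simp only [σ]; grind
  have k3 : Two σ := ((by decide : ∀ σ, Two σ ∨ ∃ k c, ∀ i, i ≠ k → σ i = c) σ).resolve_right fun ⟨k, c, e⟩ =>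
    x1 (h.per x _ (if c then d j else a - d j) o.1 (rk1_diag k fun i hi => by rw [k2 i, e i hi]))
  have k4 : (d j * (a - d j)) ^ 4 = 1 := by
    have := o.1.det
    rw [det_diagonal, Fin.prod_univ_four, k2 0, k2 1, k2 2, k2 3] at this
    unfold Two at k3
    generalize d j = s at *
    cases h0 : σ 0 <;> cases h1 : σ 1 <;> cases h2 : σ 2 <;> cases h3 : σ 3 <;> simp [h0, h1, h2, h3] at k3 this <;> grind
  obtain ⟨n, hn, e⟩ := o.2
  have k5 : ∀ i, d i ^ n = 1 := fun i => by simpa [diagonal_pow] using congrFun (congrFun e i) i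
  obtain ⟨i, hi⟩ := (by decide : ∀ σ, Two σ → ∃ i, σ i = false) σ k3
  have k6 : d j * (a - d j) = 1 := eq_one_of k4 hn (by
    have := k5 i; rw [k2 i, hi] at this; rw [mul_pow, k5 j, one_mul]; simpa using this)
  have k7 : a - d j = (d j)⁻¹ := eq_inv_of_mul_eq_one_right k6
  have k8 : d j ≠ 1 := fun e => x1 (o.eq_one.2 (by
    rw [← diagonal_one]; congr 1; ext i; rw [k2 i, k7, e]; simp))
  have k9 : d j ≠ 0 := left_ne_zero_of_mul_eq_one k6
  rw [k7] at k2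
  rcases hα with rfl | e
  · exact ⟨k9, k8, σ, k3, k2⟩
  · obtain rfl : α = (d j)⁻¹ := by rw [← e, inv_inv]
    exact ⟨inv_ne_zero k9, by simpa using k8, fun i => !σ i, (by decide : ∀ σ, Two σ → Two fun i => !σ i) σ k3,
      fun i => by rw [k2 i]; cases h : σ i <;> simp [h]⟩

theorem eig (hG : ρ.L g G) (o : ρ.O x (diagonal d)) (o' : ρ.O (g * x * g⁻¹) (diagonal e)) : ∃ i, e 0 = d i := by
  obtain ⟨i, hi⟩ : ∃ i, G 0 i ≠ 0 := by
    by_contra! k
    exact hG.nz (det_eq_zero_of_row_eq_zero 0 k)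
  have := congrFun (congrFun (o.conj_eq hG o' rfl) 0) i
  rw [mul_diagonal, diagonal_mul, mul_comm] at this
  exact ⟨i, (mul_right_cancel₀ hi this).symm⟩

theorem eq_inv (o : ρ.O x (diagonal d)) (o' : ρ.O y (diagonal e)) (k : ∀ i, d i * e i = 1) : y = x⁻¹ :=
  eq_inv_of_mul_eq_one_right ((o.1.mul o'.1).sc (c := 1) (by rw [diagonal_mul_diagonal, funext k]; simp))

theorem pat (o : ρ.O x (diagonal d)) (o' : ρ.O y (diagonal e)) {α : K} (h0 : α ≠ 0) {σ τ : Fin 4 → Bool}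
    (k : ∀ i, d i = if σ i then α else α⁻¹) (k' : ∀ i, e i = if τ i then α else α⁻¹) :
    (τ = σ → y = x) ∧ ((τ = fun i => !σ i) → y = x⁻¹) :=
  ⟨fun h => o'.1.inj' (o.1.congr (by rw [funext k, funext k', h])),
    fun h => eq_inv o o' fun i => by rw [k, k', h]; cases h' : σ i <;> simp [h0, h']⟩

theorem rc [Finite T] (h : ρ.Gm) : RC ρ.Rt := fun x g q od hk => by
  by_cases x1 : x = 1
  · simp [x1]
  obtain ⟨r, hr, ho, e, r35⟩ := ord h q od
  obtain ⟨k, hk⟩ := mem_powers_iff_mem_zpowers.2 hk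
  simp only at hk
  by_cases r0 : (r : K) = 0
  · obtain ⟨X, o, -⟩ := ρ.exO ho e
    have k1 := unip hr r0 q o e
    have k2 : (X ^ k - 1) * (X - 1) = 0 := by
      rw [← geom_sum_mul, mul_assoc, k1, mul_zero]
    have k3 : (X - 1) * (X ^ k - 1) = 0 := by rw [← mul_geom_sum, ← mul_assoc, k1, zero_mul]
    exact hk ▸ ((h.sq x X o.1 (mt o.eq_one.2 x1) k1).2 _ _ (o.1.pow k) k2 k3).resolve_left (by rw [hk]; simpa)
  obtain ⟨Q, hQ, k1⟩ := h.diag (R := {x}) ho r0 (by simpa) (by simp)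
  obtain ⟨d, o⟩ := k1 x rfl
  obtain ⟨G, hG⟩ := (ρ.cj Q hQ).exL g
  have o' : (ρ.cj Q hQ).O (g * x * g⁻¹) (diagonal (d ^ k)) := by rw [← hk, ← diagonal_pow]; exact o.pow k
  obtain ⟨i, hi⟩ := eig hG o o'
  obtain ⟨h0, -, σ, -, k2⟩ := dg2 (h.cj hQ) ((Rt.cj hQ).2 q) o x1 (Or.inl rfl : d 0 = d 0 ∨ _)
  rw [k2 i, Pi.pow_apply] at hi
  cases e : σ i <;> simp only [e, if_true, Bool.false_eq_true, if_false] at hi
  · exact Or.inr ((pat o o' h0 k2 (τ := fun i => !σ i) fun i => by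
      rw [Pi.pow_apply, k2 i]; cases h' : σ i <;> simp [hi, h']).2 rfl)
  · exact Or.inl ((pat o o' h0 k2 (τ := σ) fun i => by rw [Pi.pow_apply, k2 i]; cases σ i <;> simp [hi]).1 rfl)

theorem three (h : ρ.Gm) : Three ρ.Rt := fun x g g' q od c1 c2 c3 => by
  by_cases x1 : x = 1
  · simp [x1]
  obtain ⟨r, hr, ho, e, r35⟩ := ord h q od
  have y1 : g * x * g⁻¹ ≠ 1 := by simpa
  by_cases r0 : (r : K) = 0
  · obtain ⟨X, o, -⟩ := ρ.exO ho e
    obtain ⟨G, hG⟩ := ρ.exL g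
    obtain ⟨G', hG'⟩ := ρ.exL g'
    have o1 := o.conj hG
    have o2 := o.conj hG'
    have k : ∀ {X Y : M4 K}, X * Y = Y * X → (X - 1) * (Y - 1) = (Y - 1) * (X - 1) := fun e => by
      simp only [mul_sub, sub_mul, e, mul_one, one_mul]; abel
    have k0 := unip hr r0 q o e
    have k1 := unip hr r0 (q.conj g) o1 (by simp [e])
    have d1 := k (o1.comm o.1 c1)
    have d2 := k (o2.comm o.1 c2)
    have d3 := k (o2.comm o1.1 c3)
    rcases cyc_three h.two k0 k1 (unip hr r0 (q.conj g') o2 (by simp [e])) d1 d2.symm d3.symm with a | a | a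
    · have := ((h.sq x X o.1 (mt o.eq_one.2 x1) k0).2 _ _ o1.1 (d1 ▸ a) a).resolve_left y1
      tauto
    · have := ((h.sq x X o.1 (mt o.eq_one.2 x1) k0).2 _ _ o2.1 (d2 ▸ a) a).resolve_left (by simpa)
      tauto
    · have := ((h.sq _ _ o1.1 (mt o1.eq_one.2 y1) k1).2 _ _ o2.1 (d3 ▸ a) a).resolve_left (by simpa)
      tauto
  obtain ⟨Q, hQ, k1⟩ := h.diag (R := {x, g * x * g⁻¹, g' * x * g'⁻¹}) ho r0 (by simp [e]) (by
    rintro a (rfl | rfl | rfl) b (rfl | rfl | rfl) <;> first | rfl | assumption | (symm; assumption))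
  obtain ⟨d, o⟩ := k1 x (by simp)
  obtain ⟨d1, o1⟩ := k1 (g * x * g⁻¹) (by simp)
  obtain ⟨d2, o2⟩ := k1 (g' * x * g'⁻¹) (by simp)
  obtain ⟨G, hG⟩ := (ρ.cj Q hQ).exL g
  obtain ⟨G', hG'⟩ := (ρ.cj Q hQ).exL g'
  obtain ⟨i, hi⟩ := eig hG o o1
  obtain ⟨j, hj⟩ := eig hG' o o2
  obtain ⟨h0, h1, σ, s, k⟩ := dg2 (h.cj hQ) ((Rt.cj hQ).2 q) o x1 (Or.inl rfl : d 0 = d 0 ∨ _)
  obtain ⟨-, -, τ, t, k'⟩ := dg2 (h.cj hQ) ((Rt.cj hQ).2 (q.conj g)) o1 y1 (α := d 0) (j := 0) (by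
    rw [hi, k i]; cases σ i <;> simp)
  obtain ⟨-, -, υ, u, k''⟩ := dg2 (h.cj hQ) ((Rt.cj hQ).2 (q.conj g')) o2 (by simpa) (α := d 0) (j := 0) (by
    rw [hj, k j]; cases σ j <;> simp)
  have p1 := pat o o1 h0 k k'
  have p2 := pat o o2 h0 k k''
  have p3 := pat o1 o2 h0 k' k''
  rcases two3 σ τ υ s t u with a | ⟨l, c, a⟩
  · exact a.imp p1.1 (Or.imp p1.2 (Or.imp p2.1 (Or.imp p2.2 (Or.imp p3.1 p3.2))))
  have o3 := (o.mul o1 c1).mul o2 (by rw [mul_assoc, c3, ← mul_assoc x, c2, mul_assoc])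
  simp only [diagonal_mul_diagonal] at o3
  have a1 : ∀ i, i ≠ l → d i * d1 i * d2 i = if c then d 0 else (d 0)⁻¹ := fun i hi => by
    have := a i hi
    rw [k i, k' i, k'' i]
    generalize d 0 = α at *
    cases c <;> cases h1 : σ i <;> cases h2 : τ i <;> cases h3 : υ i <;> simp [h1, h2, h3] at this <;> simp [h0]
  have a2 := o3.eq_one.1 ((h.cj hQ).per _ _ _ o3.1 (rk1_diag l a1))
  have a3 := congrFun (congrFun a2 (l + 1)) (l + 1)
  rw [diagonal_apply_eq, a1 _ (by simp)] at a3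
  cases c <;> simp [h1] at a3

theorem nq [Finite T] (h : ρ.Gm) (n : ρ.Neg) : NQ ρ.Rt := fun u v y iu iv uv c od y1 yu yv => by
  obtain ⟨U, hU⟩ := ρ.exL u
  obtain ⟨V, hV⟩ := ρ.exL v
  have e1 := n.neg u U iu hU
  have e2 := n.neg v V iv hV
  have e3 := n.neg _ _ ⟨fun e => uv (by rw [eq_inv_of_mul_eq_one_left e, iv.inv_eq]), by
    rw [mul_assoc, ← mul_assoc v, ← c, mul_assoc, iv.2, mul_one, iu.2]⟩ (hU.mul hV)
  have qa : H6.Y.Qa U V := ⟨h.two, e1, e2, by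
    have := congrArg (fun Z => U * Z * V) e3
    simp only [← mul_assoc, e1] at this
    simpa [mul_assoc, e2] using this⟩
  have ro : ∀ y, Od y → y ∈ Cn u → y ∈ Cn v → ρ.Rt y := fun y ⟨m, hm, e⟩ yu yv => by
    obtain ⟨Y, o, -⟩ := ρ.exO hm e
    exact ⟨Y, o.1, qa.quad (h.spl _ _ hU) ⟨o.comm hU (mem_Cn.1 yu), o.comm hV (mem_Cn.1 yv)⟩⟩
  refine ⟨ro y od yu yv, fun z oz zu zv c => ?_⟩
  obtain ⟨r, hr, ho, e, r35⟩ := ord h (ro y od yu yv) od
  obtain ⟨s, hs, ho', e', s35⟩ := ord h (ro z oz zu zv) oz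
  have q3 := ro _ (od.mul oz c) (mul_mem yu zu) (mul_mem yv zv)
  obtain ⟨t, ht, -, e'', t35⟩ := ord h q3 (od.mul oz c)
  rw [Commute.mul_pow c] at e''
  have ez : z ^ r = 1 := by
    have k : ∀ {a : T}, a ^ 3 = 1 → a ^ 5 = 1 → a = 1 := fun {a} h1 h2 => by
      have : a ^ (3 * 2) = a ^ 5 * a := pow_succ a 5
      rw [pow_mul, h1, h2, one_pow, one_mul] at this
      exact this.symm
    rcases r35 with rfl | rfl <;> rcases s35 with rfl | rfl
    · exact e'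
    · rcases t35 with rfl | rfl
      · rwa [e, one_mul] at e''
      · exact (y1 (k e (by rwa [e', mul_one] at e''))).elim
    · rcases t35 with rfl | rfl
      · exact (y1 (k (by rwa [e', mul_one] at e'') e)).elim
      · rwa [e, one_mul] at e''
    · exact e'
  by_cases r0 : (r : K) = 0
  · obtain ⟨Y, o, -⟩ := ρ.exO ho e
    obtain ⟨Z, o', -⟩ := ρ.exO ho ez
    have k1 := unip hr r0 (ro y od yu yv) o e
    have k2 := unip hr r0 (ro z oz zu zv) o' ez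
    have k3 := unip hr r0 q3 (o.mul o' c) (by rw [Commute.mul_pow c, e, ez, one_mul])
    have k4 := o'.comm o.1 c
    obtain ⟨A, rfl⟩ : ∃ A, Y = A + 1 := ⟨Y - 1, by simp⟩
    obtain ⟨B, rfl⟩ : ∃ A, Z = A + 1 := ⟨Z - 1, by simp⟩
    have k5 : B * A = A * B := by simp only [mul_add, add_mul, mul_one, one_mul] at k4; linear_combination (norm := abel) -k4
    have k6 : A * B = 0 := by
      simp only [add_sub_cancel_right] at k1 k2
      have a1 : A * (A * B) = 0 := by rw [← mul_assoc, k1, zero_mul]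
      have a2 : B * (A * B) = 0 := by rw [← mul_assoc, k5, mul_assoc, k2, mul_zero]
      have a3 : A * (B * A) = 0 := by rw [k5, a1]
      simp only [mul_add, add_mul, mul_one, one_mul, mul_sub, sub_mul, mul_assoc, k1, k2, k5, a1, a2, mul_zero] at k3
      exact H6.Y.half h.two (by linear_combination (norm := module) k3)
    rcases (h.sq y _ o.1 (mt o.eq_one.2 y1) k1).2 _ _ o'.1 (by simp [k5, k6]) (by simp [k6]) with rfl | rfl | rfl <;> simp
  obtain ⟨Q, hQ, k1⟩ := h.diag (R := {y, z}) ho r0 (by simp [e, ez]) (by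
    rintro a (rfl | rfl) b (rfl | rfl) <;> first | rfl | assumption | (symm; assumption))
  obtain ⟨d, o⟩ := k1 y (by simp)
  obtain ⟨d', o'⟩ := k1 z (by simp)
  obtain ⟨h0, h1, -⟩ := dg2 (h.cj hQ) ((Rt.cj hQ).2 (ro y od yu yv)) o y1 (Or.inl rfl : d 0 = d 0 ∨ _)
  have a1 : d 0 ^ r = 1 := by simpa [diagonal_pow] using congrFun (congrFun (o.pow_eq e) 0) 0
  have a2 : (d' 0)⁻¹ ^ r = 1 := by simpa [diagonal_pow] using congrFun (congrFun (o'.pow_eq ez) 0) 0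
  have := Fact.mk hr
  obtain ⟨k, -, hk⟩ := (orderOf_eq_prime a1 h1 ▸ IsPrimitiveRoot.orderOf (d 0)).eq_pow_of_pow_eq_one a2
  have c' : y ^ k * z = z * y ^ k := (Commute.pow_left c k)
  have o3 := (o.pow k).mul o' c'
  rw [diagonal_pow, diagonal_mul_diagonal] at o3
  have a3 : d' 0 ≠ 0 := by rintro e; simp [e, hr.ne_zero] at a2
  have : y ^ k * z = 1 := of_not_not fun n => (dg2 (h.cj hQ) ((Rt.cj hQ).2 (ro _ ((od.pow k).mul oz c')
    (mul_mem (pow_mem yu k) zu) (mul_mem (pow_mem yv k) zv))) o3 n (α := 1) (j := 0) (by simp [hk, a3])).2.1 rfl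
  rw [eq_inv_of_mul_eq_one_right this]
  simp

end Cfsg.Agent.H5.G2
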