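import Cfsg.Agent.H5.TA2c
import Cfsg.Agent.H2.TL2
import Cfsg.Agent.H9.TU3
import Cfsg.Agent.H2.M4g
import Cfsg.Agent.H7.M4D

/-!
Irreducible quasisimple four-dimensional linear groups containing a transvection.
-/

set_option autoImplicit false

namespace Cfsg.Agent.H5.TA

open Module Cfsg.Agent.H7 Matrix Cfsg.Agent.H2.M4 Cfsg.Agent.Asch commutatorElement

variable {K : Type*} [Field K]

theorem abs {V : Type*} [AddCommGroup V] [Module K V] {M : Subgroup (V ≃ₗ[K] V)} [Finite K] (h : Hy M) (uq : Uq M)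
    {φ : Dual K V} {v : V} (t : Tv M φ v) : SD M ∨ IsSU M := by
  have k : Rat M → SD M ∨ IsSU M := fun ⟨O, E, c, h1, h2⟩ => H9.TU.unit h uq c E h1 h2 (h.not_mono c)
  by_cases sm : Sm M; swap
  · simp only [Sm, not_forall, not_or] at sm
    obtain ⟨φ, v, t, a, ha, a0, a1, a2⟩ := sm
    exact k (rat_big h uq t ha a0 a1 a2)
  by_cases h2 : (2 : K) = 0
  · exact (rat_two h2 h uq fun φ v t a ha => by have := sm φ v t a ha; grind).elim
      (fun s => Or.inl (H9.TU.sd_of_sym h uq (cls_tv t) s)) k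
  · exact k (rat_odd h uq sm h2 t)

/-- the group of linear automorphisms defined by a matrix group -/
noncomputable def mp (P : Subgroup (G4 K)) : Subgroup ((Fin 4 → K) ≃ₗ[K] (Fin 4 → K)) := P.map (toLE (ι := Fin 4) (F := K)).toMonoidHom

variable {P : Subgroup (G4 K)}

theorem mem_mp {g : G4 K} : toLE g ∈ mp P ↔ g ∈ P := Subgroup.mem_map_iff_mem (toLE (ι := Fin 4) (F := K)).injective

theorem has_mp {a v : Fin 4 → K} : Has (mp P) (dotProductEquiv K _ a) v ↔ ∃ g ∈ P, g.val = 1 + vecMulVec v a := by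
  constructor
  · rintro ⟨_, ⟨g, hg, rfl⟩, e⟩
    exact ⟨g, hg, Matrix.ext_of_mulVec_single fun j => by
      rw [add_mulVec, one_mulVec, vecMulVec_mulVec, op_smul_eq_smul]; exact e _⟩
  · rintro ⟨g, hg, e⟩
    exact ⟨_, ⟨g, hg, rfl⟩, fun z => (toLE_apply g z).trans (by
      rw [e, add_mulVec, one_mulVec, vecMulVec_mulVec, op_smul_eq_smul]; rfl)⟩

/-- a non-scalar element generates `P` as a normal subgroup -/
def Nc (P : Subgroup (G4 K)) : Prop := ∀ t ∈ P, pr t ≠ 1 → ∀ N : Subgroup (G4 K), (∀ g ∈ P, g * t * g⁻¹ ∈ N) → P ≤ N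

theorem nc_of (hp : ⁅P, P⁆ = P) (hs : IsSimpleGroup (PQ P)) : Nc P := fun t ht h1 N hN => by
  have := (pqEquiv P).symm.isSimpleGroup
  let A : Subgroup (G4 K) :=
    { carrier := {x | x ∈ P ∧ ∀ g ∈ P, g * x * g⁻¹ ∈ N}
      one_mem' := ⟨one_mem _, fun g _ => by simp⟩
      mul_mem' := fun {a b} ha hb => ⟨mul_mem ha.1 hb.1, fun g hg => by
        simpa [mul_assoc] using mul_mem (ha.2 g hg) (hb.2 g hg)⟩
      inv_mem' := fun {a} ha => ⟨inv_mem ha.1, fun g hg => by simpa [mul_assoc] using inv_mem (ha.2 g hg)⟩ }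
  have hA : ((bar A).subgroupOf (bar P)).Normal := ⟨by
    rintro ⟨_, h0⟩ ⟨x, hx, rfl⟩ ⟨_, g, hg, rfl⟩
    exact ⟨g * x * g⁻¹, ⟨mul_mem (mul_mem hg hx.1) (inv_mem hg), fun k hk => by
      simpa [mul_assoc] using hx.2 _ (mul_mem hk hg)⟩, rfl⟩⟩
  have h2 := hA.eq_bot_or_eq_top.resolve_left fun e =>
    h1 (congrArg Subtype.val ((Subgroup.eq_bot_iff_forall _).1 e ⟨pr t, mem_bar ht⟩ (mem_bar (L := A) ⟨ht, hN⟩)))
  have h3 : ∀ x ∈ P, ∃ y ∈ A, pr (x * y⁻¹) = 1 := fun x hx => by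
    obtain ⟨y, hy, e⟩ : pr x ∈ bar A := (h2 ▸ Subgroup.mem_top _ : (⟨pr x, mem_bar hx⟩ : bar P) ∈ (bar A).subgroupOf (bar P))
    exact ⟨y, hy, by simp [e]⟩
  rw [← hp, Subgroup.commutator_le]
  intro x hx x' hx'
  obtain ⟨y, hy, e⟩ := h3 x hx
  obtain ⟨y', hy', e'⟩ := h3 x' hx'
  obtain ⟨z, rfl⟩ : ∃ z, x = z * y := ⟨x * y⁻¹, by simp⟩
  obtain ⟨z', rfl⟩ : ∃ z, x' = z * y' := ⟨x' * y'⁻¹, by simp⟩
  rw [mul_inv_cancel_right] at e e'
  have c : Commute z y ∧ Commute z y' ∧ Commute z' y ∧ Commute z' y' ∧ Commute z z' :=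
    ⟨(sc_central e _).symm, (sc_central e _).symm, (sc_central e' _).symm, (sc_central e' _).symm, (sc_central e _).symm⟩
  have : ⁅z * y, z' * y'⁆ = ⁅y, y'⁆ := by
    simp only [commutatorElement_def, _root_.mul_inv_rev]
    calc _ = z * (y * z' * y' * y⁻¹) * z⁻¹ * y'⁻¹ * z'⁻¹ := by group
      _ = z' * (y * y' * y⁻¹ * y'⁻¹) * z'⁻¹ := by rw [← sc_central e, sc_central e' y]; group
      _ = _ := by rw [← sc_central e']; group
  simpa [this, commutatorElement_def] using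
    (mul_mem (mul_mem (mul_mem hy hy') (inv_mem hy)) (inv_mem hy') : _ ∈ A).2 1 (one_mem _)

theorem hy_of (hp : ⁅P, P⁆ = P) (hn : Nc P) (hF : Full (Geo.matrixSet P)) : Hy (mp P) where
  dim := by simp
  irr W hW := hF.irr W fun g hg => hW _ (mem_mp.2 hg)
  perf := by rw [mp, ← Subgroup.map_commutator, hp]
  gen φ v t N hN := by
    obtain ⟨_, ⟨x, hx, rfl⟩, e⟩ := t.has
    rw [mp, Subgroup.map_le_iff_le_comap]
    refine hn x hx (fun h => ?_) _ fun g hg => ?_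
    · obtain ⟨c, hc⟩ := pr_eq_one'.1 h
      obtain ⟨z, hz⟩ := DFunLike.ne_iff.1 t.φ0
      have e1 : ∀ z, c • z = z + φ z • v := fun z => by
        rw [← e]; change _ = x.val *ᵥ z; rw [hc, smul_mulVec, one_mulVec]
      have e2 : c = 1 := smul_left_injective K t.v0 (by simpa [t.zero] using e1 v)
      exact smul_ne_zero hz t.v0 (by simpa [e2] using e1 z)
    · obtain ⟨y, hy, e'⟩ := hN _ (mem_mp.2 hg)
      convert (hy : y ∈ N)
      rw [Subgroup.mem_comap]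
      congr! 1
      ext1 z
      simp only [map_mul, map_inv, LinearEquiv.mul_apply, e', e, map_add, map_smul]
      simp

theorem exists_Q (b : Basis (Fin 4) K (Fin 4 → K)) :
    ∃ Q : G4 K, ∀ g : G4 K, LinearMap.toMatrix b b (toLE g : _ →ₗ[K] _) = cj Q⁻¹ g.val :=
  ⟨⟨(Pi.basisFun K _).toMatrix b, b.toMatrix (Pi.basisFun K _), Basis.toMatrix_mul_toMatrix_flip _ _,
    Basis.toMatrix_mul_toMatrix_flip _ _⟩, fun g => by
    rw [toLE_coe, ← basis_toMatrix_mul_linearMap_toMatrix_mul_basis_toMatrix b (Pi.basisFun K _) b (Pi.basisFun K _)]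
    simp [cj_apply]⟩

theorem c1_of (h : IsSL (mp P)) : C1 P := by
  obtain ⟨E, b, h⟩ := h
  obtain ⟨Q, e⟩ := exists_Q b
  exact ⟨E, Q, fun g => by rw [← mem_mp, h, e, det_cj]; rfl⟩

theorem c2_of (h : IsSU (mp P)) : C2 P := by
  obtain ⟨E, q, b, hE, h⟩ := h
  obtain ⟨Q, e⟩ := exists_Q b
  exact ⟨E, q, Q, hE, fun g => by rw [← mem_mp, h, e, det_cj]; rfl⟩

theorem c3_of (h : SD (mp P)) : C3 P := by
  obtain ⟨B, h1, h2⟩ := h
  refine fun x hx => T_inv_of_symm (B := LinearMap.BilinForm.toMatrix' B) (fun e => ?_) ?_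
  · obtain ⟨v, hv, e⟩ := exists_vecMul_eq_zero_iff.2 e
    refine hv (h1 v fun y => ?_)
    rw [← Matrix.toBilin'_toMatrix' B, Matrix.toBilin'_apply', dotProduct_mulVec, e, zero_dotProduct]
  · rw [LinearMap.BilinForm.mul_toMatrix'_mul]
    congr 1
    exact LinearMap.ext₂ fun y z => h2 _ (mem_mp.2 hx) y z

/-- (A): a quasisimple absolutely irreducible group with a transvection is a linear, unitary or self-dual group -/
theorem main [Finite K] (hp : ⁅P, P⁆ = P) (hs : IsSimpleGroup (PQ P)) (hF : Full (Geo.matrixSet P)) (h : ¬ M4.NoTv P) :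
    C1 P ∨ C2 P ∨ C3 P := by
  have hn := nc_of hp hs
  have hy := hy_of hp hn hF
  simp only [M4.NoTv, not_forall, not_not] at h
  obtain ⟨X, hX, h⟩ := h
  obtain ⟨v, hv, hv'⟩ := finrank_eq_one_iff'.1 h
  choose c hc using fun j => hv' ⟨_, Pi.single j 1, rfl⟩
  have e : X.val - 1 = vecMulVec v c := by
    ext i j
    have := congrFun (congrArg Subtype.val (hc j)) i
    simpa [vecMulVec_apply, mul_comm, Pi.single_apply, one_apply] using this.symm
  have h1 : Has (mp P) (dotProductEquiv K _ c) v := has_mp.2 ⟨X, hX, by rw [← e]; simp⟩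
  have t : Tv (mp P) (dotProductEquiv K _ c) v := by
    refine ⟨h1, ?_, fun e' => ?_, by simpa using hv⟩
    · obtain ⟨_, ⟨g, hg, rfl⟩, e⟩ := h1
      have := det_of_rank_one e
      rw [MulEquiv.coe_toMonoidHom, det_toLE, GeneralLinearGroup.val_det_apply, det_eq_one_of_perfect hp hg] at this
      simpa using this
    · rw [e, (map_eq_zero_iff _ (dotProductEquiv K _).injective).1 e'] at h
      simp at h
  by_cases ax : ∀ {φ ψ v}, Tv (mp P) φ v → Tv (mp P) ψ v → ∃ c : K, ψ = c • φ; swap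
  · simp only [not_forall] at ax
    obtain ⟨φ, ψ, v, h1, h2, h3⟩ := ax
    exact Or.inl (c1_of (H2.TL.large hy h1 h2 h3))
  by_cases ct : ∀ {φ v w}, Tv (mp P) φ v → Tv (mp P) φ w → ∃ c : K, w = c • v
  · exact Or.inr ((abs hy ⟨ax, ct⟩ t).symm.imp c2_of c3_of)
  simp only [not_forall] at ct
  obtain ⟨φ, v, w, h1, h2, h3⟩ := ct
  obtain ⟨a, rfl⟩ := (dotProductEquiv K _).surjective φ
  let d : G4 K →* G4 K := dualG (RingHom.id K)
  have d1 : ∀ g, (d g⁻¹).val = g.valᵀ := fun g => by simp [d, dualG]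
  have d2 : ∀ g, d (d g) = g := fun g => Units.ext (by
    rw [← inv_inv (d g), d1, ← map_inv, d1, transpose_transpose])
  have d3 : ∀ g, d g ∈ P.map d ↔ g ∈ P := fun g => Subgroup.mem_map_iff_mem (Function.LeftInverse.injective d2)
  have hy' : Hy (mp (P.map d)) := by
    refine hy_of (by rw [← Subgroup.map_commutator, hp]) ?_ (eq_top_iff.2 fun X _ => ?_)
    · rintro _ ⟨x, hx, rfl⟩ h N hN
      refine Subgroup.map_le_iff_le_comap.2 (hn x hx (fun e => h ?_) _ fun g hg => by simpa using hN _ ⟨g, hg, rfl⟩)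
      obtain ⟨c, hc⟩ := pr_eq_one'.1 (show pr x⁻¹ = 1 by simp [e])
      exact pr_eq_one'.2 ⟨c, by rw [← inv_inv x, d1, hc]; simp⟩
    · refine hF.induction (p := fun X => Xᵀ ∈ Submodule.span K (Geo.matrixSet (P.map d))) ?_ (by simp)
        (fun x y hx hy => by simpa using add_mem hx hy) (fun c x hx => by simpa using Submodule.smul_mem _ c hx) Xᵀ
      rintro _ ⟨g, hg, rfl⟩
      exact Submodule.subset_span ⟨_, (d3 _).2 (inv_mem hg), d1 g⟩
  have k : ∀ {v}, Tv (mp P) (dotProductEquiv K _ a) v → Tv (mp (P.map d)) (dotProductEquiv K _ v) a := fun {v} t => by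
    obtain ⟨g, hg, e⟩ := has_mp.1 t.has
    exact ⟨has_mp.2 ⟨_, (d3 _).2 (inv_mem hg), by rw [d1, e]; simp [transpose_vecMulVec]⟩, (dotProduct_comm v a).trans t.zero,
      by simpa using t.v0, by simpa using t.φ0⟩
  obtain ⟨E, Q, h⟩ := c1_of (H2.TL.large hy' (k h1) (k h2) fun ⟨c, e⟩ =>
    h3 ⟨c, (dotProductEquiv K _).injective (by rw [e, map_smul])⟩)
  refine Or.inl ⟨E, d Q, fun g => ?_⟩
  have e : cj Q⁻¹ (d g⁻¹).val = (cj (d Q)⁻¹ g.val)ᵀ := by
    rw [cj_apply, cj_apply, ← map_inv, d1, d1, ← map_inv, d1]; simp [mul_assoc]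
  rw [← inv_mem_iff, ← d3, h, e, d1, det_transpose]
  exact and_congr_right fun _ => forall_comm

end Cfsg.Agent.H5.TA
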