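import Cfsg.Agent.H5.CK5

/-! Wagner's theorem for PG(4,q): a group of linear maps two-transitive on the points
contains the special linear group. -/

set_option autoImplicit false
set_option linter.unusedSectionVars false

namespace Cfsg.Agent.H5.CK

open Module

section
variable {F V W Γ : Type*} [Field F] [Fintype F] [AddCommGroup V] [Module F V] [Finite V]
  [AddCommGroup W] [Module F W] [Finite W] [Group Γ] [Finite Γ]
  [DistribMulAction Γ V] [SMulCommClass Γ F V] [DistribMulAction Γ W] [SMulCommClass Γ F W]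
  {B : V →ₗ[F] W →ₗ[F] F}

theorem Hyp.tv [FaithfulSMul Γ V] (h : Hyp Γ B) (hd : finrank F V = 5) : TV F V Γ := by
  obtain ⟨s, hs, sd, H⟩ := exists_ppd (q := Fintype.card F) Fintype.one_lt_card
  have := Fact.mk hs
  obtain ⟨r, hr⟩ := exists_prime_orderOf_dvd_card' (G := Γ) s (by
    refine sd.trans (dvd_trans ?_ (h.dvd_card hd))
    obtain ⟨k, hk⟩ : ∃ k, Fintype.card F = k + 1 := ⟨_, (Nat.succ_pred_eq_of_pos Fintype.card_pos).symm⟩
    rw [hk]
    exact ⟨(k + 1) * k, Nat.sub_eq_of_eq_add (by ring)⟩)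
  have dl := dim_fx (V := V) hd hs H hr
  obtain ⟨x, xl, hx⟩ := H7.exists_mem_notMem_of_finrank_lt (U := Fx F V r) (W := ⊥)
    (by rw [finrank_bot]; omega)
  have hx := ne_zero_of_not_mem hx
  obtain ⟨y, yl, hy⟩ := H7.exists_mem_notMem_of_finrank_lt (U := Fx F V r) (W := F ∙ x)
    (by rw [finrank_span_singleton hx]; omega)
  have sp : ∀ v ∈ Fx F V r, ∃ a b : F, v = a • x + b • y := fun v hv => by
    obtain ⟨a, b, e⟩ := Submodule.mem_span_pair.1 (span_two_le (U := Submodule.span F {x, y}) dl hx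
      hy xl yl (Submodule.subset_span (by simp)) (Submodule.subset_span (by simp)) hv)
    exact ⟨a, b, e.symm⟩
  have mem : ∀ g : Γ, g • x ∈ Fx F V r → g • y ∈ Fx F V r → g ∈ SS Γ (Fx F V r) :=
    fun g h1 h2 v hv => by
      obtain ⟨a, b, rfl⟩ := sp v hv
      rw [smul_add, gsm, gsm]
      exact Submodule.add_mem _ (Submodule.smul_mem _ _ h1) (Submodule.smul_mem _ _ h2)
  let r' : SS Γ (Fx F V r) := ⟨r, fun v hv => by rwa [mem_Fx.1 hv]⟩
  obtain ⟨g, b, h1, h2, h3⟩ := core (Δ := SS Γ (Fx F V r)) (r := r') hd hs H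
    (by rw [← Subgroup.orderOf_coe, hr]) (fun g => g.2) hx xl yl sp
    (fun c => by
      obtain ⟨g, g1, g2⟩ := h.uni hy c
      exact ⟨⟨g, mem g (by rwa [g1]) (by
        rw [g2]; exact Submodule.add_mem _ yl (Submodule.smul_mem _ _ xl))⟩, g1, g2⟩)
    (by
      obtain ⟨g, g1, g2⟩ := h.uni (not_mem_span_symm hx hy) 1
      rw [one_smul] at g2
      exact ⟨⟨g, mem g (by rw [g2]; exact Submodule.add_mem _ xl yl) (by rwa [g1])⟩, g1, g2⟩)
    (fun W₀ hc => by
      obtain ⟨φ, hφ, e1, e2, T⟩ := h.f2 hx hy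
      obtain ⟨v, hv⟩ := h.toPre.exists_one' hφ
      obtain ⟨u, hu, w, hw, rfl⟩ :=
        Submodule.mem_sup.1 (hc.sup_eq_top ▸ Submodule.mem_top (x := v))
      obtain ⟨a, b, rfl⟩ := sp u hu
      have e3 : B w φ = 1 := by simpa [e1, e2] using hv
      obtain ⟨g, g1, g2, -, g3⟩ := T w (w + x) e3 (by simp [e3, e1])
      refine ⟨⟨g, mem g (by rwa [g1]) ?_⟩, w, hw, fun hc' => hx ?_⟩
      · have := Submodule.add_mem _ ((Submodule.span_singleton_le_iff_mem _ _).2 xl g2) yl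
        simpa using this
      · have : w + x ∈ W₀ := g3 ▸ hc'
        exact Submodule.disjoint_def.1 hc.disjoint x xl ((W₀.add_mem_iff_right hw).1 this))
  exact ⟨g, b, h1, h2, h3⟩

theorem Pre.tv_conj (h : Pre Γ B) {t : Γ} {b : V} {φ : W} (ht : ∀ v, t • v = v + B v φ • b)
    (g : Γ) (v : V) : (g * t * g⁻¹) • v = v + B v (g • φ) • g • b := by
  rw [mul_smul, mul_smul, ht, smul_add, smul_inv_smul, gsm, h.inv_right]

theorem Hyp.all_tv (h : Hyp Γ B) (ht : TV F V Γ) (b : V) (φ : W) (hb : B b φ = 0) :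
    ∃ g : Γ, ∀ v, g • v = v + B v φ • b := by
  classical
  have := Fintype.ofFinite V
  obtain ⟨t, b₀, t1, t2, v₀, t3⟩ := ht
  have hb₀ : b₀ ≠ 0 := by
    rintro rfl
    exact t3 (by simpa [sub_eq_zero] using t2 v₀)
  obtain ⟨w, hw⟩ := h.toPre.exists_one hb₀
  obtain ⟨φ₀, ht⟩ : ∃ φ₀ : W, ∀ v, t • v = v + B v φ₀ • b₀ := ⟨t⁻¹ • w - w, fun v => by
    obtain ⟨c, hc⟩ := Submodule.mem_span_singleton.1 (t2 v)
    have : B v (t⁻¹ • w - w) = c := by
      rw [map_sub, ← h.toPre.inv_left, ← LinearMap.sub_apply, ← map_sub, ← hc]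
      simp [hw]
    rw [this, hc, add_sub_cancel]⟩
  have hφ₀ : φ₀ ≠ 0 := by
    rintro rfl
    exact t3 (by simpa using ht v₀)
  have e₀ : B b₀ φ₀ = 0 := by
    have := ht b₀
    rw [t1] at this
    simpa [hb₀] using this
  let A : AddSubgroup V :=
    { carrier := {a | B a φ₀ = 0 ∧ ∃ g : Γ, ∀ v, g • v = v + B v φ₀ • a}
      zero_mem' := ⟨by simp, 1, by simp⟩
      add_mem' := fun {a a'} ⟨h1, g, hg⟩ ⟨h2, g', hg'⟩ => ⟨by simp [h1, h2], g * g', fun v => by
        rw [mul_smul, hg', hg]; simp [h2]; module⟩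
      neg_mem' := fun {a} ⟨h1, g, hg⟩ => ⟨by simp [h1], g⁻¹, fun v => by
        rw [inv_smul_eq_iff, hg]; simp [h1]⟩ }
  have mA : ∀ a, a ∈ A ↔ B a φ₀ = 0 ∧ ∃ g : Γ, ∀ v, g • v = v + B v φ₀ • a := fun _ => Iff.rfl
  set s : Finset V := Finset.univ.filter fun v => v ≠ 0 ∧ B v φ₀ = 0 with hs
  set u : Finset V := Finset.univ.filter fun v => v ≠ 0 ∧ v ∈ A with hu
  have ms : ∀ v, v ∈ s ↔ v ≠ 0 ∧ B v φ₀ = 0 := fun v => by simp [hs]
  have mu : ∀ v, v ∈ u ↔ v ≠ 0 ∧ v ∈ A := fun v => by simp [hu]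
  have le : ∀ c ∈ s, ∀ c' ∈ s, (u.bipartiteAbove (fun c a => a ∈ F ∙ c) c).card ≤
      (u.bipartiteAbove (fun c a => a ∈ F ∙ c) c').card := fun c hc c' hc' => by
    obtain ⟨g, hg, e⟩ := h.flag' hφ₀ ((ms c).1 hc).1 ((ms c').1 hc').1 ((ms c).1 hc).2
      ((ms c').1 hc').2
    obtain ⟨l, hl, e'⟩ := (mem_SS_span' hφ₀).1 hg
    refine Finset.card_le_card_of_injOn (fun a => l • g • a) (fun a ha => ?_)
      fun a _ a' _ e => by simpa [smul_right_inj hl] using e
    rw [Finset.mem_coe, Finset.mem_bipartiteAbove, mu] at ha ⊢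
    obtain ⟨⟨a1, a2, k, hk⟩, a3⟩ := ha
    refine ⟨⟨smul_ne_zero hl (smul_ne a1), ?_, g * k * g⁻¹, fun v => ?_⟩, ?_⟩
    · exact Submodule.smul_mem (LinearMap.ker (B.flip φ₀)) _ (h.toPre.ker_SS hg a a2)
    · rw [h.toPre.tv_conj hk, e', (B v).map_smul, smul_smul, smul_eq_mul, mul_comm]
    · obtain ⟨m, rfl⟩ := Submodule.mem_span_singleton.1 a3
      show l • g • m • c ∈ F ∙ c'
      rw [gsm, e]
      exact Submodule.smul_mem _ _ (Submodule.smul_mem _ _ (Submodule.mem_span_singleton_self _))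
  have cardne : ∀ (U : Set V) (f : Finset V), (0 : V) ∈ U → (∀ v, v ∈ f ↔ v ≠ 0 ∧ v ∈ U) →
      f.card + 1 = Nat.card U := fun U f h0 hf => by
    rw [← Finset.card_insert_of_notMem (a := 0) (by simp [hf]), ← Nat.card_eq_finsetCard]
    refine Nat.card_congr (Equiv.subtypeEquivRight fun v => ?_)
    by_cases hv : v = 0 <;> simp [hf, hv, h0]
  have cline : ∀ a : V, a ≠ 0 → ∀ f : Finset V, (∀ v, v ∈ f ↔ v ≠ 0 ∧ v ∈ F ∙ a) →
      f.card + 1 = Fintype.card F := fun a ha f hf => by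
    rw [cardne (F ∙ a : Submodule F V) f (Submodule.zero_mem _) hf]
    have := card_sub (F := F) (F ∙ a)
    rwa [finrank_span_singleton ha, pow_one] at this
  have b₀s : b₀ ∈ s := (ms _).2 ⟨hb₀, e₀⟩
  have dc := Finset.card_mul_eq_card_mul (s := s) (t := u) (fun c a => a ∈ F ∙ c)
    (m := (u.bipartiteAbove (fun c a => a ∈ F ∙ c) b₀).card) (n := Fintype.card F - 1)
    (fun c hc => le_antisymm (le c hc _ b₀s) (le _ b₀s c hc)) (fun a ha => by
      obtain ⟨a1, a2, -⟩ := (mu a).1 ha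
      refine Nat.eq_sub_of_add_eq (cline a a1 _ fun v => ?_)
      rw [Finset.mem_bipartiteBelow, ms]
      constructor
      · rintro ⟨⟨v1, -⟩, v2⟩
        exact ⟨v1, by simpa using smul_mem_span_inv (g := (1 : Γ)) a1 (by simpa using v2)⟩
      · rintro ⟨v1, v2⟩
        refine ⟨⟨v1, ?_⟩, by simpa using smul_mem_span_inv (g := (1 : Γ)) v1 (by simpa using v2)⟩
        obtain ⟨m, rfl⟩ := Submodule.mem_span_singleton.1 v2
        simp [a2])
  have r1 : 0 < (u.bipartiteAbove (fun c a => a ∈ F ∙ c) b₀).card := Finset.card_pos.2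
    ⟨b₀, (Finset.mem_bipartiteAbove _).2 ⟨(mu _).2 ⟨hb₀, e₀, t, ht⟩,
      Submodule.mem_span_singleton_self _⟩⟩
  have cs := cardne (LinearMap.ker (B.flip φ₀) : Submodule F V) s (Submodule.zero_mem _) ms
  have cu := cardne A u A.zero_mem mu
  rw [SetLike.coe_sort_coe, card_sub] at cs
  have dk := h.toPre.finrank_ker hφ₀
  have d3 := h.dim
  obtain ⟨m, hm⟩ : ∃ m, finrank F (LinearMap.ker (B.flip φ₀)) = m + 2 :=
    ⟨finrank F V - 3, by omega⟩
  rw [hm] at cs
  have qd : Fintype.card F ∣ u.card + 1 := by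
    obtain ⟨p, hc⟩ := CharP.exists F
    obtain ⟨a, hp, ha⟩ := FiniteField.card F p
    have h1 : u.card + 1 ∣ p ^ (a * finrank F V) := by
      rw [cu, pow_mul, ← ha, ← Nat.card_eq_fintype_card, ← Module.natCard_eq_pow_finrank]
      exact A.card_addSubgroup_dvd_card
    obtain ⟨c, -, hc⟩ := (Nat.dvd_prime_pow hp).1 h1
    rw [hc, ha]
    refine pow_dvd_pow _ ((Nat.pow_le_pow_iff_right hp.one_lt).1 ?_)
    rw [← hc, ← ha]
    by_contra hlt
    have q1 := Fintype.one_lt_card (α := F)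
    obtain ⟨k, hk⟩ : ∃ k, Fintype.card F = k + 1 := ⟨Fintype.card F - 1, by omega⟩
    rw [hk] at dc cs hlt
    have h2 : (k + 1) ^ 2 ≤ (k + 1) ^ (m + 2) := Nat.pow_le_pow_right (by omega) (by omega)
    have h3 : s.card * 1 ≤ s.card * _ := Nat.mul_le_mul_left _ r1
    have h4 : u.card * k ≤ k * k := Nat.mul_le_mul_right _ (by omega)
    rw [Nat.add_sub_cancel] at dc
    nlinarith
  have full : ∀ c ∈ s, c ∈ A := fun c hc => by
    have c0 := ((ms c).1 hc).1
    have e := le_antisymm (le c hc _ b₀s) (le _ b₀s c hc)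
    have h1 := cline c c0 (Finset.univ.filter fun v => v ≠ 0 ∧ v ∈ F ∙ c) (by simp)
    have sub : u.bipartiteAbove (fun c a => a ∈ F ∙ c) c ⊆
        Finset.univ.filter fun v => v ≠ 0 ∧ v ∈ F ∙ c := fun v hv => by
      rw [Finset.mem_bipartiteAbove, mu] at hv
      simp [hv.1.1, hv.2]
    have h2 : Fintype.card F ∣ (u.bipartiteAbove (fun c a => a ∈ F ∙ c) b₀).card + 1 := by
      generalize (u.bipartiteAbove (fun c a => a ∈ F ∙ c) b₀).card = ρ at dc
      obtain ⟨k, hk⟩ := qd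
      have q1 := Fintype.one_lt_card (α := F)
      zify [q1.le] at dc cs hk ⊢
      exact ⟨Fintype.card F ^ (m + 1) * ρ - u.card + k, by
        linear_combination ρ * cs - dc + hk⟩
    have h3 := Finset.eq_of_subset_of_card_le sub (by
      have := Nat.le_of_dvd (by omega) h2
      omega)
    have : c ∈ u.bipartiteAbove (fun c a => a ∈ F ∙ c) c := by
      rw [h3]; simp [c0]
    exact ((mu c).1 ((Finset.mem_bipartiteAbove _).1 this).1).2
  by_cases hφ : φ = 0
  · exact ⟨1, by simp [hφ]⟩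
  by_cases hb0 : b = 0
  · exact ⟨1, by simp [hb0]⟩
  obtain ⟨g, hg⟩ := h.flip.one hφ₀ hφ
  obtain ⟨-, k, hk⟩ := full (g⁻¹ • b) ((ms _).2 ⟨smul_ne hb0, by rw [← h.toPre.inv_right, hg, hb]⟩)
  exact ⟨g * k * g⁻¹, fun v => by rw [h.toPre.tv_conj hk, hg, smul_inv_smul]⟩

end

/-- the dual space with the contragredient action -/
def Dl (F V : Type*) [Field F] [AddCommGroup V] [Module F V] := Dual F V

variable {F V : Type*} [Field F] [AddCommGroup V] [Module F V]

noncomputable instance : AddCommGroup (Dl F V) := inferInstanceAs (AddCommGroup (Dual F V))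
noncomputable instance : Module F (Dl F V) := inferInstanceAs (Module F (Dual F V))

noncomputable instance : DistribMulAction (V ≃ₗ[F] V) (Dl F V) where
  smul g φ := (show Dual F V from φ) ∘ₗ (g⁻¹ : V ≃ₗ[F] V).toLinearMap
  one_smul _ := rfl
  mul_smul _ _ _ := rfl
  smul_zero _ := rfl
  smul_add _ _ _ := rfl

instance : SMulCommClass (V ≃ₗ[F] V) F (Dl F V) := ⟨fun _ _ _ => rfl⟩

/-- the evaluation pairing -/
noncomputable def ev (F V : Type*) [Field F] [AddCommGroup V] [Module F V] :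
    V →ₗ[F] Dl F V →ₗ[F] F := Dual.eval F V

theorem ne_zero_of_not_mem' {U : Submodule F V} {y : V} (hy : y ∉ U) : y ≠ 0 := by
  rintro rfl; exact hy U.zero_mem

/-- adjoining the scalars -/
def withScal (M : Subgroup (V ≃ₗ[F] V)) : Subgroup (V ≃ₗ[F] V) where
  carrier := {g | ∃ m ∈ M, ∃ c : F, c ≠ 0 ∧ ∀ v, g v = c • m v}
  one_mem' := ⟨1, M.one_mem, 1, one_ne_zero, by simp⟩
  mul_mem' := fun {a b} ⟨m, hm, c, hc, e⟩ ⟨m', hm', c', hc', e'⟩ =>
    ⟨m * m', M.mul_mem hm hm', c * c', mul_ne_zero hc hc', fun v => by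
      simp [e, e', smul_smul]⟩
  inv_mem' := fun {a} ⟨m, hm, c, hc, e⟩ => ⟨m⁻¹, M.inv_mem hm, c⁻¹, inv_ne_zero hc, fun v => by
    apply a.injective
    rw [e (c⁻¹ • _)]
    simp [smul_smul, hc]⟩

open scoped LinearAlgebra.Projectivization in
theorem hyp_withScal [Fintype F] [Finite V] (hV : 3 ≤ finrank F V) (M : Subgroup (V ≃ₗ[F] V))
    (h2 : ∀ x y x' y' : ℙ F V, x ≠ y → x' ≠ y' → ∃ g ∈ M, g • x = x' ∧ g • y = y') :
    Hyp (withScal M) (ev F V) where
  inv g v w := congrArg (show Dual F V from w) (g.1.symm_apply_apply v)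
  sepV v hv := (forall_dual_apply_eq_zero_iff F v).1 hv
  sepW w hw := LinearMap.ext hw
  scal c hc := ⟨⟨LinearEquiv.smulOfNeZero F V c hc, 1, M.one_mem, c, hc, fun _ => rfl⟩,
    fun _ => rfl⟩
  two x y x' y' hx hy hx' hy' := by
    have ne : ∀ {x y : V} (hx : x ≠ 0) (hy : y ∉ F ∙ x),
        Projectivization.mk F x hx ≠ Projectivization.mk F y (ne_zero_of_not_mem' hy) :=
      fun hx hy e => by
        obtain ⟨a, ha⟩ := (Projectivization.mk_eq_mk_iff' F _ _ _ _).1 e.symm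
        exact hy (Submodule.mem_span_singleton.2 ⟨a, ha⟩)
    obtain ⟨g, hg, e1, e2⟩ := h2 _ _ _ _ (ne hx hy) (ne hx' hy')
    rw [Projectivization.smul_mk, Projectivization.mk_eq_mk_iff'] at e1 e2
    obtain ⟨a, ha⟩ := e1
    obtain ⟨b, hb⟩ := e2
    have b0 : b ≠ 0 := by
      rintro rfl
      exact ne_zero_of_not_mem' hy (by simpa using hb.symm)
    refine ⟨⟨LinearEquiv.smulOfNeZero F V b⁻¹ (inv_ne_zero b0) * g, g, hg, b⁻¹, inv_ne_zero b0,
      fun _ => rfl⟩, ⟨b⁻¹ * a, ?_⟩, ?_⟩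
    · show b⁻¹ • g • x = _
      rw [← ha, smul_smul]
    · show b⁻¹ • g • y = _
      rw [← hb, smul_smul, inv_mul_cancel₀ b0, one_smul]
  dim := hV

theorem has_of_withScal [Fintype F] {M : Subgroup (V ≃ₗ[F] V)} {φ : Dual F V} {b : V}
    (hb : φ b = 0) (h : H7.Has (withScal M) φ (-b)) : H7.Has M φ b := by
  obtain ⟨t, ⟨m, hm, c, hc, e⟩, ht⟩ := h
  have hm' : ∀ v, m v = c⁻¹ • (v - φ v • b) := fun v => by
    rw [eq_inv_smul_iff₀ hc, ← e, ht, smul_neg, sub_eq_add_neg]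
  have : ∀ (k : ℕ) v, (m ^ k) v = c⁻¹ ^ k • (v - ((k : F) * φ v) • b) := fun k => by
    induction k with
    | zero => simp
    | succ k ih =>
      intro v
      rw [pow_succ', LinearEquiv.mul_apply, ih, hm']
      simp [hb]
      module
  refine ⟨m ^ (Fintype.card F - 1), M.pow_mem hm _, fun v => ?_⟩
  rw [this, FiniteField.pow_card_sub_one_eq_one _ (inv_ne_zero hc),
    Nat.cast_sub Fintype.card_pos]
  simp

open scoped LinearAlgebra.Projectivization in
/-- Wagner's theorem in dimension five -/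
theorem wagner5 [Fintype F] [FiniteDimensional F V] (hV : finrank F V = 5)
    (M : Subgroup (V ≃ₗ[F] V))
    (h2 : ∀ x y x' y' : ℙ F V, x ≠ y → x' ≠ y' → ∃ g ∈ M, g • x = x' ∧ g • y = y')
    (g : V ≃ₗ[F] V) (hg : LinearEquiv.det g = 1) : g ∈ M := by
  have : Finite V := Module.finite_of_finite F
  have : Finite (Dl F V) := Module.finite_of_finite (R := F) (M := Dual F V)
  have : Finite (V ≃ₗ[F] V) := Finite.of_injective _ (DFunLike.coe_injective (F := V ≃ₗ[F] V))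
  have h := hyp_withScal (by omega) M h2
  refine H7.mem_of_det_of_has (fun φ b hb => has_of_withScal hb ?_) g hg
  obtain ⟨t, ht⟩ := h.all_tv (h.tv hV) (-b) φ (by
    show φ (-b) = 0
    simp [hb])
  exact ⟨t, t.2, ht⟩

end Cfsg.Agent.H5.CK
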