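import Mathlib
import Cfsg.Agent.H1.Basic
import Cfsg.Agent.H7.Basic

/-! Two-transitive collineation groups: the self-dual set-up and orbit duality. -/

set_option autoImplicit false
set_option linter.unusedSectionVars false

namespace Cfsg.Agent.H5.CK

open Module

variable {F V W Γ : Type*} [Field F] [Fintype F] [AddCommGroup V] [Module F V] [Finite V]
  [AddCommGroup W] [Module F W] [Finite W] [Group Γ] [Finite Γ]
  [DistribMulAction Γ V] [SMulCommClass Γ F V] [DistribMulAction Γ W] [SMulCommClass Γ F W]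

/-- an invariant perfect pairing -/
structure Pre (Γ : Type*) [Group Γ] [DistribMulAction Γ V] [DistribMulAction Γ W]
    (B : V →ₗ[F] W →ₗ[F] F) : Prop where
  inv : ∀ (g : Γ) (v : V) (w : W), B (g • v) (g • w) = B v w
  sepV : ∀ v : V, (∀ w, B v w = 0) → v = 0
  sepW : ∀ w : W, (∀ v, B v w = 0) → w = 0

variable {B : V →ₗ[F] W →ₗ[F] F}

theorem Pre.flip (h : Pre Γ B) : Pre Γ B.flip :=
  ⟨fun g w v => h.inv g v w, h.sepW, h.sepV⟩

theorem Pre.inv_left (h : Pre Γ B) (g : Γ) (v : V) (w : W) : B (g • v) w = B v (g⁻¹ • w) := by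
  rw [← h.inv g v (g⁻¹ • w), smul_inv_smul]

theorem Pre.inv_right (h : Pre Γ B) (g : Γ) (v : V) (w : W) : B v (g • w) = B (g⁻¹ • v) w := by
  rw [← h.inv g (g⁻¹ • v) w, smul_inv_smul]

theorem Pre.exists_ne (h : Pre Γ B) {v : V} (hv : v ≠ 0) : ∃ w, B v w ≠ 0 := by
  by_contra hc
  push Not at hc
  exact hv (h.sepV v hc)

theorem Pre.exists_one (h : Pre Γ B) {v : V} (hv : v ≠ 0) : ∃ w, B v w = 1 := by
  obtain ⟨w, hw⟩ := h.exists_ne hv
  exact ⟨(B v w)⁻¹ • w, by rw [map_smul, smul_eq_mul, inv_mul_cancel₀ hw]⟩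

theorem Pre.exists_ne' (h : Pre Γ B) {w : W} (hw : w ≠ 0) : ∃ v, B v w ≠ 0 :=
  h.flip.exists_ne hw

theorem Pre.exists_one' (h : Pre Γ B) {w : W} (hw : w ≠ 0) : ∃ v, B v w = 1 :=
  h.flip.exists_one hw

theorem Pre.inj (h : Pre Γ B) : Function.Injective B :=
  (injective_iff_map_eq_zero B).2 fun v hv => h.sepV v fun w => by rw [hv]; rfl

theorem Pre.finrank_le (h : Pre Γ B) : finrank F V ≤ finrank F W := by
  have := LinearMap.finrank_le_finrank_of_injective h.inj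
  rwa [show finrank F (W →ₗ[F] F) = finrank F W from Subspace.dual_finrank_eq] at this

theorem Pre.finrank_eq (h : Pre Γ B) : finrank F V = finrank F W :=
  le_antisymm h.finrank_le h.flip.finrank_le

theorem Pre.surj (h : Pre Γ B) : Function.Surjective B :=
  (LinearMap.injective_iff_surjective_of_finrank_eq_finrank
    (by rw [show finrank F (W →ₗ[F] F) = finrank F W from Subspace.dual_finrank_eq,
      h.finrank_eq])).1 h.inj

/-- every functional on `V` comes from `W` -/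
theorem Pre.exists_fun (h : Pre Γ B) (f : V →ₗ[F] F) : ∃ w, ∀ v, B v w = f v := by
  obtain ⟨w, hw⟩ := h.flip.surj f
  exact ⟨w, fun v => by rw [← hw]; rfl⟩

theorem Pre.exists_sep (h : Pre Γ B) {U : Submodule F V} {x : V} (hx : x ∉ U) :
    ∃ w, B x w = 1 ∧ ∀ u ∈ U, B u w = 0 := by
  obtain ⟨f, h1, h2⟩ := H7.exists_dual_one hx
  obtain ⟨w, hw⟩ := h.exists_fun f
  exact ⟨w, by rw [hw, h1], fun u hu => by rw [hw, h2 u hu]⟩

theorem Pre.sum_char (h : Pre Γ B) [Fintype W] [DecidableEq V] {χ : AddChar F ℂ} (hχ : χ 1 ≠ 1)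
    (a : V) : ∑ w : W, χ (B a w) = if a = 0 then (Fintype.card W : ℂ) else 0 := by
  split_ifs with ha
  · simp [ha]
  · obtain ⟨w, hw⟩ := h.exists_one ha
    have : χ.compAddMonoidHom (B a).toAddMonoidHom ≠ 1 := fun e => by
      have := DFunLike.congr_fun e w
      simp [hw] at this
      exact hχ this
    simpa using AddChar.sum_eq_zero_of_ne_one this

/-- orbit duality (Fourier inversion) -/
theorem Pre.dual (h : Pre Γ B) (Y : Subgroup Γ) (t : V → V) (t' : W → W)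
    (ht : ∀ v w, B (t v) w = B v (t' w)) (hw : ∀ w, ∃ g ∈ Y, g • w = t' w) (v : V) :
    ∃ g ∈ Y, g • v = t v := by
  classical
  have := Fintype.ofFinite V
  have := Fintype.ofFinite W
  obtain ⟨χ, hχ⟩ := (AddChar.exists_apply_ne_zero (α := F) (a := 1)).2 one_ne_zero
  set O : Finset V := Finset.univ.filter fun u => ∃ g ∈ Y, g • v = u with hO
  have mO : ∀ u, u ∈ O ↔ ∃ g ∈ Y, g • v = u := fun u => by simp [hO]
  have gO : ∀ g ∈ Y, ∀ u ∈ O, g • u ∈ O := fun g hg u hu => by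
    obtain ⟨k, hk, rfl⟩ := (mO u).1 hu
    exact (mO _).2 ⟨g * k, Y.mul_mem hg hk, mul_smul _ _ _⟩
  have S : ∀ w, ∑ u ∈ O, χ (B (t u) w) = ∑ u ∈ O, χ (B u w) := fun w => by
    obtain ⟨g, hg, e⟩ := hw w
    refine Finset.sum_nbij' (fun u => g⁻¹ • u) (fun u => g • u)
      (fun u hu => gO _ (Y.inv_mem hg) u hu) (fun u hu => gO _ hg u hu)
      (fun u _ => smul_inv_smul _ _) (fun u _ => inv_smul_smul _ _) (fun u _ => ?_)
    rw [ht, ← e, h.inv_right]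
  have key : ∀ s : V → V, ∑ w : W, (∑ u ∈ O, χ (B (s u) w)) * χ (B (-t v) w) =
      ((∑ u ∈ O, if s u = t v then Fintype.card W else 0 : ℕ) : ℂ) := fun s => by
    simp only [Finset.sum_mul, ← AddChar.map_add_eq_mul]
    rw [Finset.sum_comm, Nat.cast_sum]
    refine Finset.sum_congr rfl fun u _ => ?_
    have := h.sum_char hχ (s u - t v)
    simp only [sub_eq_zero] at this
    simp only [map_neg, LinearMap.neg_apply, ← sub_eq_add_neg, Nat.cast_ite, Nat.cast_zero]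
    rw [← this]
    simp
  have e := key t
  simp only [S] at e
  rw [key fun u => u, Nat.cast_inj] at e
  by_contra hc
  have h1 : ∑ u ∈ O, (if u = t v then Fintype.card W else 0) = 0 :=
    Finset.sum_eq_zero fun u hu => if_neg fun (e' : u = t v) => hc ((mO _).1 (e' ▸ hu))
  rw [h1, eq_comm, Finset.sum_eq_zero_iff] at e
  have := e v ((mO v).2 ⟨1, Y.one_mem, one_smul _ _⟩)
  simp at this

/-- orbit duality for rank one perturbations of the identity -/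
theorem Pre.dual' (h : Pre Γ B) (Y : Subgroup Γ) (b : V) (χ : W)
    (hw : ∀ w : W, ∃ g ∈ Y, g • w = w + B b w • χ) (v : V) :
    ∃ g ∈ Y, g • v = v + B v χ • b :=
  h.dual Y (fun v => v + B v χ • b) (fun w => w + B b w • χ)
    (fun v w => by simp [mul_comm]) hw v

/-- stabiliser of a subspace -/
def SS (Γ : Type*) [Group Γ] [Finite Γ] [DistribMulAction Γ V] (U : Submodule F V) :
    Subgroup Γ where
  carrier := {g | ∀ u ∈ U, g • u ∈ U}
  one_mem' := fun u hu => by rwa [one_smul]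
  mul_mem' := fun {a b} ha hb u hu => by rw [mul_smul]; exact ha _ (hb u hu)
  inv_mem' := fun {g} hg u hu => by
    have : ∀ n : ℕ, ∀ u ∈ U, g ^ n • u ∈ U := fun n => by
      induction n with
      | zero => intro u hu; rwa [pow_zero, one_smul]
      | succ n ih => intro u hu; rw [pow_succ', mul_smul]; exact hg _ (ih u hu)
    have e : g⁻¹ = g ^ (orderOf g - 1) := by
      rw [eq_comm, ← mul_eq_one_iff_eq_inv, ← pow_succ,
        Nat.sub_add_cancel (orderOf_pos g), pow_orderOf_eq_one]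
    rw [e]; exact this _ u hu

theorem mem_SS {U : Submodule F V} {g : Γ} : g ∈ SS Γ U ↔ ∀ u ∈ U, g • u ∈ U := Iff.rfl

theorem SS_iff {U : Submodule F V} {g : Γ} (hg : g ∈ SS Γ U) {v : V} : g • v ∈ U ↔ v ∈ U :=
  ⟨fun h => by simpa using mem_SS.1 ((SS Γ U).inv_mem hg) _ h, mem_SS.1 hg v⟩

theorem mem_SS_span {x : V} {g : Γ} : g ∈ SS Γ (F ∙ x) ↔ ∃ c : F, g • x = c • x := by
  constructor
  · intro h
    obtain ⟨c, hc⟩ := Submodule.mem_span_singleton.1 (h x (Submodule.mem_span_singleton_self x))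
    exact ⟨c, hc.symm⟩
  · rintro ⟨c, hc⟩ u hu
    obtain ⟨a, rfl⟩ := Submodule.mem_span_singleton.1 hu
    rw [smul_comm, hc]
    exact Submodule.smul_mem _ _ (Submodule.smul_mem _ _ (Submodule.mem_span_singleton_self x))

theorem ne_of_smul_eq {x y : V} {g : Γ} {c : F} (hx : x ≠ 0) (h : g • x = c • y) : c ≠ 0 := by
  rintro rfl
  rw [zero_smul, smul_eq_zero_iff_eq] at h
  exact hx h

theorem smul_ne {x : V} {g : Γ} (hx : x ≠ 0) : g • x ≠ 0 := fun h =>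
  hx ((smul_eq_zero_iff_eq g).1 h)

theorem mem_SS_span' {x : V} (hx : x ≠ 0) {g : Γ} :
    g ∈ SS Γ (F ∙ x) ↔ ∃ c : F, c ≠ 0 ∧ g • x = c • x := by
  rw [mem_SS_span]
  exact ⟨fun ⟨c, hc⟩ => ⟨c, ne_of_smul_eq hx hc, hc⟩, fun ⟨c, _, hc⟩ => ⟨c, hc⟩⟩

theorem not_mem_span_symm {x y : V} (hx : x ≠ 0) (hy : y ∉ F ∙ x) : x ∉ F ∙ y := fun h => by
  obtain ⟨a, rfl⟩ := Submodule.mem_span_singleton.1 h
  have ha : a ≠ 0 := by rintro rfl; simp at hx
  exact hy (Submodule.mem_span_singleton.2 ⟨a⁻¹, by rw [smul_smul, inv_mul_cancel₀ ha, one_smul]⟩)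

theorem ne_zero_of_not_mem {U : Submodule F V} {y : V} (hy : y ∉ U) : y ≠ 0 := by
  rintro rfl; exact hy U.zero_mem

theorem rank_one_inj {f : V →ₗ[F] F} {b v : V} (hb : 1 + f b ≠ 0) (h : v + f v • b = 0) :
    v = 0 := by
  have h1 : f v * (1 + f b) = 0 := by
    have := congrArg f h
    simpa [mul_add] using this
  rw [(mul_eq_zero.1 h1).resolve_right hb, zero_smul, add_zero] at h
  exact h

/-- the standing hypotheses: scalars, two-transitivity on points -/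
structure Hyp (Γ : Type*) [Group Γ] [DistribMulAction Γ V] [DistribMulAction Γ W]
    (B : V →ₗ[F] W →ₗ[F] F) : Prop extends Pre Γ B where
  scal : ∀ c : F, c ≠ 0 → ∃ g : Γ, ∀ v : V, g • v = c • v
  two : ∀ x y x' y' : V, x ≠ 0 → y ∉ F ∙ x → x' ≠ 0 → y' ∉ F ∙ x' →
    ∃ g : Γ, (∃ a : F, g • x = a • x') ∧ g • y = y'
  dim : 3 ≤ finrank F V

theorem Hyp.scal' (h : Hyp Γ B) {c : F} (hc : c ≠ 0) :
    ∃ g : Γ, (∀ v : V, g • v = c • v) ∧ ∀ w : W, g • w = c⁻¹ • w := by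
  obtain ⟨g, hg⟩ := h.scal c hc
  refine ⟨g, hg, fun w => sub_eq_zero.1 (h.sepW _ fun v => ?_)⟩
  have := h.inv g v w
  rw [hg, B.map_smul, LinearMap.smul_apply, smul_eq_mul] at this
  rw [map_sub, (B v).map_smul, ← this, smul_eq_mul, inv_mul_cancel_left₀ hc, sub_self]

theorem Hyp.exists_not_mem (h : Hyp Γ B) (x : V) : ∃ y, y ∉ F ∙ x := by
  obtain ⟨y, -, hy⟩ := H7.exists_mem_notMem_of_finrank_lt (U := ⊤) (W := F ∙ x) (by
    have := H7.finrank_span_singleton_le (F := F) x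
    have := h.dim
    rw [finrank_top]; omega)
  exact ⟨y, hy⟩

theorem Hyp.one (h : Hyp Γ B) {y y' : V} (hy : y ≠ 0) (hy' : y' ≠ 0) : ∃ g : Γ, g • y = y' := by
  obtain ⟨x, hx⟩ := h.exists_not_mem y
  obtain ⟨x', hx'⟩ := h.exists_not_mem y'
  obtain ⟨g, -, e⟩ := h.two x y x' y' (ne_zero_of_not_mem hx) (not_mem_span_symm hy hx)
    (ne_zero_of_not_mem hx') (not_mem_span_symm hy' hx')
  exact ⟨g, e⟩

theorem Hyp.scal_mem (h : Hyp Γ B) {c : F} (hc : c ≠ 0) :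
    ∃ g : Γ, (∀ U : Submodule F V, g ∈ SS Γ U) ∧ (∀ U : Submodule F W, g ∈ SS Γ U) ∧
      (∀ v : V, g • v = c • v) ∧ ∀ w : W, g • w = c⁻¹ • w := by
  obtain ⟨g, h1, h2⟩ := h.scal' hc
  exact ⟨g, fun U u hu => h1 u ▸ U.smul_mem _ hu, fun U u hu => h2 u ▸ U.smul_mem _ hu, h1, h2⟩

theorem Hyp.off (h : Hyp Γ B) {x y y' : V} (hx : x ≠ 0) (hy : y ∉ F ∙ x) (hy' : y' ∉ F ∙ x) :
    ∃ g ∈ SS Γ (F ∙ x), g • y = y' := by
  obtain ⟨g, h1, h2⟩ := h.two x y x y' hx hy hx hy'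
  exact ⟨g, mem_SS_span.2 h1, h2⟩

theorem Hyp.anti (h : Hyp Γ B) {x : V} {ψ ψ' : W} (h1 : B x ψ ≠ 0) (h2 : B x ψ' ≠ 0) :
    ∃ g ∈ SS Γ (F ∙ x), g • ψ = ψ' := by
  have hx : x ≠ 0 := by rintro rfl; simp at h1
  have := h.toPre.flip.dual' (SS Γ (F ∙ x)) (ψ' - ψ) ((B x ψ)⁻¹ • x) (fun v => ?_) ψ
  · simpa [inv_mul_cancel₀ h1] using this
  by_cases hv : v ∈ F ∙ x
  · obtain ⟨a, rfl⟩ := Submodule.mem_span_singleton.1 hv
    obtain ⟨g, g1, -, g2, -⟩ := h.scal_mem (mul_ne_zero h2 (inv_ne_zero h1))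
    refine ⟨g, g1 _, ?_⟩
    rw [g2]
    simp only [LinearMap.flip_apply, map_smul, map_sub, smul_eq_mul, smul_smul, ← add_smul,
      LinearMap.sub_apply]
    congr 1
    field_simp
    ring
  · refine h.off hx hv fun hc => hv ?_
    rwa [Submodule.add_mem_iff_left] at hc
    exact Submodule.smul_mem _ _ (Submodule.smul_mem _ _ (Submodule.mem_span_singleton_self x))

theorem exists_two (B : V →ₗ[F] W →ₗ[F] F) (S : Submodule F V) {ψ ψ' : W} (h1 : ∃ v ∈ S, B v ψ ≠ 0)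
    (h2 : ∃ v ∈ S, B v ψ' ≠ 0) : ∃ b ∈ S, B b ψ = 1 ∧ B b ψ' ≠ 0 := by
  obtain ⟨v, hv, a1, a2⟩ := H7.exists_apply_ne_ne S (B.flip ψ).toAddMonoidHom
    (B.flip ψ').toAddMonoidHom h1 h2
  have a1 : B v ψ ≠ 0 := a1
  have a2 : B v ψ' ≠ 0 := a2
  exact ⟨(B v ψ)⁻¹ • v, S.smul_mem _ hv, by simp [inv_mul_cancel₀ a1], by simp [a1, a2]⟩

theorem Hyp.flag (h : Hyp Γ B) {x : V} {ψ ψ' : W} (hx : x ≠ 0) (hψ : ψ ≠ 0) (hψ' : ψ' ≠ 0)
    (h1 : B x ψ = 0) (h2 : B x ψ' = 0) : ∃ g ∈ SS Γ (F ∙ x), g • ψ = ψ' := by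
  obtain ⟨b, -, b1, b2⟩ := exists_two B ⊤ (ψ := ψ) (ψ' := ψ')
    (by simpa using h.toPre.exists_ne' hψ) (by simpa using h.toPre.exists_ne' hψ')
  have := h.toPre.flip.dual' (SS Γ (F ∙ x)) (ψ' - ψ) b (fun v => ?_) ψ
  · simpa [b1] using this
  by_cases hv : v ∈ F ∙ x
  · obtain ⟨a, rfl⟩ := Submodule.mem_span_singleton.1 hv
    exact ⟨1, Subgroup.one_mem _, by simp [h1, h2]⟩
  · refine h.off hx hv fun hc => hv ?_
    obtain ⟨a, ha⟩ := Submodule.mem_span_singleton.1 hc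
    have : v - a • x = 0 := rank_one_inj (f := B.flip (ψ' - ψ)) (b := b) (by simpa [b1] using b2)
      (by
        rw [map_sub, map_smul, show B.flip (ψ' - ψ) x = 0 by simp [h1, h2], smul_zero, sub_zero,
          ha]
        abel)
    exact Submodule.mem_span_singleton.2 ⟨a, (sub_eq_zero.1 this).symm⟩

/-- transfer of (anti)flag transitivity to the stabiliser of the hyperplane -/
theorem Hyp.transfer (h : Hyp Γ B) {v v' : V} {φ : W} (hv : v ≠ 0) (hv' : v' ≠ 0)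
    (H : ∀ g : Γ, g • v = v' → ∃ k ∈ SS Γ (F ∙ v'), k • g • φ = φ) :
    ∃ g ∈ SS Γ (F ∙ φ), g • v = v' := by
  obtain ⟨g, hg⟩ := h.one hv hv'
  obtain ⟨k, k1, k2⟩ := H g hg
  obtain ⟨c, hc, e⟩ := (mem_SS_span' hv').1 k1
  obtain ⟨z, -, z1, z2, -⟩ := h.scal_mem (inv_ne_zero hc)
  refine ⟨z * (k * g), Subgroup.mul_mem _ (z1 _) (mem_SS_span.2 ⟨1, ?_⟩), ?_⟩
  · rw [mul_smul, k2, one_smul]
  · rw [mul_smul, mul_smul, hg, e, z2, smul_smul, inv_mul_cancel₀ hc, one_smul]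

theorem Hyp.anti' (h : Hyp Γ B) {v v' : V} {φ : W} (h1 : B v φ ≠ 0) (h2 : B v' φ ≠ 0) :
    ∃ g ∈ SS Γ (F ∙ φ), g • v = v' :=
  h.transfer (by rintro rfl; simp at h1) (by rintro rfl; simp at h2) fun g hg =>
    h.anti (by rwa [← hg, h.inv]) h2

theorem Hyp.flag' (h : Hyp Γ B) {v v' : V} {φ : W} (hφ : φ ≠ 0) (hv : v ≠ 0) (hv' : v' ≠ 0)
    (h1 : B v φ = 0) (h2 : B v' φ = 0) : ∃ g ∈ SS Γ (F ∙ φ), g • v = v' :=
  h.transfer hv hv' fun g hg =>
    h.flag hv' (smul_ne hφ) hφ (by rwa [← hg, h.inv]) h2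

theorem Pre.exists_sep' (h : Pre Γ B) {φ ψ : W} (hψ : ψ ∉ F ∙ φ) :
    ∃ v, B v φ = 0 ∧ B v ψ = 1 := by
  obtain ⟨v, h1, h2⟩ := h.flip.exists_sep hψ
  exact ⟨v, h2 φ (Submodule.mem_span_singleton_self φ), h1⟩

theorem Hyp.off' (h : Hyp Γ B) {φ ψ ψ' : W} (hφ : φ ≠ 0) (h1 : ψ ∉ F ∙ φ) (h2 : ψ' ∉ F ∙ φ) :
    ∃ g ∈ SS Γ (F ∙ φ), g • ψ = ψ' := by
  obtain ⟨b, b0, b1, b2⟩ := exists_two B (LinearMap.ker (B.flip φ)) (ψ := ψ) (ψ' := ψ')
    (by obtain ⟨v, a, b⟩ := h.toPre.exists_sep' h1; exact ⟨v, a, by simp [b]⟩)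
    (by obtain ⟨v, a, b⟩ := h.toPre.exists_sep' h2; exact ⟨v, a, by simp [b]⟩)
  have b0 : B b φ = 0 := b0
  have := h.toPre.flip.dual' (SS Γ (F ∙ φ)) (ψ' - ψ) b (fun v => ?_) ψ
  · simpa [b1] using this
  by_cases hv : v = 0
  · exact ⟨1, Subgroup.one_mem _, by simp [hv]⟩
  have hv' : v + B.flip (ψ' - ψ) v • b ≠ 0 := fun e =>
    hv (rank_one_inj (by simpa [b1] using b2) e)
  by_cases hφv : B v φ = 0
  · exact h.flag' hφ hv hv' hφv (by simp [hφv, b0])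
  · exact h.anti' hφv (by simpa [b0] using hφv)

theorem Hyp.flip (h : Hyp Γ B) : Hyp Γ B.flip where
  toPre := h.toPre.flip
  scal c hc := by
    obtain ⟨g, -, hg⟩ := h.scal' (inv_ne_zero hc)
    exact ⟨g, by simpa using hg⟩
  two φ ψ φ' ψ' hφ hψ hφ' hψ' := by
    obtain ⟨x, -, x1, x2⟩ := exists_two B ⊤ (ψ := φ) (ψ' := φ')
      (by simpa using h.toPre.exists_ne' hφ) (by simpa using h.toPre.exists_ne' hφ')
    obtain ⟨g, -, hg⟩ := h.anti (x := x) (ψ := φ) (by simp [x1]) x2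
    have : g • ψ ∉ F ∙ φ' := fun hc => hψ (by
      obtain ⟨a, ha⟩ := Submodule.mem_span_singleton.1 hc
      rw [← hg, ← smul_comm, smul_left_cancel_iff] at ha
      exact Submodule.mem_span_singleton.2 ⟨a, ha⟩)
    obtain ⟨k, k1, k2⟩ := h.off' hφ' this hψ'
    obtain ⟨c, hc⟩ := mem_SS_span.1 k1
    exact ⟨k * g, ⟨c, by rw [mul_smul, hg, hc]⟩, by rw [mul_smul, k2]⟩
  dim := h.toPre.finrank_eq ▸ h.dim

end Cfsg.Agent.H5.CK
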