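import Cfsg.Agent.H5.CK1

/-! Two-transitive collineation groups: Sylow arguments, cones and swaps. -/

set_option autoImplicit false
set_option linter.unusedSectionVars false

namespace Cfsg.Agent.H5.CK

open Module

variable {F V W Γ : Type*} [Field F] [Fintype F] [AddCommGroup V] [Module F V] [Finite V]
  [AddCommGroup W] [Module F W] [Finite W] [Group Γ] [Finite Γ]
  [DistribMulAction Γ V] [SMulCommClass Γ F V] [DistribMulAction Γ W] [SMulCommClass Γ F W]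
  {B : V →ₗ[F] W →ₗ[F] F}

theorem card_sub (U : Submodule F V) : Nat.card U = Fintype.card F ^ finrank F U := by
  rw [Module.natCard_eq_pow_finrank (K := F), Nat.card_eq_fintype_card]

theorem syl (p : ℕ) [Fact p.Prime] [CharP F p] (Z : Subgroup Γ) (U : Submodule F V) (v₀ : V)
    (h1 : ∀ g ∈ Z, g • v₀ - v₀ ∈ U) (h2 : ∀ u ∈ U, ∃ g ∈ Z, g • v₀ = v₀ + u) :
    ∃ P ≤ Z, IsPGroup p P ∧ ∀ v v', v - v₀ ∈ U → v' - v₀ ∈ U → ∃ g ∈ P, g • v = v' := by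
  obtain ⟨P⟩ : Nonempty (Sylow p Z) := inferInstance
  obtain ⟨a, -, ha⟩ := FiniteField.card F p
  have eO : MulAction.orbit Z v₀ = (fun u => v₀ + u) '' (U : Set V) := by
    ext v
    constructor
    · rintro ⟨g, rfl⟩
      exact ⟨_, h1 g g.2, by simp [Subgroup.smul_def]⟩
    · rintro ⟨u, hu, rfl⟩
      obtain ⟨g, hg, e⟩ := h2 u hu
      exact ⟨⟨g, hg⟩, e⟩
  have cO : Nat.card (MulAction.orbit Z v₀) = p ^ (a * finrank F U) := by
    rw [eO, Nat.card_coe_set_eq, Set.ncard_image_of_injective _ (add_right_injective v₀),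
      ← Nat.card_coe_set_eq, pow_mul, ← ha]
    exact card_sub U
  have d := H1.Basic.pow_dvd_card_orbit_sylow P v₀ (k := a * finrank F U) (by rw [cO])
  have sub : MulAction.orbit (P : Subgroup Z) v₀ ⊆ MulAction.orbit Z v₀ :=
    MulAction.orbit_subgroup_subset _ _
  have e : MulAction.orbit (P : Subgroup Z) v₀ = MulAction.orbit Z v₀ := by
    refine Set.eq_of_subset_of_ncard_le sub ?_
    rw [← Nat.card_coe_set_eq, ← Nat.card_coe_set_eq, cO]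
    exact Nat.le_of_dvd (Nat.card_pos_iff.2 ⟨⟨_, MulAction.mem_orbit_self _⟩, inferInstance⟩) d
  have key : ∀ v, v - v₀ ∈ U → ∃ g ∈ (P : Subgroup Z).map Z.subtype, g • v₀ = v := fun v hv => by
    have : v ∈ MulAction.orbit (P : Subgroup Z) v₀ := by
      rw [e, eO]; exact ⟨_, hv, by simp⟩
    obtain ⟨g, hg⟩ := this
    exact ⟨(g : Z), ⟨g, g.2, rfl⟩, hg⟩
  refine ⟨(P : Subgroup Z).map Z.subtype, Subgroup.map_subtype_le _, P.2.map _,
    fun v v' hv hv' => ?_⟩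
  obtain ⟨g, hg, e⟩ := key v hv
  obtain ⟨g', hg', e'⟩ := key v' hv'
  exact ⟨g' * g⁻¹, Subgroup.mul_mem _ hg' (Subgroup.inv_mem _ hg), by
    rw [mul_smul, ← e, inv_smul_smul, e']⟩

/-- the representation given by the action -/
abbrev rep (F : Type*) [Field F] (V : Type*) [AddCommGroup V] [Module F V] (Γ : Type*) [Group Γ]
    [DistribMulAction Γ V] [SMulCommClass Γ F V] : Representation F Γ V :=
  DistribMulAction.toModuleEnd F V

theorem fix (p : ℕ) [Fact p.Prime] [CharP F p] {P : Subgroup Γ} (hP : IsPGroup p P)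
    (A U : Submodule F V) (hA : P ≤ SS Γ A) (hU : P ≤ SS Γ U) (h : ¬ U ≤ A) :
    ∃ v ∈ U, v ∉ A ∧ ∀ g ∈ P, g • v - v ∈ A := by
  let ρ := (rep F V P).quotient A fun g v hv => hA g.2 v hv
  obtain ⟨v, hv, h0, hf⟩ := H1.Basic.exists_fixed_vector hP ρ (U.map A.mkQ) (by
      rintro g _ ⟨u, hu, rfl⟩
      exact ⟨_, hU g.2 u hu, rfl⟩) (by
      intro e
      refine h fun u hu => ?_
      have : A.mkQ u ∈ U.map A.mkQ := ⟨u, hu, rfl⟩
      rw [e, Submodule.mem_bot] at this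
      simpa using this)
  obtain ⟨u, hu, rfl⟩ := hv
  refine ⟨u, hu, by simpa using h0, fun g hg => ?_⟩
  exact (Submodule.Quotient.eq A).1 (hf ⟨g, hg⟩)

theorem le_SS_bot (P : Subgroup Γ) : P ≤ SS Γ (⊥ : Submodule F V) := fun g _ u hu => by
  rw [Submodule.mem_bot] at hu ⊢
  rw [hu, smul_zero]

theorem Pre.ker_SS (h : Pre Γ B) {φ : W} {g : Γ} (hg : g ∈ SS Γ (F ∙ φ)) :
    g ∈ SS Γ (LinearMap.ker (B.flip φ)) := fun u hu => by
  obtain ⟨c, hc⟩ := mem_SS_span.1 ((SS Γ (F ∙ φ)).inv_mem hg)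
  have hu : B u φ = 0 := hu
  show B (g • u) φ = 0
  rw [h.inv_left, hc, (B u).map_smul, hu, smul_zero]

theorem stab_le_SS (x : V) : MulAction.stabilizer Γ x ≤ SS Γ (F ∙ x) := fun g hg =>
  mem_SS_span.2 ⟨1, by rw [one_smul]; exact hg⟩

theorem Pre.finrank_ker (h : Pre Γ B) {φ : W} (hφ : φ ≠ 0) :
    finrank F (LinearMap.ker (B.flip φ)) + 1 = finrank F V :=
  Module.Dual.finrank_ker_add_one_of_ne_zero fun e => hφ (h.sepW φ fun v =>
    LinearMap.congr_fun e v)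

theorem conj_smul_eq {k g : Γ} {x : V} {c : F} (h : g • x = c • x) :
    (k * g * k⁻¹) • k • x = c • k • x := by
  rw [mul_smul, inv_smul_smul, mul_smul, h, smul_comm]

/-- a Sylow subgroup fixes a point and a line in the hyperplane -/
theorem Hyp.f2 (h : Hyp Γ B) {x y : V} (hx : x ≠ 0) (hy : y ∉ F ∙ x) :
    ∃ φ : W, φ ≠ 0 ∧ B x φ = 0 ∧ B y φ = 0 ∧ ∀ v v', B v φ = 1 → B v' φ = 1 →
      ∃ g : Γ, g • x = x ∧ g • y - y ∈ F ∙ x ∧ g • φ = φ ∧ g • v = v' := by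
  obtain ⟨p, hc⟩ := CharP.exists F
  have := Fact.mk (CharP.char_is_prime F p)
  obtain ⟨φ, h1⟩ := h.toPre.exists_one hx
  have hφ : φ ≠ 0 := by rintro rfl; simp at h1
  obtain ⟨P, hPZ, hP, tr⟩ := syl p (MulAction.stabilizer Γ φ) (LinearMap.ker (B.flip φ)) x
    (fun g hg => by
      have hg : g • φ = φ := hg
      show B _ φ = 0
      rw [map_sub, LinearMap.sub_apply, sub_eq_zero]
      conv_lhs => rw [← hg]
      exact h.inv _ _ _)
    (fun u hu => by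
      have hu : B u φ = 0 := hu
      obtain ⟨g, hg, e⟩ := h.anti' (v := x) (v' := x + u) (φ := φ) (by simp [h1])
        (by simp [h1, hu])
      obtain ⟨c, hc⟩ := mem_SS_span.1 hg
      have := h.inv g x φ
      rw [e, hc] at this
      simp [h1, hu] at this
      exact ⟨g, by rw [MulAction.mem_stabilizer_iff, hc, this, one_smul], e⟩)
  have hPU : P ≤ SS Γ (LinearMap.ker (B.flip φ)) := fun g hg =>
    h.toPre.ker_SS (stab_le_SS φ (hPZ hg))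
  have dk := h.toPre.finrank_ker hφ
  have d3 := h.dim
  obtain ⟨x₀, x1, x2, x3⟩ := fix p hP ⊥ _ (le_SS_bot P) hPU (fun e => by
    have := Submodule.finrank_mono e
    rw [finrank_bot] at this
    omega)
  simp only [Submodule.mem_bot, sub_eq_zero] at x2 x3
  obtain ⟨y₀, y1, y2, y3⟩ := fix p hP (F ∙ x₀) _ (fun g hg => stab_le_SS x₀ (x3 g hg)) hPU
    (fun e => by
      have := Submodule.finrank_mono e
      have := H7.finrank_span_singleton_le (F := F) x₀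
      omega)
  obtain ⟨k, ⟨a, k1⟩, k2⟩ := h.two x₀ y₀ x y x2 y2 hx hy
  have ha := ne_of_smul_eq x2 k1
  have x1 : B x₀ φ = 0 := x1
  have y1 : B y₀ φ = 0 := y1
  refine ⟨k • φ, smul_ne hφ, ?_, by rw [← k2, h.inv, y1], fun v v' hv hv' => ?_⟩
  · have := h.inv k x₀ φ
    rw [k1, x1] at this
    simpa [ha] using this
  · rw [h.toPre.inv_right] at hv hv'
    obtain ⟨g, hg, e⟩ := tr (k⁻¹ • v) (k⁻¹ • v') (by simp [hv, h1]) (by simp [hv', h1])
    refine ⟨k * g * k⁻¹, ?_, ?_, ?_, ?_⟩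
    · have := conj_smul_eq (k := k) (g := g) (x := x₀) (c := (1 : F)) (by rw [x3 g hg, one_smul])
      rw [k1, one_smul, smul_comm] at this
      exact smul_right_injective V ha this
    · obtain ⟨c, hc⟩ := Submodule.mem_span_singleton.1 (y3 g hg)
      refine Submodule.mem_span_singleton.2 ⟨c * a, ?_⟩
      rw [← k2, mul_smul (k * g), inv_smul_smul, mul_smul k, ← smul_sub, ← hc, smul_comm, k1,
        smul_smul]
    · rw [mul_smul, inv_smul_smul, mul_smul, show g • φ = φ from hPZ hg]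
    · rw [mul_smul, mul_smul, e, smul_inv_smul]

theorem Hyp.f1 (h : Hyp Γ B) {x v v' : V} {φ : W} (hx : x ≠ 0) (hφ : φ ≠ 0) (hxφ : B x φ = 0)
    (hv : B v φ ≠ 0) (hv' : B v' φ ≠ 0) :
    ∃ g ∈ SS Γ (F ∙ x) ⊓ SS Γ (F ∙ φ), g • v = v' := by
  obtain ⟨y, hy⟩ := h.exists_not_mem x
  obtain ⟨ψ, hψ, h1, -, H⟩ := h.f2 hx hy
  obtain ⟨k, k1, k2⟩ := h.flag hx hψ hφ h1 hxφ
  obtain ⟨g, g1, -, g2, g3⟩ := H (k⁻¹ • (B v φ)⁻¹ • v) (k⁻¹ • (B v' φ)⁻¹ • v')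
    (by rw [← h.toPre.inv_right, k2]; simp [hv]) (by rw [← h.toPre.inv_right, k2]; simp [hv'])
  obtain ⟨z, z1, z2, z3, -⟩ := h.scal_mem (mul_ne_zero hv' (inv_ne_zero hv))
  refine ⟨z * (k * g * k⁻¹), Subgroup.mul_mem _ ⟨z1 _, z2 _⟩ ⟨?_, ?_⟩, ?_⟩
  · exact Subgroup.mul_mem _ (Subgroup.mul_mem _ k1 (stab_le_SS x g1)) (Subgroup.inv_mem _ k1)
  · refine stab_le_SS φ ?_
    rw [MulAction.mem_stabilizer_iff, ← k2, mul_smul, inv_smul_smul, mul_smul, g2]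
  · have : (k * g * k⁻¹) • (B v φ)⁻¹ • v = (B v' φ)⁻¹ • v' := by
      rw [mul_smul, mul_smul, g3, smul_inv_smul]
    rw [mul_smul z, z3, mul_smul (B v' φ), ← smul_comm (k * g * k⁻¹), this, smul_smul,
      mul_inv_cancel₀ hv', one_smul]

theorem Pre.exists_val (h : Pre Γ B) {x v : V} (hv : v ∉ F ∙ x) (c : F) :
    ∃ χ, B x χ = 0 ∧ B v χ = c := by
  obtain ⟨w, h1, h2⟩ := h.exists_sep hv
  exact ⟨c • w, by simp [h2 x (Submodule.mem_span_singleton_self x)], by simp [h1]⟩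

theorem Hyp.cone (h : Hyp Γ B) {x v : V} {φ : W} (hx : x ≠ 0) (hφ : φ ≠ 0) (hxφ : B x φ = 0)
    (hv : v ∉ F ∙ x) (c : F) : ∃ g ∈ SS Γ (F ∙ x) ⊓ SS Γ (F ∙ φ), g • v = v + c • x := by
  obtain ⟨χ, h1, h2⟩ := h.toPre.exists_val hv c
  rw [← h2]
  refine h.toPre.dual' _ x χ (fun w => ?_) v
  by_cases hw : B x w = 0
  · exact ⟨1, Subgroup.one_mem _, by simp [hw]⟩
  · rw [inf_comm]
    exact h.flip.f1 hφ hx hxφ hw (by simpa [h1] using hw)

theorem Hyp.uni (h : Hyp Γ B) {x y : V} (hy : y ∉ F ∙ x) (c : F) :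
    ∃ g : Γ, g • x = x ∧ g • y = y + c • x := by
  obtain ⟨χ, h1, h2⟩ := h.toPre.exists_val hy c
  rw [← h2]
  refine h.toPre.dual' (MulAction.stabilizer Γ x) x χ (fun w => ?_) y
  by_cases hw : B x w = 0
  · exact ⟨1, Subgroup.one_mem _, by simp [hw]⟩
  · obtain ⟨g, hg, e⟩ := h.anti (x := x) (ψ := w) (ψ' := w + B x w • χ) hw (by simpa [h1] using hw)
    obtain ⟨a, ha⟩ := mem_SS_span.1 hg
    have := h.inv g x w
    rw [e, ha] at this
    simp [h1, hw] at this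
    exact ⟨g, by rw [MulAction.mem_stabilizer_iff, ha, this, one_smul], e⟩

theorem Hyp.swap (h : Hyp Γ B) {x y : V} {φ : W} (hx : x ≠ 0) (hy : y ∉ F ∙ x) (hφ : φ ≠ 0)
    (hxφ : B x φ = 0) (hyφ : B y φ = 0) :
    ∃ g ∈ SS Γ (F ∙ φ), (∃ a : F, g • x = a • y) ∧ ∃ b : F, g • y = b • x := by
  have hz : y + x ∉ F ∙ x := fun e =>
    hy ((Submodule.add_mem_iff_left _ (Submodule.mem_span_singleton_self x)).1 e)
  have hz' : y + x ∉ F ∙ y := fun e => not_mem_span_symm hx hy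
    ((Submodule.add_mem_iff_right _ (Submodule.mem_span_singleton_self y)).1 e)
  obtain ⟨g₁, ⟨a1, b1⟩, e1⟩ := h.cone hx hφ hxφ hy 1
  obtain ⟨g₂, ⟨a2, b2⟩, e2⟩ := h.cone (ne_zero_of_not_mem hz) hφ (by simp [hxφ, hyφ])
    (not_mem_span_symm hx hz) (-1)
  obtain ⟨g₃, ⟨a3, b3⟩, e3⟩ := h.cone (ne_zero_of_not_mem hy) hφ hyφ hz' (-1)
  obtain ⟨c1, a1⟩ := mem_SS_span.1 a1
  obtain ⟨c2, a2⟩ := mem_SS_span.1 a2
  obtain ⟨c3, a3⟩ := mem_SS_span.1 a3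
  refine ⟨g₃ * g₂ * g₁, Subgroup.mul_mem _ (Subgroup.mul_mem _ b3 b2) b1, ⟨-(c1 * c3), ?_⟩,
    ⟨c2, ?_⟩⟩
  · rw [mul_smul, mul_smul, a1, smul_comm g₂, e2, show x + (-1 : F) • (y + x) = -y by module,
      smul_comm g₃, smul_neg, a3]
    module
  · rw [mul_smul, mul_smul, e1, one_smul, a2, smul_comm g₃, e3]
    module

/-- the big orbit of a flag stabiliser on the hyperplane -/
theorem Hyp.big (h : Hyp Γ B) {x : V} {φ : W} (hx : x ≠ 0) (hφ : φ ≠ 0) (hxφ : B x φ = 0) :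
    ∃ ψ : W, ψ ∉ F ∙ φ ∧ B x ψ = 0 ∧ ∀ v v', B v φ = 0 → B v' φ = 0 → B v ψ ≠ 0 → B v' ψ ≠ 0 →
      ∃ g ∈ SS Γ (F ∙ x) ⊓ SS Γ (F ∙ φ), g • v = v' := by
  obtain ⟨p, hc⟩ := CharP.exists F
  have := Fact.mk (CharP.char_is_prime F p)
  obtain ⟨ψ, hψ⟩ := h.flip.exists_not_mem φ
  obtain ⟨v₀, v1, v2⟩ := h.toPre.exists_sep' hψ
  have hv₀ : v₀ ≠ 0 := by rintro rfl; simp at v2
  obtain ⟨P, hPZ, hP, tr⟩ := syl p (SS Γ (F ∙ φ) ⊓ MulAction.stabilizer Γ ψ)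
    (LinearMap.ker (B.flip φ) ⊓ LinearMap.ker (B.flip ψ)) v₀
    (fun g hg => by
      refine ⟨Submodule.sub_mem _ (h.toPre.ker_SS hg.1 v₀ v1) v1, ?_⟩
      have hg : g • ψ = ψ := hg.2
      show B _ ψ = 0
      rw [map_sub, LinearMap.sub_apply, sub_eq_zero]
      conv_lhs => rw [← hg]
      exact h.inv _ _ _)
    (fun u hu => by
      have u1 : B u φ = 0 := hu.1
      have u2 : B u ψ = 0 := hu.2
      have w2 : B (v₀ + u) ψ = 1 := by simp [v2, u2]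
      have w0 : v₀ + u ≠ 0 := fun e => by rw [e] at w2; simp at w2
      obtain ⟨g, hg, e⟩ := h.flag' hφ hv₀ w0 v1 (by simp [v1, u1])
      obtain ⟨k, ⟨k1, k2⟩, e'⟩ := h.flip.f1 (x := φ) (φ := v₀ + u) (v := g • ψ) (v' := ψ) hφ w0
        (by simp [v1, u1]) (by rw [LinearMap.flip_apply, ← e, h.inv, v2]; simp)
        (by rw [LinearMap.flip_apply, w2]; simp)
      obtain ⟨c, hc⟩ := mem_SS_span.1 k2
      have := h.inv (k * g) v₀ ψ
      rw [mul_smul, mul_smul, e, e', hc, B.map_smul, LinearMap.smul_apply, w2, v2, smul_eq_mul,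
        mul_one] at this
      exact ⟨k * g, ⟨Subgroup.mul_mem _ k1 hg, show (k * g) • ψ = ψ by rw [mul_smul, e']⟩,
        by rw [mul_smul, e, hc, this, one_smul]⟩)
  have dk := h.toPre.finrank_ker hφ
  have d3 := h.dim
  obtain ⟨x₀, ⟨x1, x1'⟩, x2, x3⟩ := fix p hP ⊥
    (LinearMap.ker (B.flip φ) ⊓ LinearMap.ker (B.flip ψ)) (le_SS_bot P)
    (fun g hg u hu => ⟨h.toPre.ker_SS (hPZ hg).1 u hu.1,
      h.toPre.ker_SS (stab_le_SS ψ (hPZ hg).2) u hu.2⟩) (fun e => by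
    have := Submodule.finrank_mono e
    have := H7.finrank_le_finrank_inf_ker (LinearMap.ker (B.flip φ)) (B.flip ψ)
    rw [finrank_bot] at *
    omega)
  simp only [Submodule.mem_bot, sub_eq_zero] at x2 x3
  have x1 : B x₀ φ = 0 := x1
  have x1' : B x₀ ψ = 0 := x1'
  obtain ⟨k, k1, k2⟩ := h.flag' hφ x2 hx x1 hxφ
  refine ⟨k • ψ, fun e => hψ ((SS_iff k1).1 e), by rw [← k2, h.inv, x1'],
    fun v v' a1 a2 b1 b2 => ?_⟩
  have mem : ∀ v, B v φ = 0 → B v (k • ψ) ≠ 0 → k⁻¹ • (B v (k • ψ))⁻¹ • v - v₀ ∈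
      LinearMap.ker (B.flip φ) ⊓ LinearMap.ker (B.flip ψ) := fun v a b => by
    refine ⟨Submodule.sub_mem _ (h.toPre.ker_SS (Subgroup.inv_mem _ k1) _
      (Submodule.smul_mem _ _ a)) v1, ?_⟩
    show B _ ψ = 0
    rw [map_sub, LinearMap.sub_apply, ← h.toPre.inv_right, v2]
    simp [b]
  obtain ⟨g, hg, e⟩ := tr _ _ (mem v a1 b1) (mem v' a2 b2)
  obtain ⟨z, z1, z2, z3, -⟩ := h.scal_mem (mul_ne_zero b2 (inv_ne_zero b1))
  refine ⟨z * (k * g * k⁻¹), Subgroup.mul_mem _ ⟨z1 _, z2 _⟩ ⟨?_, ?_⟩, ?_⟩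
  · refine stab_le_SS x ?_
    rw [MulAction.mem_stabilizer_iff, ← k2, mul_smul, inv_smul_smul, mul_smul, x3 g hg]
  · exact Subgroup.mul_mem _ (Subgroup.mul_mem _ k1 (hPZ hg).1) (Subgroup.inv_mem _ k1)
  · have : (k * g * k⁻¹) • (B v (k • ψ))⁻¹ • v = (B v' (k • ψ))⁻¹ • v' := by
      rw [mul_smul, mul_smul, e, smul_inv_smul]
    rw [mul_smul z, z3, mul_smul (B v' (k • ψ)), ← smul_comm (k * g * k⁻¹), this, smul_smul,
      mul_inv_cancel₀ b2, one_smul]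

end Cfsg.Agent.H5.CK
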