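import Cfsg.Agent.H5.CK2

/-! Two-transitive collineation groups of PG(4,q): flag stabilisers. -/

set_option autoImplicit false
set_option linter.unusedSectionVars false

namespace Cfsg.Agent.H5.CK

open Module

variable {F V W Γ : Type*} [Field F] [Fintype F] [AddCommGroup V] [Module F V] [Finite V]
  [AddCommGroup W] [Module F W] [Finite W] [Group Γ] [Finite Γ]
  [DistribMulAction Γ V] [SMulCommClass Γ F V] [DistribMulAction Γ W] [SMulCommClass Γ F W]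
  {B : V →ₗ[F] W →ₗ[F] F}

/-- the linear map of a group element -/
def lin (F : Type*) [Field F] (V : Type*) [AddCommGroup V] [Module F V] {Γ : Type*} [Group Γ]
    [DistribMulAction Γ V] [SMulCommClass Γ F V] (g : Γ) : V →ₗ[F] V :=
  DistribSMul.toLinearMap F V g

@[simp] theorem lin_apply (g : Γ) (v : V) : lin F V g v = g • v := rfl

theorem span_two_le {L U : Submodule F V} (hL : finrank F L = 2) {x z : V} (hx : x ≠ 0)
    (hz : z ∉ F ∙ x) (xL : x ∈ L) (zL : z ∈ L) (xU : x ∈ U) (zU : z ∈ U) : L ≤ U := by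
  have h1 : (F ∙ x) < (F ∙ x) ⊔ (F ∙ z) :=
    left_lt_sup.2 fun e => hz (e (Submodule.mem_span_singleton_self z))
  have h2 := Submodule.finrank_lt_finrank_of_lt h1
  rw [finrank_span_singleton hx] at h2
  have h3 : (F ∙ x) ⊔ (F ∙ z) = L := Submodule.eq_of_le_of_finrank_le
    (sup_le ((Submodule.span_singleton_le_iff_mem _ _).2 xL)
      ((Submodule.span_singleton_le_iff_mem _ _).2 zL)) (by omega)
  rw [← h3]
  exact sup_le ((Submodule.span_singleton_le_iff_mem _ _).2 xU)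
    ((Submodule.span_singleton_le_iff_mem _ _).2 zU)

theorem smul_mem_span_trans {x y z : V} {g k : Γ} (h1 : g • x ∈ F ∙ y) (h2 : k • y ∈ F ∙ z) :
    (k * g) • x ∈ F ∙ z := by
  obtain ⟨a, ha⟩ := Submodule.mem_span_singleton.1 h1
  rw [mul_smul, ← ha, smul_comm]
  exact Submodule.smul_mem _ _ h2

theorem smul_mem_span_inv {x y : V} {g : Γ} (hx : x ≠ 0) (h1 : g • x ∈ F ∙ y) :
    g⁻¹ • y ∈ F ∙ x := by
  obtain ⟨a, ha⟩ := Submodule.mem_span_singleton.1 h1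
  have := ne_of_smul_eq hx ha.symm
  refine Submodule.mem_span_singleton.2 ⟨a⁻¹, ?_⟩
  rw [eq_inv_smul_iff, smul_comm, ← ha, smul_smul, inv_mul_cancel₀ this, one_smul]

theorem mem_SS_span_iff {x : V} {g : Γ} : g ∈ SS Γ (F ∙ x) ↔ g • x ∈ F ∙ x := by
  rw [mem_SS_span, Submodule.mem_span_singleton]
  exact exists_congr fun _ => eq_comm

theorem finrank_comap_lin (g : Γ) (U : Submodule F V) :
    finrank F (U.comap (lin F V g)) = finrank F U := by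
  have : U.comap (lin F V g) = U.map (DistribMulAction.toLinearEquiv F V g⁻¹).toLinearMap := by
    ext v
    constructor
    · intro hv
      exact ⟨_, hv, inv_smul_smul g v⟩
    · rintro ⟨u, hu, rfl⟩
      show g • g⁻¹ • u ∈ U
      rwa [smul_inv_smul]
  rw [this, LinearEquiv.finrank_map_eq]

theorem Hyp.not_lin (h : Hyp Γ B) (hd : finrank F V = 5) {x₀ : V} {φ₀ : W} (L₀ : Submodule F V)
    (hx₀ : x₀ ≠ 0) (hφ₀ : φ₀ ≠ 0) (hL : finrank F L₀ = 2) (xL : x₀ ∈ L₀)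
    (Lφ : ∀ y ∈ L₀, B y φ₀ = 0) (inv : SS Γ (F ∙ x₀) ⊓ SS Γ (F ∙ φ₀) ≤ SS Γ L₀) : False := by
  obtain ⟨L, mL⟩ : ∃ L : V → W → Submodule F V, ∀ x φ y, y ∈ L x φ ↔
      ∀ g : Γ, g • x₀ ∈ F ∙ x → g • φ₀ ∈ F ∙ φ → g⁻¹ • y ∈ L₀ :=
    ⟨fun x φ => ⨅ g : Γ, ⨅ _ : g • x₀ ∈ F ∙ x, ⨅ _ : g • φ₀ ∈ F ∙ φ, L₀.comap (lin F V g⁻¹),
      fun x φ y => by simp [Submodule.mem_iInf]⟩
  have L0 : ∀ {x φ} {g : Γ}, g • x₀ ∈ F ∙ x → g • φ₀ ∈ F ∙ φ → L x φ = L₀.comap (lin F V g⁻¹) :=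
    fun {x φ g} g1 g2 => by
      ext y
      rw [mL]
      refine ⟨fun H => H g g1 g2, fun H k k1 k2 => ?_⟩
      have hx : x ≠ 0 := by
        rintro rfl
        rw [Submodule.span_zero_singleton, Submodule.mem_bot] at g1
        exact smul_ne hx₀ g1
      have := inv (x := k⁻¹ * g) ⟨mem_SS_span_iff.2 (smul_mem_span_trans g1
        (smul_mem_span_inv hx₀ k1)), mem_SS_span_iff.2 (smul_mem_span_trans g2
        (smul_mem_span_inv hφ₀ k2))⟩ _ H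
      simpa [mul_smul] using this
  have ex : ∀ {x φ}, x ≠ 0 → φ ≠ 0 → B x φ = 0 → ∃ g : Γ, g • x₀ ∈ F ∙ x ∧ g • φ₀ ∈ F ∙ φ :=
    fun {x φ} hx hφ e => by
      obtain ⟨g, hg⟩ := h.one hx₀ hx
      obtain ⟨k, k1, k2⟩ := h.flag (ψ := g • φ₀) hx (smul_ne hφ₀) hφ
        (by rw [← hg, h.inv, Lφ _ xL]) e
      refine ⟨k * g, ?_, ?_⟩
      · rw [mul_smul, hg]; exact mem_SS_span_iff.1 k1
      · rw [mul_smul, k2]; exact Submodule.mem_span_singleton_self φ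
  have L1 : ∀ {x φ x' φ' y} (k : Γ), x ≠ 0 → φ ≠ 0 → B x φ = 0 → k • x ∈ F ∙ x' →
      k • φ ∈ F ∙ φ' → y ∈ L x φ → k • y ∈ L x' φ' := fun {x φ x' φ' y} k hx hφ e k1 k2 hy => by
    obtain ⟨g, g1, g2⟩ := ex hx hφ e
    rw [L0 g1 g2] at hy
    rw [L0 (smul_mem_span_trans g1 k1) (smul_mem_span_trans g2 k2)]
    simpa [mul_smul] using hy
  have L2 : ∀ {x φ}, x ≠ 0 → φ ≠ 0 → B x φ = 0 →
      x ∈ L x φ ∧ (∀ y ∈ L x φ, B y φ = 0) ∧ finrank F (L x φ) = 2 := fun {x φ} hx hφ e => by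
    obtain ⟨g, g1, g2⟩ := ex hx hφ e
    rw [L0 g1 g2]
    refine ⟨(Submodule.span_singleton_le_iff_mem _ _).2 xL (smul_mem_span_inv hx₀ g1),
      fun y hy => ?_, by rw [finrank_comap_lin, hL]⟩
    obtain ⟨a, ha⟩ := Submodule.mem_span_singleton.1 (smul_mem_span_inv hφ₀ g2)
    rw [← h.inv g⁻¹, ← ha, (B _).map_smul, Lφ (g⁻¹ • y) hy, smul_zero]
  have L3 : ∀ {x y}, x ≠ 0 → y ∉ F ∙ x → ∃ φ, φ ≠ 0 ∧ B x φ = 0 ∧ y ∈ L x φ :=
    fun {x y} hx hy => by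
      obtain ⟨y₀, y1, y2⟩ := H7.exists_mem_notMem_of_finrank_lt (U := L₀) (W := F ∙ x₀) (by
        rw [finrank_span_singleton hx₀, hL]; omega)
      obtain ⟨g, ⟨a, g1⟩, g2⟩ := h.two x₀ y₀ x y hx₀ y2 hx hy
      refine ⟨g • φ₀, smul_ne hφ₀, ?_, ?_⟩
      · have := h.inv g x₀ φ₀
        rw [g1, Lφ _ xL] at this
        simpa [ne_of_smul_eq hx₀ g1] using this
      · rw [L0 (g := g) (Submodule.mem_span_singleton.2 ⟨a, g1.symm⟩)
          (Submodule.mem_span_singleton_self _), ← g2]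
        simpa using y1
  have sym : ∀ {x y φ}, x ≠ 0 → φ ≠ 0 → B x φ = 0 → y ∉ F ∙ x → y ∈ L x φ → x ∈ L y φ :=
    fun {x y φ} hx hφ e hy yL => by
      obtain ⟨g, g1, ⟨a, g2⟩, b, g3⟩ := h.swap hx hy hφ e ((L2 hx hφ e).2.1 y yL)
      have := L1 g hx hφ e (Submodule.mem_span_singleton.2 ⟨a, g2.symm⟩) (mem_SS_span_iff.1 g1) yL
      rwa [g3, Submodule.smul_mem_iff _ (ne_of_smul_eq (ne_zero_of_not_mem hy) g3)] at this
  have R5 : ∀ {x y z φ ψ}, x ≠ 0 → φ ≠ 0 → ψ ≠ 0 → B x φ = 0 → B x ψ = 0 → y ∈ L x φ →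
      z ∈ L x ψ → z ∉ F ∙ x → B z φ = 0 → B y ψ = 0 :=
    fun {x y z φ ψ} hx hφ hψ e e' yL zL hz ez => by
      by_cases hc : ψ ∈ F ∙ φ
      · obtain ⟨a, rfl⟩ := Submodule.mem_span_singleton.1 hc
        rw [(B _).map_smul, (L2 hx hφ e).2.1 y yL, smul_zero]
      obtain ⟨g, g1, ⟨a, g2⟩, b, g3⟩ := h.flip.swap hφ hc hx e e'
      have := L1 g hx hφ e (mem_SS_span_iff.1 g1) (Submodule.mem_span_singleton.2 ⟨a, g2.symm⟩) yL
      have : B (g • y) φ = 0 := span_two_le (U := LinearMap.ker (B.flip φ)) (L2 hx hψ e').2.2 hx hz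
        (L2 hx hψ e').1 zL e ez this
      rw [← h.inv g, g3, (B _).map_smul, this, smul_zero]
  have same : ∀ {a c φ}, a ≠ 0 → φ ≠ 0 → B a φ = 0 → c ≠ 0 → c ∈ L a φ → L a φ = L c φ :=
    fun {a c φ} ha hφ e hc cL => by
      have e' := (L2 ha hφ e).2.1 c cL
      refine Submodule.eq_of_le_of_finrank_eq ?_ (by rw [(L2 ha hφ e).2.2, (L2 hc hφ e').2.2])
      by_cases hca : c ∈ F ∙ a
      · intro y hy
        have := L1 (1 : Γ) ha hφ e (x' := c) (φ' := φ)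
          (by simpa using smul_mem_span_inv (g := (1 : Γ)) hc (by simpa using hca))
          (by simp) hy
        simpa using this
      · exact span_two_le (L2 ha hφ e).2.2 ha hca (L2 ha hφ e).1 cL (sym ha hφ e hca cL)
          (L2 hc hφ e').1
  have e₀ := Lφ _ xL
  have dk := h.toPre.finrank_ker hφ₀
  obtain ⟨b, b1, b2⟩ := H7.exists_mem_notMem_of_finrank_lt (U := LinearMap.ker (B.flip φ₀))
    (W := L x₀ φ₀) (by rw [(L2 hx₀ hφ₀ e₀).2.2]; omega)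
  have b1 : B b φ₀ = 0 := b1
  have hb := ne_zero_of_not_mem b2
  have bx : b ∉ F ∙ x₀ := fun e =>
    b2 ((Submodule.span_singleton_le_iff_mem _ _).2 (L2 hx₀ hφ₀ e₀).1 e)
  have skew : L x₀ φ₀ ⊓ L b φ₀ = ⊥ := by
    rw [eq_bot_iff]
    rintro c ⟨c1, c2⟩
    by_contra hc
    refine b2 ?_
    rw [same hx₀ hφ₀ e₀ hc c1, ← same hb hφ₀ b1 hc c2]
    exact (L2 hb hφ₀ b1).1
  have hsup : L x₀ φ₀ ⊔ L b φ₀ = LinearMap.ker (B.flip φ₀) := by
    refine Submodule.eq_of_le_of_finrank_eq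
      (sup_le (L2 hx₀ hφ₀ e₀).2.1 (L2 hb hφ₀ b1).2.1) ?_
    have := Submodule.finrank_sup_add_finrank_inf_eq (L x₀ φ₀) (L b φ₀)
    rw [skew, finrank_bot, (L2 hx₀ hφ₀ e₀).2.2, (L2 hb hφ₀ b1).2.2] at this
    omega
  obtain ⟨ψ, hψ, e1, bL⟩ := L3 hx₀ bx
  have e2 := (L2 hx₀ hψ e1).2.1 b bL
  have le : LinearMap.ker (B.flip φ₀) ≤ LinearMap.ker (B.flip ψ) := by
    rw [← hsup]
    exact sup_le (fun y hy => R5 hx₀ hφ₀ hψ e₀ e1 hy bL bx b1)
      (fun y hy => R5 hb hφ₀ hψ b1 e2 hy (sym hx₀ hψ e1 bx bL) (not_mem_span_symm hx₀ bx) e₀)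
  have : ψ ∈ F ∙ φ₀ := by
    by_contra hc
    obtain ⟨v, v1, v2⟩ := h.toPre.exists_sep' hc
    have : B v ψ = 0 := le v1
    rw [v2] at this
    exact one_ne_zero this
  have := L1 (1 : Γ) hx₀ hψ e1 (x' := x₀) (φ' := φ₀) (by simp) (by simpa using this) bL
  exact b2 (by simpa using this)

/-- the perpendicular -/
def perp (B : V →ₗ[F] W →ₗ[F] F) (S : Submodule F W) : Submodule F V :=
  S.dualAnnihilator.comap B

theorem mem_perp {S : Submodule F W} {v : V} : v ∈ perp B S ↔ ∀ w ∈ S, B v w = 0 :=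
  Submodule.mem_dualAnnihilator _

theorem Pre.finrank_perp (h : Pre Γ B) (S : Submodule F W) :
    finrank F S + finrank F (perp B S) = finrank F V := by
  have e : perp B S = S.dualAnnihilator.map
      (LinearEquiv.ofBijective B ⟨h.inj, h.surj⟩).symm.toLinearMap := by
    rw [Submodule.map_equiv_eq_comap_symm]; rfl
  rw [e, LinearEquiv.finrank_map_eq, Subspace.finrank_add_finrank_dualAnnihilator_eq,
    h.finrank_eq]

theorem Pre.perp_SS (h : Pre Γ B) {S : Submodule F W} {g : Γ} (hg : g ∈ SS Γ S) :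
    g ∈ SS Γ (perp B S) := fun u hu => mem_perp.2 fun w hw => by
  rw [h.inv_left]
  exact mem_perp.1 hu _ ((SS Γ S).inv_mem hg w hw)

theorem Hyp.trans5 (h : Hyp Γ B) (hd : finrank F V = 5) {x : V} {φ : W} (hx : x ≠ 0) (hφ : φ ≠ 0)
    (hxφ : B x φ = 0) {v v' : V} (v1 : B v φ = 0) (v2 : v ∉ F ∙ x) (v1' : B v' φ = 0)
    (v2' : v' ∉ F ∙ x) : ∃ g ∈ SS Γ (F ∙ x) ⊓ SS Γ (F ∙ φ), g • v = v' := by
  obtain ⟨ψ, hψ, e, H⟩ := h.big hx hφ hxφ
  obtain ⟨M, mM⟩ : ∃ M : Submodule F V, ∀ y, y ∈ M ↔ B y φ = 0 ∧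
      ∀ g ∈ SS Γ (F ∙ x) ⊓ SS Γ (F ∙ φ), B (g • y) ψ = 0 :=
    ⟨LinearMap.ker (B.flip φ) ⊓ ⨅ g ∈ SS Γ (F ∙ x) ⊓ SS Γ (F ∙ φ),
      LinearMap.ker (B.flip ψ ∘ₗ lin F V g), fun y => by simp [Submodule.mem_iInf]⟩
  have xM : x ∈ M := (mM x).2 ⟨hxφ, fun g hg => by
    obtain ⟨c, hc⟩ := mem_SS_span.1 hg.1
    simp [hc, e]⟩
  have inv : SS Γ (F ∙ x) ⊓ SS Γ (F ∙ φ) ≤ SS Γ M := fun g hg y hy => (mM _).2
    ⟨h.toPre.ker_SS hg.2 y ((mM y).1 hy).1, fun k hk => by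
      rw [← mul_smul]; exact ((mM y).1 hy).2 _ (Subgroup.mul_mem _ hk hg)⟩
  have dk := h.toPre.finrank_ker hφ
  have lt : M < LinearMap.ker (B.flip φ) := by
    refine lt_of_le_of_ne (fun y hy => ((mM y).1 hy).1) fun eM => ?_
    obtain ⟨u, u1, u2⟩ := h.toPre.exists_sep' hψ
    have := ((mM u).1 (eM ▸ u1)).2 1 (Subgroup.one_mem _)
    rw [one_smul, u2] at this
    exact one_ne_zero this
  have d1 := Submodule.finrank_lt_finrank_of_lt lt
  have le : (F ∙ x) ≤ M := (Submodule.span_singleton_le_iff_mem _ _).2 xM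
  have d2 := Submodule.finrank_mono le
  rw [finrank_span_singleton hx] at d2
  have n2 : finrank F M ≠ 2 := fun e2 =>
    h.not_lin hd M hx hφ e2 xM (fun y hy => ((mM y).1 hy).1) inv
  have n3 : finrank F M ≠ 3 := fun e3 => by
    have := h.toPre.flip.finrank_perp M
    refine h.flip.not_lin (h.toPre.finrank_eq ▸ hd) (perp B.flip M) hφ hx
      (by rw [← h.toPre.finrank_eq] at this; omega) (mem_perp.2 fun y hy => ((mM y).1 hy).1)
      (fun y hy => mem_perp.1 hy x xM) fun g hg => h.toPre.flip.perp_SS (inv ⟨hg.2, hg.1⟩)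
  have eM : (F ∙ x) = M := Submodule.eq_of_le_of_finrank_eq le (by
    rw [finrank_span_singleton hx]; omega)
  have K : ∀ v, B v φ = 0 → v ∉ F ∙ x →
      ∃ g ∈ SS Γ (F ∙ x) ⊓ SS Γ (F ∙ φ), B (g • v) ψ ≠ 0 := fun v a b => by
    by_contra hc
    push Not at hc
    exact b (eM ▸ (mM v).2 ⟨a, hc⟩)
  obtain ⟨g, hg, a⟩ := K v v1 v2
  obtain ⟨g', hg', a'⟩ := K v' v1' v2'
  obtain ⟨k, hk, ek⟩ := H _ _ (h.toPre.ker_SS hg.2 v v1) (h.toPre.ker_SS hg'.2 v' v1') a a'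
  exact ⟨g'⁻¹ * (k * g), Subgroup.mul_mem _ (Subgroup.inv_mem _ hg') (Subgroup.mul_mem _ hk hg),
    by rw [mul_smul, mul_smul, ek, inv_smul_smul]⟩

theorem Hyp.dvd_card (h : Hyp Γ B) (hd : finrank F V = 5) :
    Fintype.card F ^ 4 - Fintype.card F ∣ Nat.card Γ := by
  obtain ⟨φ, hφ⟩ := h.flip.exists_not_mem 0
  have hφ := ne_zero_of_not_mem hφ
  have dk := h.toPre.finrank_ker hφ
  obtain ⟨x, x1, hx⟩ := H7.exists_mem_notMem_of_finrank_lt (U := LinearMap.ker (B.flip φ))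
    (W := ⊥) (by rw [finrank_bot]; omega)
  have hx := ne_zero_of_not_mem hx
  obtain ⟨v, v1, v2⟩ := H7.exists_mem_notMem_of_finrank_lt (U := LinearMap.ker (B.flip φ))
    (W := F ∙ x) (by rw [finrank_span_singleton hx]; omega)
  have eO : MulAction.orbit (SS Γ (F ∙ x) ⊓ SS Γ (F ∙ φ) : Subgroup Γ) v =
      (LinearMap.ker (B.flip φ) : Set V) \ (F ∙ x : Submodule F V) := by
    ext u
    constructor
    · rintro ⟨g, rfl⟩
      exact ⟨h.toPre.ker_SS g.2.2 v v1, fun e => v2 ((SS_iff g.2.1).1 e)⟩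
    · rintro ⟨u1, u2⟩
      obtain ⟨g, hg, e⟩ := h.trans5 hd hx hφ x1 v1 v2 u1 u2
      exact ⟨⟨g, hg⟩, e⟩
  have : Nat.card (MulAction.orbit (SS Γ (F ∙ x) ⊓ SS Γ (F ∙ φ) : Subgroup Γ) v) =
      Fintype.card F ^ 4 - Fintype.card F := by
    rw [eO, Nat.card_coe_set_eq, Set.ncard_sdiff
      ((Submodule.span_singleton_le_iff_mem _ _).2 x1), ← Nat.card_coe_set_eq,
      ← Nat.card_coe_set_eq]
    have a := card_sub (F := F) (LinearMap.ker (B.flip φ))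
    have b := card_sub (F := F) (F ∙ x)
    rw [finrank_span_singleton hx, pow_one] at b
    rw [show finrank F (LinearMap.ker (B.flip φ)) = 4 by omega] at a
    exact congrArg₂ _ a b
  rw [← this]
  refine dvd_trans ?_ (Subgroup.card_subgroup_dvd_card (SS Γ (F ∙ x) ⊓ SS Γ (F ∙ φ)))
  rw [Nat.card_congr (MulAction.orbitEquivQuotientStabilizer _ v)]
  exact Subgroup.card_quotient_dvd_card _

end Cfsg.Agent.H5.CK
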