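import Cfsg.Agent.H5.CK3

/-! Two-transitive collineation groups of PG(4,q): arithmetic, Frattini, the cubic field. -/

set_option autoImplicit false
set_option linter.unusedSectionVars false

namespace Cfsg.Agent.H5.CK

open Module

theorem exists_ppd {q : ℕ} (hq : 2 ≤ q) : ∃ s : ℕ, s.Prime ∧ s ∣ q ^ 2 + q + 1 ∧
    ∀ a b : ℕ, b ≤ a → q ^ a ≡ q ^ b [MOD s] → 3 ∣ a - b := by
  have h7 : 7 ≤ q ^ 2 + q + 1 := by nlinarith
  obtain ⟨s, hs, h3, hd⟩ : ∃ s : ℕ, s.Prime ∧ s ≠ 3 ∧ s ∣ q ^ 2 + q + 1 := by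
    by_cases h : 3 ∣ q ^ 2 + q + 1
    · obtain ⟨m, hm⟩ := h
      have m3 : ¬ 3 ∣ m := fun ⟨k, hk⟩ => by
        have : (q ^ 2 + q + 1) % 9 = 0 := by omega
        have h9 : q % 9 < 9 := Nat.mod_lt _ (by norm_num)
        rw [Nat.add_mod, Nat.add_mod (q ^ 2), Nat.pow_mod] at this
        interval_cases q % 9 <;> simp at this
      exact ⟨m.minFac, Nat.minFac_prime (by omega), fun e => m3 (e ▸ Nat.minFac_dvd m),
        hm ▸ Dvd.dvd.mul_left (Nat.minFac_dvd m) 3⟩
    · exact ⟨_, Nat.minFac_prime (by omega), fun e => h (e ▸ Nat.minFac_dvd _), Nat.minFac_dvd _⟩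
  have := Fact.mk hs
  have e : (q : ZMod s) ^ 2 + q + 1 = 0 := by
    have := (ZMod.natCast_eq_zero_iff _ s).2 hd
    simpa using this
  have q0 : (q : ZMod s) ≠ 0 := fun h => by simp [h] at e
  have q1 : (q : ZMod s) ≠ 1 := fun h => by
    rw [h] at e
    have : ((3 : ℕ) : ZMod s) = 0 := by push_cast; linear_combination e
    exact h3 ((Nat.prime_dvd_prime_iff_eq hs Nat.prime_three).1
      ((ZMod.natCast_eq_zero_iff _ s).1 this))
  have o : orderOf (q : ZMod s) = 3 :=
    haveI := Fact.mk Nat.prime_three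
    orderOf_eq_prime (by linear_combination ((q : ZMod s) - 1) * e) q1
  refine ⟨s, hs, hd, fun a b hab h => ?_⟩
  rw [← o, orderOf_dvd_iff_pow_eq_one]
  have := (ZMod.natCast_eq_natCast_iff _ _ _).2 h
  push_cast at this
  refine mul_left_cancel₀ (pow_ne_zero b q0) ?_
  rw [← pow_add, Nat.add_sub_cancel' hab, this, mul_one]

theorem frat {Δ : Type*} [Group Δ] [Finite Δ] (C : Subgroup Δ) [C.Normal] {s : ℕ} (hs : s.Prime)
    (hd : s ∣ Nat.card C) : ∃ z ∈ C, orderOf z = s ∧ ∃ N : Subgroup Δ, z ∈ N ∧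
      (∀ n ∈ N, Commute (n * z * n⁻¹) z) ∧ ∀ g : Δ, ∃ n ∈ N, ∃ c ∈ C, n * c = g := by
  have := Fact.mk hs
  obtain ⟨R⟩ : Nonempty (Sylow s C) := inferInstance
  have : Nontrivial R := (Subgroup.nontrivial_iff_ne_bot _).2 (R.ne_bot_of_dvd_card hd)
  have := R.2.center_nontrivial
  obtain ⟨k, hk, e⟩ := (R.2.to_subgroup (Subgroup.center R)).nontrivial_iff_card.1 inferInstance
  obtain ⟨z, hz⟩ := exists_prime_orderOf_dvd_card' (G := Subgroup.center R) s
    (e ▸ dvd_pow_self s hk.ne')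
  have zR : (z.1.1.1 : Δ) ∈ (R : Subgroup C).map C.subtype := ⟨z.1.1, z.1.2, rfl⟩
  refine ⟨z.1.1.1, z.1.1.2, by
      rw [Subgroup.orderOf_coe, Subgroup.orderOf_coe, Subgroup.orderOf_coe, hz],
    Subgroup.normalizer ((R : Subgroup C).map C.subtype), Subgroup.le_normalizer zR,
    fun n hn => ?_, fun g => ?_⟩
  · obtain ⟨w, hw, e⟩ := (Subgroup.mem_normalizer_iff.1 hn _).1 zR
    rw [← e]
    have := Subgroup.mem_center_iff.1 z.2 ⟨w, hw⟩
    exact congrArg (fun a : R => (a.1.1 : Δ)) this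
  · have : g ∈ ((Subgroup.normalizer ((R : Subgroup C).map C.subtype) ⊔ C : Subgroup Δ) :
        Set Δ) := by
      rw [Sylow.normalizer_sup_eq_top R]; trivial
    rw [Subgroup.mul_normal] at this
    exact this

theorem cubic {F U N : Type*} [Field F] [Fintype F] [AddCommGroup U] [Module F U] [Finite U]
    [Group N] (hU : finrank F U = 3) (τ : Representation F N U) (z : N)
    (irr : ∀ S : Submodule F U, (∀ u ∈ S, τ z u ∈ S) → S = ⊥ ∨ S = ⊤)
    (hc : ∀ n, Commute (n * z * n⁻¹) z) :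
    ∃ σ : N →* Multiplicative (ZMod 3), ∀ n, σ n = 1 →
      τ n ^ (Fintype.card F ^ 3 - 1) = 1 ∧ ∀ k, (τ n ^ k) ^ 2 = 1 → τ n ^ k = 1 ∨ τ n ^ k = -1 := by
  classical
  have : Nontrivial U := Module.nontrivial_of_finrank_pos (R := F) (by omega)
  have : Finite (Module.End F U) := Finite.of_injective _ (DFunLike.coe_injective (F := U →ₗ[F] U))
  set K := Subalgebra.centralizer F {τ z} with hK
  have mK : ∀ a, a ∈ K ↔ τ z * a = a * τ z := fun a => by
    simp [hK, Subalgebra.mem_centralizer_iff]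
  have inj : ∀ a : K, a ≠ 0 → ∀ u, (a : Module.End F U) u = 0 → u = 0 := fun a ha u hu => by
    rcases irr (LinearMap.ker (a : Module.End F U)) (fun u hu => by
      rw [LinearMap.mem_ker] at hu ⊢
      rw [← Module.End.mul_apply, ← (mK _).1 a.2, Module.End.mul_apply, hu, map_zero]) with e | e
    · have : u ∈ LinearMap.ker (a : Module.End F U) := hu
      rwa [e] at this
    · exact absurd (Subtype.ext (LinearMap.ker_eq_top.1 e)) ha
  have : NoZeroDivisors K := ⟨fun {a b} hab => by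
    by_contra hne
    push Not at hne
    refine hne.2 (Subtype.ext (LinearMap.ext fun u => inj a hne.1 _ ?_))
    exact LinearMap.congr_fun (congrArg Subtype.val hab) u⟩
  have : IsDomain K := NoZeroDivisors.to_isDomain K
  have hF := Finite.isDomain_to_isField K
  let _ := hF.toField
  obtain ⟨u₀, hu₀⟩ := exists_ne (0 : U)
  let ev : K →ₗ[F] U := (LinearMap.applyₗ u₀) ∘ₗ K.val.toLinearMap
  have evi : Function.Injective ev := (injective_iff_map_eq_zero ev).2 fun a ha => by
    by_contra h0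
    exact hu₀ (inj a h0 u₀ ha)
  have evs : LinearMap.range ev = ⊤ := by
    refine (irr _ ?_).resolve_left fun e => hu₀ ?_
    · rintro _ ⟨a, rfl⟩
      exact ⟨⟨τ z, (mK _).2 rfl⟩ * a, rfl⟩
    · have : u₀ ∈ LinearMap.range ev := ⟨1, rfl⟩
      rwa [e] at this
  have dK : finrank F K = 3 := by
    rw [← hU, ← LinearMap.finrank_range_of_inj evi, evs, finrank_top]
  have cj : ∀ (n : N) (a : K), τ n * a * τ n⁻¹ ∈ K := fun n a => by
    have h1 : τ (n⁻¹ * z * n⁻¹⁻¹) ∈ K := (mK _).2 (by rw [← map_mul, ← map_mul, (hc _).eq])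
    have h2 : τ (n⁻¹ * z * n⁻¹⁻¹) * a = a * τ (n⁻¹ * z * n⁻¹⁻¹) :=
      congrArg Subtype.val (hF.mul_comm ⟨_, h1⟩ a)
    rw [mK]
    calc τ z * (τ n * a * τ n⁻¹) = τ n * (τ (n⁻¹ * z * n⁻¹⁻¹) * a) * τ n⁻¹ := by
          simp only [← mul_assoc, ← map_mul]; simp
      _ = τ n * a * τ n⁻¹ * τ z := by
          rw [h2]; simp only [mul_assoc, ← map_mul]; simp
  have e1 : ∀ n : N, τ n⁻¹ * τ n = 1 := fun n => by rw [← map_mul]; simp
  have e2 : ∀ n : N, τ n * τ n⁻¹ = 1 := fun n => by rw [← map_mul]; simp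
  let c : N →* (K →ₐ[F] K) :=
    { toFun := fun n =>
        { toFun := fun a => ⟨_, cj n a⟩
          map_one' := Subtype.ext (by simp [e2])
          map_mul' := fun a b => Subtype.ext (by
            simp only [MulMemClass.coe_mul, mul_assoc]
            rw [← mul_assoc (τ n⁻¹) (τ n), e1, one_mul])
          map_zero' := Subtype.ext (by simp)
          map_add' := fun a b => Subtype.ext (by simp [mul_add, add_mul])
          commutes' := fun r => Subtype.ext (by
            simp [Algebra.algebraMap_eq_smul_one, e2]) }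
      map_one' := AlgHom.ext fun a => Subtype.ext (by simp)
      map_mul' := fun m n => AlgHom.ext fun a => Subtype.ext (by
        simp [mul_assoc]) }
  have cG : Nat.card (K ≃ₐ[F] K) = 3 := (IsGalois.card_aut_eq_finrank F K).trans dK
  have := Fact.mk Nat.prime_three
  let e : (K ≃ₐ[F] K) ≃* Multiplicative (ZMod 3) := mulEquivOfPrimeCardEq (p := 3) cG (by simp)
  refine ⟨e.toMonoidHom.comp ((AlgEquiv.algHomUnitsEquiv F K).toMonoidHom.comp c.toHomUnits),
    fun n hn => ?_⟩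
  have h1 : c n = 1 := by
    have : c.toHomUnits n = 1 := by simpa using hn
    exact congrArg Units.val this
  have h2 : τ n ∈ K := by
    have : τ n * τ z * τ n⁻¹ = τ z :=
      congrArg Subtype.val (AlgHom.congr_fun h1 ⟨τ z, (mK _).2 rfl⟩)
    rw [mK]
    conv_lhs => rw [← this, mul_assoc, e1, mul_one]
  have h0 : (⟨τ n, h2⟩ : K) ≠ 0 := fun e => by
    have : τ n = 0 := congrArg Subtype.val e
    have h := e2 n
    rw [this, zero_mul] at h
    exact zero_ne_one h
  have := Fintype.ofFinite K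
  refine ⟨?_, fun k hk => ?_⟩
  · have := FiniteField.pow_card_sub_one_eq_one _ h0
    rw [Module.card_eq_pow_finrank (K := F), dK] at this
    exact congrArg Subtype.val this
  · have : ((⟨τ n, h2⟩ : K) ^ k) ^ 2 = 1 := Subtype.ext hk
    rcases sq_eq_one_iff.1 this with h | h
    · exact Or.inl (congrArg Subtype.val h)
    · exact Or.inr (congrArg Subtype.val h)

end Cfsg.Agent.H5.CK
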