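import Cfsg.Agent.H5.CK4

/-! Two-transitive collineation groups of PG(4,q): finding a transvection. -/

set_option autoImplicit false
set_option linter.unusedSectionVars false

namespace Cfsg.Agent.H5.CK

open Module

variable {F V Δ : Type*} [Field F] [Fintype F] [AddCommGroup V] [Module F V] [Finite V]
  [Group Δ] [Finite Δ] [DistribMulAction Δ V] [SMulCommClass Δ F V]

/-- there is a transvection -/
def TV (F V Δ : Type*) [Field F] [AddCommGroup V] [Module F V] [Group Δ] [DistribMulAction Δ V] :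
    Prop := ∃ (g : Δ) (b : V), g • b = b ∧ (∀ v, g • v - v ∈ F ∙ b) ∧ ∃ v : V, g • v ≠ v

/-- fixed space -/
def Fx (F V : Type*) [Field F] [AddCommGroup V] [Module F V] [DistribMulAction Δ V]
    [SMulCommClass Δ F V] (z : Δ) : Submodule F V := LinearMap.ker (lin F V z - LinearMap.id)

theorem mem_Fx {z : Δ} {v : V} : v ∈ Fx F V z ↔ z • v = v := by
  simp [Fx, sub_eq_zero]

theorem fx {s : ℕ} (hs : s.Prime)
    (H : ∀ a b : ℕ, b ≤ a → Fintype.card F ^ a ≡ Fintype.card F ^ b [MOD s] → 3 ∣ a - b)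
    {z : Δ} (hz : orderOf z = s) (U : Submodule F V) (hU : z ∈ SS Δ U) :
    3 ∣ finrank F U - finrank F (U ⊓ Fx F V z : Submodule F V) := by
  have := Fact.mk hs
  refine H _ _ (Submodule.finrank_mono inf_le_left) ?_
  have := H1.Basic.card_modEq_of_invariant (p := s) (Subgroup.zpowers z)
    (IsPGroup.of_card (n := 1) (by rw [Nat.card_zpowers, hz, pow_one])) (U : Set V)
    (fun g hg => (Subgroup.zpowers_le.2 hU) hg)
  have e : (U : Set V) ∩ MulAction.fixedPoints (Subgroup.zpowers z) V =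
      (U ⊓ Fx F V z : Submodule F V) := by
    ext v
    refine and_congr_right fun _ => ⟨fun h => mem_Fx.2 (h ⟨z, Subgroup.mem_zpowers z⟩),
      fun h g => ?_⟩
    exact (Subgroup.zpowers_le (H := MulAction.stabilizer Δ v)).2 (mem_Fx.1 h) g.2
  rwa [e, ← Nat.card_coe_set_eq, ← Nat.card_coe_set_eq, SetLike.coe_sort_coe,
    SetLike.coe_sort_coe, card_sub, card_sub] at this

theorem dim_fx [FaithfulSMul Δ V] (hd : finrank F V = 5) {s : ℕ} (hs : s.Prime)
    (H : ∀ a b : ℕ, b ≤ a → Fintype.card F ^ a ≡ Fintype.card F ^ b [MOD s] → 3 ∣ a - b)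
    {z : Δ} (hz : orderOf z = s) : finrank F (Fx F V z) = 2 := by
  have h1 := fx hs H hz (⊤ : Submodule F V) (fun _ _ => trivial)
  rw [top_inf_eq, finrank_top, hd] at h1
  have h2 : Fx F V z ≠ ⊤ := fun e => by
    have : z = 1 := FaithfulSMul.eq_of_smul_eq_smul (α := V) fun v => by
      rw [one_smul]; exact mem_Fx.1 (e ▸ Submodule.mem_top (R := F))
    rw [this, orderOf_one] at hz
    exact hs.one_lt.ne hz
  have := Submodule.finrank_lt h2
  omega

theorem gsm (g : Δ) (c : F) (v : V) : g • c • v = c • g • v := smul_comm _ _ _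

theorem pow_uni {n : Δ} {x y : V} {c : F} (h1 : n • x = x) (h2 : n • y = y + c • x) (e : ℕ) :
    n ^ e • x = x ∧ n ^ e • y = y + ((e : F) * c) • x := by
  induction e with
  | zero => simp
  | succ e ih =>
    rw [pow_succ', mul_smul, mul_smul, ih.1, ih.2, smul_add, smul_comm, h1, h2]
    exact ⟨rfl, by push_cast; module⟩

section
variable {l W₀ : Submodule F V} {x y : V}

theorem tvA (hc : IsCompl l W₀) (sp : ∀ v ∈ l, ∃ a b : F, v = a • x + b • y) {m : Δ} {c : F}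
    (h0 : ∀ w ∈ W₀, m • w = w) (h1 : m • x = x) (h2 : m • y = y + c • x) (hc0 : c ≠ 0)
    (hx : x ≠ 0) : TV F V Δ := by
  refine ⟨m, x, h1, fun v => ?_, y, by simp [h2, hc0, hx]⟩
  obtain ⟨u, hu, w, hw, rfl⟩ := Submodule.mem_sup.1 (hc.sup_eq_top ▸ Submodule.mem_top (x := v))
  obtain ⟨a, b, rfl⟩ := sp u hu
  refine Submodule.mem_span_singleton.2 ⟨b * c, ?_⟩
  simp only [smul_add, smul_comm m, h0 w hw, h1, h2]
  module

/-- the unipotent radical of the stabiliser of `l` -/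
def EE (Δ : Type*) [Group Δ] [DistribMulAction Δ V] (l : Submodule F V) : Subgroup Δ where
  carrier := {g | (∀ v ∈ l, g • v = v) ∧ ∀ v, g • v - v ∈ l}
  one_mem' := ⟨fun _ _ => one_smul _ _, fun v => by simp⟩
  mul_mem' := fun {a b} ha hb => ⟨fun v hv => by rw [mul_smul, hb.1 v hv, ha.1 v hv], fun v => by
    have := l.add_mem (ha.2 (b • v)) (hb.2 v)
    rwa [sub_add_sub_cancel, ← mul_smul] at this⟩
  inv_mem' := fun {a} ha => ⟨fun v hv => by rw [inv_smul_eq_iff, ha.1 v hv], fun v => by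
    have := l.neg_mem (ha.2 (a⁻¹ • v))
    rwa [smul_inv_smul, neg_sub] at this⟩

theorem EE_mul {a b : Δ} (ha : a ∈ EE Δ l) (hb : b ∈ EE Δ l) (v : V) :
    (a * b) • v - v = (a • v - v) + (b • v - v) := by
  have := ha.1 _ (hb.2 v)
  rw [smul_sub] at this
  rw [mul_smul, ← this]
  abel

theorem EE_inv {a : Δ} (ha : a ∈ EE Δ l) (v : V) : a⁻¹ • v - v = -(a • v - v) := by
  have := EE_mul ((EE Δ l).inv_mem ha) ha v
  rw [inv_mul_cancel, one_smul, sub_self] at this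
  exact eq_neg_of_add_eq_zero_left this.symm

theorem EE_conj (hl : ∀ g : Δ, g ∈ SS Δ l) {a : Δ} (ha : a ∈ EE Δ l) (h : Δ) :
    h * a * h⁻¹ ∈ EE Δ l :=
  ⟨fun v hv => by rw [mul_smul, mul_smul, ha.1 _ (hl h⁻¹ v hv), smul_inv_smul], fun v => by
    have := hl h _ (ha.2 (h⁻¹ • v))
    rwa [smul_sub, smul_inv_smul, ← mul_smul, ← mul_smul] at this⟩

theorem EE_conj' (hc : IsCompl l W₀) (hl : ∀ g : Δ, g ∈ SS Δ l) {a : Δ} (ha : a ∈ EE Δ l) {h : Δ}
    {ε : F} (hε : ε * ε = 1) (hh : ∀ w ∈ W₀, h • w = ε • w) (v : V) :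
    (h * a * h⁻¹) • v - v = ε • h • (a • v - v) := by
  obtain ⟨u, hu, w, hw, rfl⟩ := Submodule.mem_sup.1 (hc.sup_eq_top ▸ Submodule.mem_top (x := v))
  have e : h⁻¹ • w = ε • w := by
    rw [inv_smul_eq_iff, smul_comm, hh w hw, smul_smul, hε, one_smul]
  rw [mul_smul, mul_smul, smul_add, e, smul_add, ha.1 _ (hl h⁻¹ u hu), smul_add, smul_inv_smul,
    smul_add, ha.1 u hu, add_sub_add_left_eq_sub, add_sub_add_left_eq_sub, smul_sub, smul_sub,
    hh w hw, smul_smul ε, hε, one_smul, smul_comm a, smul_comm h]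

theorem tvB (h3 : (3 : F) = 0) (hc : IsCompl l W₀) (hl : ∀ g : Δ, g ∈ SS Δ l)
    (xl : x ∈ l) (yl : y ∈ l) (sp : ∀ v ∈ l, ∃ a b : F, v = a • x + b • y)
    {I J k : Δ} {ε : F} (hε : ε = 1 ∨ ε = -1) (hI : ∀ w ∈ W₀, I • w = ε • w)
    (hJ : ∀ w ∈ W₀, J • w = ε • w) (Ix : I • x = y) (Iy : I • y = -x) (Jx : J • x = x + y)
    (Jy : J • y = x - y) {w₀ : V} (hw₀ : w₀ ∈ W₀) (hk : k • w₀ ∉ W₀) : TV F V Δ := by
  have hε' : ε * ε = 1 := by rcases hε with rfl | rfl <;> simp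
  have Zl : ∀ v ∈ l, (I * I) • v = -v := fun v hv => by
    obtain ⟨a, b, rfl⟩ := sp v hv
    simp only [mul_smul, smul_add, smul_comm I, Ix, Iy, smul_neg]
    module
  have Zw : ∀ w ∈ W₀, (I * I) • w = w := fun w hw => by
    rw [mul_smul, hI w hw, smul_comm, hI w hw, smul_smul, hε', one_smul]
  have Zv : ∀ v, (I * I) • v - v ∈ l := fun v => by
    obtain ⟨u, hu, w, hw, rfl⟩ := Submodule.mem_sup.1 (hc.sup_eq_top ▸ Submodule.mem_top (x := v))
    rw [smul_add, Zw w hw, add_sub_add_right_eq_sub]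
    exact l.sub_mem (hl _ u hu) hu
  generalize I * I = Z at Zl Zw Zv
  have gE : Z * (k * Z * k⁻¹) ∈ EE Δ l := ⟨fun v hv => by
      rw [mul_smul, mul_smul, mul_smul, Zl _ (hl k⁻¹ v hv), smul_neg, smul_inv_smul, smul_neg,
        Zl v hv, neg_neg], fun v => by
      have h1 := hl k _ (Zv (k⁻¹ • v))
      rw [smul_sub, smul_inv_smul, ← mul_smul, ← mul_smul] at h1
      have := l.add_mem (Zv ((k * Z * k⁻¹) • v)) h1
      rwa [sub_add_sub_cancel, ← mul_smul] at this⟩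
  have gn : (Z * (k * Z * k⁻¹)) • (k • w₀) ≠ k • w₀ := fun e => by
    rw [mul_smul, mul_smul, inv_smul_smul, mul_smul, Zw _ hw₀] at e
    obtain ⟨u, hu, w, hw, e'⟩ :=
      Submodule.mem_sup.1 (hc.sup_eq_top ▸ Submodule.mem_top (x := k • w₀))
    rw [← e', smul_add, Zw w hw, Zl u hu, add_left_inj] at e
    have : u = 0 := by
      have : u = (3 : F) • u + (-u - u) := by module
      rw [this, h3, zero_smul, zero_add, e, sub_self]
    rw [← e', this, zero_add] at hk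
    exact hk hw
  generalize Z * (k * Z * k⁻¹) = g at gE gn
  obtain ⟨T, TE, hT⟩ : ∃ T ∈ EE Δ l, ∀ v, T • v - v = I • (g • v - v) + J • (g • v - v) := by
    have m1 := EE_conj hl gE I
    have m2 := EE_conj hl gE J
    have := fun v => EE_mul m1 m2 v
    simp only [EE_conj' hc hl gE hε' hI, EE_conj' hc hl gE hε' hJ] at this
    rcases hε with rfl | rfl
    · exact ⟨_, (EE Δ l).mul_mem m1 m2, fun v => by rw [this, one_smul, one_smul]⟩
    · exact ⟨_, (EE Δ l).inv_mem ((EE Δ l).mul_mem m1 m2), fun v => by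
        rw [EE_inv ((EE Δ l).mul_mem m1 m2), this, neg_one_smul, neg_one_smul]; abel⟩
  have e1 : ∀ v (a b : F), g • v - v = a • x + b • y → (g * T) • v - v = (2 * a : F) • (x + y) :=
    fun v a b e => by
      rw [EE_mul gE TE, hT, e]
      simp only [smul_add, gsm, Ix, Iy, Jx, Jy]
      module
  have e2 : ∀ v (a b : F), g • v - v = a • x + b • y → (g * T⁻¹) • v - v = (2 * (b - a) : F) • y :=
    fun v a b e => by
      rw [EE_mul gE ((EE Δ l).inv_mem TE), EE_inv TE, hT, e]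
      simp only [smul_add, gsm, Ix, Iy, Jx, Jy]
      module
  by_cases n1 : ∃ v : V, (g * T) • v ≠ v
  · refine ⟨g * T, x + y, ((EE Δ l).mul_mem gE TE).1 _ (l.add_mem xl yl), fun v => ?_, n1⟩
    obtain ⟨a, b, e⟩ := sp _ (gE.2 v)
    exact Submodule.mem_span_singleton.2 ⟨_, (e1 v a b e).symm⟩
  refine ⟨g * T⁻¹, y, ((EE Δ l).mul_mem gE ((EE Δ l).inv_mem TE)).1 _ yl, fun v => ?_, k • w₀,
    fun n2 => gn ?_⟩
  · obtain ⟨a, b, e⟩ := sp _ (gE.2 v)
    exact Submodule.mem_span_singleton.2 ⟨_, (e2 v a b e).symm⟩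
  · push Not at n1
    have a1 := EE_mul gE TE (k • w₀)
    have a2 := EE_mul gE ((EE Δ l).inv_mem TE) (k • w₀)
    rw [n1, sub_self] at a1
    rw [n2, sub_self, EE_inv TE] at a2
    rw [← sub_eq_zero]
    generalize g • k • w₀ - k • w₀ = d at a1 a2
    generalize T • k • w₀ - k • w₀ = t at a1 a2
    have : d = (3 : F) • d - (d + t) - (d + -t) := by module
    rw [this, ← a1, ← a2, h3]
    simp

end

theorem core [FaithfulSMul Δ V] (hd : finrank F V = 5) {s : ℕ} (hs : s.Prime)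
    (H : ∀ a b : ℕ, b ≤ a → Fintype.card F ^ a ≡ Fintype.card F ^ b [MOD s] → 3 ∣ a - b)
    {r : Δ} (hr : orderOf r = s) (hl : ∀ g : Δ, g ∈ SS Δ (Fx F V r)) {x y : V} (hx : x ≠ 0)
    (xl : x ∈ Fx F V r) (yl : y ∈ Fx F V r)
    (sp : ∀ v ∈ Fx F V r, ∃ a b : F, v = a • x + b • y)
    (u1 : ∀ c : F, ∃ g : Δ, g • x = x ∧ g • y = y + c • x)
    (u2 : ∃ g : Δ, g • y = y ∧ g • x = x + y)
    (mv : ∀ W₀, IsCompl (Fx F V r) W₀ → ∃ k : Δ, ∃ w ∈ W₀, k • w ∉ W₀) : TV F V Δ := by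
  have dl := dim_fx hd hs H hr
  have rl : ∀ v ∈ Fx F V r, r • v = v := fun v => mem_Fx.1
  generalize Fx F V r = l at *
  let C : Subgroup Δ :=
    { carrier := {g | ∀ v ∈ l, g • v = v}
      one_mem' := fun _ _ => one_smul _ _
      mul_mem' := fun {a b} ha hb v hv => by rw [mul_smul, hb v hv, ha v hv]
      inv_mem' := fun {a} ha v hv => by rw [inv_smul_eq_iff, ha v hv] }
  have : C.Normal := ⟨fun a ha h v hv => by
    rw [mul_smul, mul_smul, ha _ (hl h⁻¹ v hv), smul_inv_smul]⟩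
  obtain ⟨z, zC, oz, N, zN, hN, fr⟩ := frat C hs (hr ▸ Subgroup.orderOf_dvd_natCard C rl)
  have el : l = Fx F V z := Submodule.eq_of_le_of_finrank_eq (fun v hv => mem_Fx.2 (zC v hv))
    (by rw [dl, dim_fx hd hs H oz])
  obtain ⟨W₀, mW, dW⟩ : ∃ W₀ : Submodule F V, (∀ w, w ∈ W₀ ↔ ∃ v, z • v - v = w) ∧
      finrank F W₀ = 3 := by
    refine ⟨LinearMap.range (lin F V z - LinearMap.id), fun w => by simp, ?_⟩
    have := LinearMap.finrank_range_add_finrank_ker (lin F V z - LinearMap.id)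
    have e : finrank F (LinearMap.ker (lin F V z - LinearMap.id)) = 2 := dim_fx hd hs H oz
    omega
  have cW : ∀ a : Δ, Commute a z → a ∈ SS Δ W₀ := fun a ha w hw => by
    obtain ⟨v, rfl⟩ := (mW w).1 hw
    exact (mW _).2 ⟨a • v, by rw [smul_sub, ← mul_smul, ← ha.eq, mul_smul]⟩
  have dj : ∀ S : Submodule F V, z ∈ SS Δ S → 3 ∣ finrank F S - finrank F (S ⊓ l : Submodule F V) :=
    fun S hS => el ▸ fx hs H oz S hS
  have hc : IsCompl l W₀ := by
    have h1 := dj W₀ (cW z (Commute.refl z))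
    have h2 := Submodule.finrank_mono (inf_le_right : W₀ ⊓ l ≤ l)
    have h3 : finrank F (W₀ ⊓ l : Submodule F V) = 0 := by omega
    rw [Submodule.finrank_eq_zero, inf_comm] at h3
    refine ⟨disjoint_iff.2 h3, codisjoint_iff.2 (Submodule.eq_top_of_finrank_eq ?_)⟩
    have := Submodule.finrank_sup_add_finrank_inf_eq l W₀
    rw [h3, finrank_bot] at this
    omega
  have NW : ∀ n ∈ N, n ∈ SS Δ W₀ := fun n hn w hw => by
    obtain ⟨v, rfl⟩ := (mW w).1 hw
    obtain ⟨u, hu, w, hw, e⟩ :=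
      Submodule.mem_sup.1 (hc.sup_eq_top ▸ Submodule.mem_top (x := n • v))
    have : n • (z • v - v) = (n * z * n⁻¹) • w - w := by
      rw [smul_sub, show n • z • v = (n * z * n⁻¹) • n • v by simp [mul_smul], ← e, smul_add,
        Subgroup.Normal.conj_mem this z zC n u hu, add_sub_add_left_eq_sub]
    rw [this]
    exact W₀.sub_mem (cW _ (hN n hn) w hw) hw
  let τ : Representation F N W₀ := (rep F V N).subrepresentation W₀ fun n => NW n n.2
  have τa : ∀ (n : N) (w : W₀), (τ n w : V) = (n : Δ) • (w : V) := fun _ _ => rfl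
  obtain ⟨σ, hσ⟩ := cubic dW τ ⟨z, zN⟩ (fun S hS => by
      have h1 := dj (S.map W₀.subtype) (by
        rintro _ ⟨u, hu, rfl⟩
        exact ⟨_, hS u hu, rfl⟩)
      have h2 : S.map W₀.subtype ⊓ l = ⊥ :=
        disjoint_iff.1 (hc.disjoint.symm.mono_left (Submodule.map_subtype_le _ _))
      rw [h2, finrank_bot, Submodule.finrank_map_subtype_eq] at h1
      have h3 := Submodule.finrank_le S
      by_cases h0 : finrank F S = 0
      · exact Or.inl (Submodule.finrank_eq_zero.1 h0)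
      · exact Or.inr (Submodule.eq_top_of_finrank_eq (by omega)))
    (fun n => Subtype.ext (hN n n.2))
  have triv : ∀ n : N, σ n = 1 → ∀ w ∈ W₀, (n : Δ) ^ (Fintype.card F ^ 3 - 1) • w = w :=
    fun n hn w hw => by
      have t := τa (n ^ (Fintype.card F ^ 3 - 1)) ⟨w, hw⟩
      rw [map_pow, (hσ n hn).1] at t
      exact t.symm
  have cast : ((Fintype.card F ^ 3 - 1 : ℕ) : F) = -1 := by
    rw [Nat.cast_sub (Nat.one_le_pow _ _ Fintype.card_pos)]
    simp
  have A : ∀ (n : N) (c : F), c ≠ 0 → σ n = 1 → (n : Δ) • x = x → (n : Δ) • y = y + c • x →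
      TV F V Δ := fun n c hc0 hn h1 h2 =>
    tvA hc sp (triv n hn) (pow_uni h1 h2 _).1 (pow_uni h1 h2 _).2 (by simpa [cast] using hc0) hx
  have lift : ∀ g : Δ, ∃ n : N, ∀ v ∈ l, (n : Δ) • v = g • v := fun g => by
    obtain ⟨n, hn, c, hc, rfl⟩ := fr g
    exact ⟨⟨n, hn⟩, fun v hv => by rw [mul_smul, hc v hv]⟩
  have u1' : ∀ c : F, ∃ n : N, (n : Δ) • x = x ∧ (n : Δ) • y = y + c • x := fun c => by
    obtain ⟨g, g1, g2⟩ := u1 c
    obtain ⟨n, hn⟩ := lift g
    exact ⟨n, by rw [hn x xl, g1], by rw [hn y yl, g2]⟩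
  choose n n1 n2 using u1'
  by_cases h3 : (3 : F) = 0
  swap
  · refine A (n 1 ^ 3) 3 h3 ?_ (pow_uni (n1 1) (n2 1) 3).1 (by simpa using (pow_uni (n1 1) (n2 1) 3).2)
    rw [map_pow]
    generalize σ (n 1) = a
    revert a
    decide
  by_cases hq : 3 < Fintype.card F
  · obtain ⟨c, c', hne, e⟩ := Fintype.exists_ne_map_eq_of_card_lt (fun c => σ (n c))
      (by simpa using hq)
    refine A ((n c)⁻¹ * n c') (c' - c) (sub_ne_zero.2 hne.symm) (by simp [e]) ?_ ?_
    · rw [Subgroup.coe_mul, mul_smul, n1, Subgroup.coe_inv, inv_smul_eq_iff, n1]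
    · rw [Subgroup.coe_mul, mul_smul, n2, Subgroup.coe_inv, inv_smul_eq_iff, smul_add, n2,
        smul_comm, n1]
      module
  have q3 : Fintype.card F = 3 := by
    have := Fintype.one_lt_card (α := F)
    by_contra hne
    have h2 := FiniteField.cast_card_eq_zero F
    rw [show Fintype.card F = 2 by omega] at h2
    exact one_ne_zero (by linear_combination h3 - (by simpa using h2 : (2 : F) = 0) : (1 : F) = 0)
  obtain ⟨g, g1, g2⟩ := u2
  obtain ⟨b, hb⟩ := lift g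
  rw [← hb y yl] at g1
  rw [← hb x xl] at g2
  have a1 := n1 1
  have a2 := n2 1
  rw [one_smul] at a2
  generalize n 1 = a at a1 a2
  have t3 : ∀ v : V, (3 : F) • v = 0 := fun v => by rw [h3, zero_smul]
  have a1' : (a : Δ)⁻¹ • x = x := by rw [inv_smul_eq_iff, a1]
  have a2' : (a : Δ)⁻¹ • y = y - x := by rw [inv_smul_eq_iff, smul_sub, a1, a2]; abel
  have g1' : (b : Δ)⁻¹ • y = y := by rw [inv_smul_eq_iff, g1]
  have g2' : (b : Δ)⁻¹ • x = x - y := by rw [inv_smul_eq_iff, smul_sub, g1, g2]; abel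
  have σi : σ (a * b * a⁻¹ * b⁻¹) = 1 := by
    simp only [map_mul, map_inv]
    rw [mul_right_comm (σ a)]
    simp
  have ix : ((a * b * a⁻¹ * b⁻¹ : N) : Δ) • x = y := by
    simp only [Subgroup.coe_mul, Subgroup.coe_inv, mul_smul, smul_sub, smul_add, a1, a2, a1', a2',
      g1, g2, g2']
    linear_combination (norm := module) t3 x
  have iy : ((a * b * a⁻¹ * b⁻¹ : N) : Δ) • y = -x := by
    simp only [Subgroup.coe_mul, Subgroup.coe_inv, mul_smul, smul_sub, smul_add, a1, a2, a2',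
      g1, g2, g1']
    abel
  generalize a * b * a⁻¹ * b⁻¹ = i at σi ix iy
  have i4x : (i : Δ) ^ 4 • x = x := by
    simp only [pow_succ, pow_zero, one_mul, mul_smul, ix, iy, smul_neg, neg_neg]
  have i4y : (i : Δ) ^ 4 • y = y := by
    simp only [pow_succ, pow_zero, one_mul, mul_smul, ix, iy, smul_neg, neg_neg]
  have e13 : (i : Δ) ^ 13 = i * i ^ 4 * i ^ 4 * i ^ 4 := by group
  have Ix : (i : Δ) ^ 13 • x = y := by rw [e13, mul_smul, mul_smul, mul_smul, i4x, i4x, i4x, ix]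
  have Iy : (i : Δ) ^ 13 • y = -x := by rw [e13, mul_smul, mul_smul, mul_smul, i4y, i4y, i4y, iy]
  obtain ⟨ε, hε, hI⟩ : ∃ ε : F, (ε = 1 ∨ ε = -1) ∧ ∀ w ∈ W₀, (i : Δ) ^ 13 • w = ε • w := by
    have h := hσ i σi
    rw [q3] at h
    have t := fun w hw => τa (i ^ 13) ⟨w, hw⟩
    rw [map_pow] at t
    rcases h.2 13 (by rw [← pow_mul]; exact h.1) with e | e
    · exact ⟨1, Or.inl rfl, fun w hw => by simpa [e] using (t w hw).symm⟩
    · exact ⟨-1, Or.inr rfl, fun w hw => by simpa [e] using (t w hw).symm⟩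
  obtain ⟨k, w₀, hw₀, hk⟩ := mv W₀ hc
  refine tvB h3 hc hl xl yl sp (J := (a : Δ) * (i : Δ) ^ 13 * (a : Δ)⁻¹) hε hI (fun w hw => ?_) Ix Iy ?_ ?_ hw₀ hk
  · rw [mul_smul, mul_smul, hI _ (NW _ (N.inv_mem a.2) w hw), smul_comm, smul_inv_smul]
  · rw [mul_smul, mul_smul, a1', Ix, a2, add_comm]
  · rw [mul_smul, mul_smul, a2', smul_sub, Ix, Iy, smul_sub, smul_neg, a1, a2]
    linear_combination (norm := module) -t3 x

end Cfsg.Agent.H5.CK
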