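import Cfsg.Agent.H5.CK

/-! Cameron-Kantor, general dimension: plane symmetry and counting tools. -/

set_option autoImplicit false
set_option linter.unusedSectionVars false

namespace Cfsg.Agent.H5.CK

open Module

section count
variable {α β : Type*}

theorem dc_sum [Fintype α] [Fintype β] (R : α → β → Prop) :
    ∑ u, {v | R u v}.ncard = ∑ v, {u | R u v}.ncard := by
  classical
  have e : ∀ u, {v | R u v}.ncard = ∑ v, if R u v then 1 else 0 :=
    fun u => by rw [Set.ncard_eq_toFinset_card', Set.toFinset_ofPred, Finset.card_filter]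
  have e' : ∀ v, {u | R u v}.ncard = ∑ u, if R u v then 1 else 0 :=
    fun v => by rw [Set.ncard_eq_toFinset_card', Set.toFinset_ofPred, Finset.card_filter]
  simp only [e, e']
  exact Finset.sum_comm

theorem sum_ge [Fintype α] (A : Set α) (f : α → ℕ) (a : ℕ) (h : ∀ u ∈ A, a ≤ f u) :
    A.ncard * a ≤ ∑ u, f u := by
  classical
  rw [Set.ncard_eq_toFinset_card', ← smul_eq_mul, ← Finset.sum_const]
  exact (Finset.sum_le_sum fun u hu => h u (by simpa using hu)).trans
    (Finset.sum_le_sum_of_subset (Finset.subset_univ _))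

theorem sum_le [Fintype α] (A : Set α) (f : α → ℕ) (c : ℕ) (h : ∀ u ∈ A, f u ≤ c)
    (h0 : ∀ u ∉ A, f u = 0) : ∑ u, f u ≤ A.ncard * c := by
  classical
  rw [Set.ncard_eq_toFinset_card', ← smul_eq_mul, ← Finset.sum_const,
    ← Finset.sum_subset (Finset.subset_univ A.toFinset) fun u _ hu => h0 u (by simpa using hu)]
  exact Finset.sum_le_sum fun u hu => h u (by simpa using hu)

/-- double counting -/
theorem dc_le [Finite α] [Finite β] (A : Set α) (C : Set β) (R : α → β → Prop) (a c : ℕ)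
    (h1 : ∀ u ∈ A, a ≤ {v | v ∈ C ∧ R u v}.ncard)
    (h2 : ∀ v ∈ C, {u | u ∈ A ∧ R u v}.ncard ≤ c) : A.ncard * a ≤ C.ncard * c := by
  have := Fintype.ofFinite α
  have := Fintype.ofFinite β
  refine (sum_ge A (fun u => {v | u ∈ A ∧ v ∈ C ∧ R u v}.ncard) a fun u hu => ?_).trans ?_
  · simpa [hu] using h1 u hu
  rw [dc_sum]
  refine sum_le C _ c (fun v hv => ?_) fun v hv => ?_
  · simpa [hv] using h2 v hv
  · simp [hv]

theorem dc_eq [Finite α] [Finite β] (A : Set α) (C : Set β) (R : α → β → Prop) (a c : ℕ)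
    (h1 : ∀ u ∈ A, {v | v ∈ C ∧ R u v}.ncard = a)
    (h2 : ∀ v ∈ C, {u | u ∈ A ∧ R u v}.ncard = c) : A.ncard * a = C.ncard * c :=
  le_antisymm (dc_le A C R a c (fun u hu => (h1 u hu).ge) fun v hv => (h2 v hv).le)
    (dc_le C A (fun v u => R u v) c a (fun v hv => (h2 v hv).ge) fun u hu => (h1 u hu).le)

theorem ncard_le_smul {Γ : Type*} [Group Γ] [MulAction Γ α] [Finite α] (g : Γ) {S T : Set α}
    (h : ∀ v ∈ S, g • v ∈ T) : S.ncard ≤ T.ncard :=
  Set.ncard_le_ncard_of_injOn (g • ·) h (fun _ _ _ _ e => MulAction.injective g e)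

/-- an invariant relation between two orbits is biregular -/
theorem bireg {Γ : Type*} [Group Γ] [MulAction Γ α] [MulAction Γ β] [Finite α] [Finite β]
    (Y : Subgroup Γ) (A : Set α) (C : Set β) (R : α → β → Prop)
    (tA : ∀ u ∈ A, ∀ u' ∈ A, ∃ g ∈ Y, g • u = u') (tC : ∀ v ∈ C, ∀ v' ∈ C, ∃ g ∈ Y, g • v = v')
    (iA : ∀ g ∈ Y, ∀ u ∈ A, g • u ∈ A) (iC : ∀ g ∈ Y, ∀ v ∈ C, g • v ∈ C)
    (iR : ∀ g ∈ Y, ∀ u ∈ A, ∀ v ∈ C, R u v → R (g • u) (g • v)) {u₀ : α} (hu : u₀ ∈ A) {v₀ : β}
    (hv : v₀ ∈ C) :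
    A.ncard * {v | v ∈ C ∧ R u₀ v}.ncard = C.ncard * {u | u ∈ A ∧ R u v₀}.ncard := by
  have l1 : ∀ u ∈ A, ∀ u' ∈ A, {v | v ∈ C ∧ R u v}.ncard ≤ {v | v ∈ C ∧ R u' v}.ncard :=
    fun u h u' h' => by
      obtain ⟨g, hg, rfl⟩ := tA u h u' h'
      exact ncard_le_smul g fun v hv => ⟨iC g hg v hv.1, iR g hg u h v hv.1 hv.2⟩
  have l2 : ∀ v ∈ C, ∀ v' ∈ C, {u | u ∈ A ∧ R u v}.ncard ≤ {u | u ∈ A ∧ R u v'}.ncard :=
    fun v h v' h' => by
      obtain ⟨g, hg, rfl⟩ := tC v h v' h'
      exact ncard_le_smul g fun u hu => ⟨iA g hg u hu.1, iR g hg u hu.1 v h hu.2⟩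
  exact dc_eq A C R _ _ (fun u h => le_antisymm (l1 u h _ hu) (l1 _ hu u h))
    fun v h => le_antisymm (l2 v h _ hv) (l2 _ hv v h)

end count

variable {F V W Γ : Type*} [Field F] [Fintype F] [AddCommGroup V] [Module F V] [Finite V]
  [AddCommGroup W] [Module F W] [Finite W] [Group Γ] [Finite Γ]
  [DistribMulAction Γ V] [SMulCommClass Γ F V] [DistribMulAction Γ W] [SMulCommClass Γ F W]
  {B : V →ₗ[F] W →ₗ[F] F}

theorem dvd_sum [Fintype V] (U : Submodule F V) (f : V → ℕ)
    (hf : ∀ v, ∀ u ∈ U, f (v + u) = f v) : Fintype.card F ^ finrank F U ∣ ∑ v, f v := by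
  classical
  obtain ⟨C, hC⟩ := U.exists_isCompl
  rw [← (Submodule.prodEquivOfIsCompl U C hC).toEquiv.sum_comp, Fintype.sum_prod_type,
    Finset.sum_congr rfl (g := fun _ => ∑ c : C, f c) fun u _ =>
      Finset.sum_congr rfl fun c _ => by
        rw [LinearEquiv.coe_toEquiv, Submodule.coe_prodEquivOfIsCompl', add_comm, hf _ _ u.2],
    Finset.sum_const, Finset.card_univ, ← Nat.card_eq_fintype_card (α := U), card_sub]
  exact Dvd.intro _ rfl

theorem dvd_ncard (U : Submodule F V) (A : Set V) (hA : ∀ v ∈ A, ∀ u ∈ U, v + u ∈ A) :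
    Fintype.card F ^ finrank F U ∣ A.ncard := by
  classical
  have := Fintype.ofFinite V
  have := dvd_sum U (fun v => if v ∈ A then 1 else 0) fun v u hu => by
    have : v + u ∈ A ↔ v ∈ A := ⟨fun h => by simpa using hA _ h _ (U.neg_mem hu), fun h => hA v h u hu⟩
    simp only [this]
  rwa [← Finset.card_filter, ← Set.toFinset_ofPred, ← Set.ncard_eq_toFinset_card'] at this

theorem ncard_sub (U : Submodule F V) : (U : Set V).ncard = Fintype.card F ^ finrank F U := by
  rw [← Nat.card_coe_set_eq, SetLike.coe_sort_coe, card_sub]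

theorem ncard_diff {U U' : Submodule F V} (h : U' ≤ U) :
    {v | v ∈ U ∧ v ∉ U'}.ncard + Fintype.card F ^ finrank F U' = Fintype.card F ^ finrank F U := by
  rw [← ncard_sub, ← ncard_sub]
  exact Set.ncard_sdiff_add_ncard_of_subset (s := (U' : Set V)) (t := (U : Set V)) h

theorem ncard_ne (U : Submodule F V) :
    {v | v ∈ U ∧ v ≠ 0}.ncard + 1 = Fintype.card F ^ finrank F U := by
  simpa using ncard_diff (bot_le : ⊥ ≤ U)

/-- transitivity on an affine space with two fixed functionals -/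
theorem Hyp.aff2 (h : Hyp Γ B) {φ ψ : W} (hφ : φ ≠ 0) {v v' : V}
    (v1 : B v φ = 0) (v2 : B v ψ = 1) (v1' : B v' φ = 0) (v2' : B v' ψ = 1) :
    ∃ g : Γ, g • φ = φ ∧ g • ψ = ψ ∧ g • v = v' := by
  obtain ⟨p, hc⟩ := CharP.exists F
  have := Fact.mk (CharP.char_is_prime F p)
  have hv₀ : v ≠ 0 := by rintro rfl; simp at v2
  obtain ⟨P, hPZ, hP, tr⟩ := syl p (SS Γ (F ∙ φ) ⊓ MulAction.stabilizer Γ ψ)
    (LinearMap.ker (B.flip φ) ⊓ LinearMap.ker (B.flip ψ)) v
    (fun g hg => by
      refine ⟨Submodule.sub_mem _ (h.toPre.ker_SS hg.1 v v1) v1, ?_⟩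
      have hg : g • ψ = ψ := hg.2
      show B _ ψ = 0
      rw [map_sub, LinearMap.sub_apply, sub_eq_zero]
      conv_lhs => rw [← hg]
      exact h.inv _ _ _)
    (fun u hu => by
      have u1 : B u φ = 0 := hu.1
      have u2 : B u ψ = 0 := hu.2
      have w2 : B (v + u) ψ = 1 := by simp [v2, u2]
      have w0 : v + u ≠ 0 := fun e => by rw [e] at w2; simp at w2
      obtain ⟨g, hg, e⟩ := h.flag' hφ hv₀ w0 v1 (by simp [v1, u1])
      obtain ⟨k, ⟨k1, k2⟩, e'⟩ := h.flip.f1 (x := φ) (φ := v + u) (v := g • ψ) (v' := ψ) hφ w0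
        (by simp [v1, u1]) (by rw [LinearMap.flip_apply, ← e, h.inv, v2]; simp)
        (by rw [LinearMap.flip_apply, w2]; simp)
      obtain ⟨c, hc⟩ := mem_SS_span.1 k2
      have := h.inv (k * g) v ψ
      rw [mul_smul, mul_smul, e, e', hc, B.map_smul, LinearMap.smul_apply, w2, v2, smul_eq_mul,
        mul_one] at this
      exact ⟨k * g, ⟨Subgroup.mul_mem _ k1 hg, show (k * g) • ψ = ψ by rw [mul_smul, e']⟩,
        by rw [mul_smul, e, hc, this, one_smul]⟩)
  obtain ⟨g, hg, e⟩ := tr v v' (by simp) ⟨show B _ φ = 0 by simp [v1, v1'],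
    show B _ ψ = 0 by simp [v2, v2']⟩
  obtain ⟨χ, c1, c2, c3⟩ := fix p hP ⊥ (F ∙ φ) (le_SS_bot P) (fun g hg => (hPZ hg).1)
    (by simpa using hφ)
  obtain ⟨a, rfl⟩ := Submodule.mem_span_singleton.1 c1
  have ha : a ≠ 0 := by rintro rfl; simp at c2
  have := c3 g hg
  rw [Submodule.mem_bot, sub_eq_zero, gsm] at this
  exact ⟨g, smul_right_injective W ha this, (hPZ hg).2, e⟩

/-- plane symmetry: all transvections of a plane are induced -/
theorem Hyp.ps (h : Hyp Γ B) {x y z : V} (hz : z ∉ Submodule.span F {x, y}) {u : V}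
    (hu : u ∈ Submodule.span F {x, y}) : ∃ g : Γ, g • x = x ∧ g • y = y ∧ g • z = z + u := by
  obtain ⟨χ, c1, c2⟩ := h.toPre.exists_sep hz
  have cx := c2 x (Submodule.subset_span (by simp))
  have cy := c2 y (Submodule.subset_span (by simp))
  obtain ⟨g, hg, e⟩ := h.toPre.dual' (MulAction.stabilizer Γ x ⊓ MulAction.stabilizer Γ y) u χ
    (fun w => by
      by_cases ht : B u w = 0
      · exact ⟨1, Subgroup.one_mem _, by simp [ht]⟩
      obtain ⟨c, d, rfl⟩ := Submodule.mem_span_pair.1 hu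
      by_cases hk : B y w • x - B x w • y = 0
      · obtain ⟨g, g1, g2⟩ := h.flip.anti' (v := w) (v' := w + B (c • x + d • y) w • χ)
          (φ := c • x + d • y) ht (by simpa [cx, cy] using ht)
        obtain ⟨a, ha⟩ := mem_SS_span.1 g1
        have h1 := h.inv g (c • x + d • y) w
        rw [ha, g2] at h1
        have a1 : a = 1 := by
          refine mul_right_cancel₀ ht ?_
          simpa [cx, cy, mul_add] using h1
        rw [a1, one_smul] at ha
        have ex : x = (B x w / B (c • x + d • y) w) • (c • x + d • y) := by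
          refine smul_right_injective V ht ?_
          simp only [smul_smul, mul_div_cancel₀ _ ht]
          simp only [map_add, map_smul, LinearMap.add_apply, LinearMap.smul_apply, smul_eq_mul]
          linear_combination (norm := module) d • hk
        have ey : y = (B y w / B (c • x + d • y) w) • (c • x + d • y) := by
          refine smul_right_injective V ht ?_
          simp only [smul_smul, mul_div_cancel₀ _ ht]
          simp only [map_add, map_smul, LinearMap.add_apply, LinearMap.smul_apply, smul_eq_mul]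
          linear_combination (norm := module) (-c) • hk
        refine ⟨g, ⟨?_, ?_⟩, g2⟩
        · show g • x = x
          rw [ex, gsm, ha]
        · show g • y = y
          rw [ey, gsm, ha]
      obtain ⟨g, g1, g2, g3⟩ := h.flip.aff2 (ψ := (B (c • x + d • y) w)⁻¹ • (c • x + d • y)) hk
        (v := w) (v' := w + B (c • x + d • y) w • χ) (by simp [mul_comm])
        (by rw [LinearMap.flip_apply, B.map_smul, LinearMap.smul_apply, smul_eq_mul,
          inv_mul_cancel₀ ht]) (by simp [cx, cy, mul_comm])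
        (by rw [LinearMap.flip_apply, B.map_smul, LinearMap.smul_apply, smul_eq_mul, map_add _ w,
          map_smul _ _ χ, c2 _ hu, smul_zero, add_zero, inv_mul_cancel₀ ht])
      rw [gsm] at g2
      have g2 := smul_right_injective V (inv_ne_zero ht) g2
      refine ⟨g, ⟨?_, ?_⟩, g3⟩
      · refine smul_right_injective V ht ?_
        have : B (c • x + d • y) w • x = d • (B y w • x - B x w • y) + B x w • (c • x + d • y) := by
          simp only [map_add, map_smul, LinearMap.add_apply, LinearMap.smul_apply, smul_eq_mul]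
          module
        show B _ w • g • x = B _ w • x
        rw [← gsm, this, smul_add, gsm, gsm, g1, g2]
      · refine smul_right_injective V ht ?_
        have : B (c • x + d • y) w • y =
            (-c) • (B y w • x - B x w • y) + B y w • (c • x + d • y) := by
          simp only [map_add, map_smul, LinearMap.add_apply, LinearMap.smul_apply, smul_eq_mul]
          module
        show B _ w • g • y = B _ w • y
        rw [← gsm, this, smul_add, gsm, gsm, g1, g2]) z
  exact ⟨g, hg.1, hg.2, by rw [e, c1, one_smul]⟩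

theorem not_mem_pair {x y z : V} (hy : y ∉ F ∙ x) (hz : z ∉ Submodule.span F {x, y}) :
    y ∉ Submodule.span F {x, z} := fun h => by
  obtain ⟨a, b, e⟩ := Submodule.mem_span_pair.1 h
  by_cases hb : b = 0
  · exact hy (Submodule.mem_span_singleton.2 ⟨a, by simpa [hb] using e⟩)
  · exact hz (Submodule.mem_span_pair.2 ⟨-(b⁻¹ * a), b⁻¹, by
      rw [← e, smul_add, smul_smul, smul_smul, inv_mul_cancel₀ hb]; module⟩)

/-- swapping two points of a triangle -/
theorem Hyp.swap3 (h : Hyp Γ B) {x y z : V} (hx : x ≠ 0) (hy : y ∉ F ∙ x)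
    (hz : z ∉ Submodule.span F {x, y}) : ∃ g : Γ, g • x = y ∧ g • y = -x ∧ g • z = z := by
  obtain ⟨a, a1, a2, a3⟩ := h.ps (not_mem_pair hy hz) (u := -x)
    (Submodule.neg_mem _ (Submodule.subset_span (by simp)))
  obtain ⟨b, b1, b2, b3⟩ := h.ps (not_mem_pair (not_mem_span_symm hx hy)
    (Set.pair_comm x y ▸ hz)) (u := y) (Submodule.subset_span (by simp))
  exact ⟨a * b * a, by simp [mul_smul, a1, a3, b3], by simp [mul_smul, a1, a3, b1, b3],
    by simp [mul_smul, a2, b2]⟩

end Cfsg.Agent.H5.CK
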