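import Cfsg.Agent.H5.CKa

/-! Cameron-Kantor, general dimension: the invariant subspaces M, N, E, T. -/

set_option autoImplicit false
set_option linter.unusedSectionVars false

namespace Cfsg.Agent.H5.CK

open Module

variable {F V W Γ : Type*} [Field F] [Fintype F] [AddCommGroup V] [Module F V] [Finite V]
  [AddCommGroup W] [Module F W] [Finite W] [Group Γ] [Finite Γ]
  [DistribMulAction Γ V] [SMulCommClass Γ F V] [DistribMulAction Γ W] [SMulCommClass Γ F W]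
  {B : V →ₗ[F] W →ₗ[F] F}

/-- the hyperplane of a functional -/
def Hy (B : V →ₗ[F] W →ₗ[F] F) (φ : W) : Submodule F V := LinearMap.ker (B.flip φ)

theorem mem_Hy {φ : W} {v : V} : v ∈ Hy B φ ↔ B v φ = 0 := Iff.rfl

/-- point-hyperplane flags -/
structure Fl (B : V →ₗ[F] W →ₗ[F] F) (x : V) (φ : W) : Prop where
  x0 : x ≠ 0
  f0 : φ ≠ 0
  inc : B x φ = 0

theorem Fl.flip {x : V} {φ : W} (f : Fl B x φ) : Fl B.flip φ x := ⟨f.f0, f.x0, f.inc⟩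

/-- flag stabiliser -/
abbrev GG (F Γ : Type*) [Field F] [Module F V] [Module F W] [Group Γ] [Finite Γ]
    [DistribMulAction Γ V] [DistribMulAction Γ W] (x : V) (φ : W) : Subgroup Γ :=
  SS Γ (F ∙ x) ⊓ SS Γ (F ∙ φ)

/-- flag stabilisers are transitive on the rest of the hyperplane -/
def Tr (Γ : Type*) [Group Γ] [Finite Γ] [DistribMulAction Γ V] [DistribMulAction Γ W]
    (B : V →ₗ[F] W →ₗ[F] F) : Prop :=
  ∀ x φ, Fl B x φ → ∀ v v', B v φ = 0 → v ∉ F ∙ x → B v' φ = 0 → v' ∉ F ∙ x →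
    ∃ g ∈ GG F Γ x φ, g • v = v'

/-- sum of the proper invariant subspaces -/
def Mx (Y : Subgroup Γ) (K : Submodule F V) : Submodule F V := sSup {U | U < K ∧ Y ≤ SS Γ U}

theorem le_Mx {Y : Subgroup Γ} {K U : Submodule F V} (h1 : U < K) (h2 : Y ≤ SS Γ U) :
    U ≤ Mx Y K := le_sSup ⟨h1, h2⟩

theorem Mx_smul {Y Y' : Subgroup Γ} {K K' : Submodule F V} (g : Γ)
    (hY : ∀ k ∈ Y', g⁻¹ * k * g ∈ Y) (hK : ∀ v, g • v ∈ K' ↔ v ∈ K) {v : V} (hv : v ∈ Mx Y K) :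
    g • v ∈ Mx Y' K' := by
  have : Mx Y K ≤ (Mx Y' K').comap (lin F V g) := sSup_le fun U hU u hu => by
    refine le_Mx (U := U.comap (lin F V g⁻¹)) (lt_of_le_of_ne (fun w hw => ?_) fun e => ?_)
      (fun k hk w hw => ?_) (show g⁻¹ • g • u ∈ U by rwa [inv_smul_smul])
    · have := (hK _).2 (hU.1.le hw)
      rwa [lin_apply, smul_inv_smul] at this
    · refine hU.1.not_ge fun w hw => ?_
      have : g⁻¹ • g • w ∈ U := (e ▸ (hK w).2 hw : g • w ∈ U.comap (lin F V g⁻¹))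
      rwa [inv_smul_smul] at this
    · have := hU.2 (hY k hk) _ hw
      rwa [lin_apply, mul_smul, smul_inv_smul, mul_smul] at this
  exact this hv

theorem Mx_spec {Y : Subgroup Γ} {K : Submodule F V} (hK : Y ≤ SS Γ K) (f : V →ₗ[F] F)
    (hf : ∃ v ∈ K, f v ≠ 0)
    (tr : ∀ v ∈ K, ∀ v' ∈ K, f v ≠ 0 → f v' ≠ 0 → ∃ g ∈ Y, g • v = v') :
    Mx Y K < K ∧ ∀ v ∈ K, ∀ v' ∈ K, v ∉ Mx Y K → v' ∉ Mx Y K → ∃ g ∈ Y, g • v = v' := by
  obtain ⟨M, mM⟩ : ∃ M : Submodule F V, ∀ y, y ∈ M ↔ y ∈ K ∧ ∀ g ∈ Y, f (g • y) = 0 :=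
    ⟨K ⊓ ⨅ g ∈ Y, LinearMap.ker (f ∘ₗ lin F V g), fun y => by simp [Submodule.mem_iInf]⟩
  obtain ⟨v₀, a0, b0⟩ := hf
  have n0 : v₀ ∉ M := fun e => b0 (by simpa using ((mM _).1 e).2 1 Y.one_mem)
  have lt : M < K := lt_of_le_of_ne (fun y hy => ((mM y).1 hy).1) fun e => n0 (e ▸ a0)
  have T : ∀ v ∈ K, ∀ v' ∈ K, v ∉ M → v' ∉ M → ∃ g ∈ Y, g • v = v' := fun v a v' a' b b' => by
    rw [mM] at b b'
    push Not at b b'
    obtain ⟨g, hg, c⟩ := b a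
    obtain ⟨g', hg', c'⟩ := b' a'
    obtain ⟨k, hk, e⟩ := tr _ (hK hg v a) _ (hK hg' v' a') c c'
    exact ⟨g'⁻¹ * (k * g), Y.mul_mem (Y.inv_mem hg') (Y.mul_mem hk hg),
      by rw [mul_smul, mul_smul, e, inv_smul_smul]⟩
  have e : Mx Y K = M := by
    refine le_antisymm (sSup_le fun U hU u hu => ?_) (le_Mx lt fun g hg y hy => (mM _).2
      ⟨hK hg y ((mM y).1 hy).1, fun k hk => by
        rw [← mul_smul]; exact ((mM y).1 hy).2 _ (Y.mul_mem hk hg)⟩)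
    by_contra hc
    obtain ⟨w, w1, w2, w3⟩ := H7.exists_not_not K.toAddSubgroup U.toAddSubgroup M.toAddSubgroup
      (SetLike.exists_of_lt hU.1) ⟨v₀, a0, n0⟩
    obtain ⟨g, hg, rfl⟩ := T u (hU.1.le hu) w w1 hc w3
    exact w2 (hU.2 hg u hu)
  rw [e]
  exact ⟨lt, T⟩

theorem exists_perp_one {M : Submodule F W} {v : V} (hv : v ∉ perp B M) :
    ∃ χ ∈ M, B v χ = 1 := by
  rw [mem_perp] at hv
  push Not at hv
  obtain ⟨χ, a, b⟩ := hv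
  exact ⟨(B v χ)⁻¹ • χ, M.smul_mem _ a, by simp [b]⟩

theorem Pre.four_cone (h : Pre Γ B) {Y : Subgroup Γ} {K M : Submodule F W} (hM : M ≤ K)
    (t1 : ∀ w ∈ K, ∀ w' ∈ K, w ∉ M → w' ∉ M → ∃ g ∈ Y, g • w = w')
    (t2 : ∀ w ∉ K, ∀ w' ∉ K, ∃ g ∈ Y, g • w = w') {v u : V} (hv : v ∉ perp B M)
    (hu : u ∈ perp B M) : ∃ g ∈ Y, g • v = v + u := by
  obtain ⟨χ, c1, c2⟩ := exists_perp_one hv
  have := h.dual' Y u χ (fun w => ?_) v
  · rwa [c2, one_smul] at this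
  by_cases hw : w ∈ M
  · exact ⟨1, Y.one_mem, by simp [mem_perp.1 hu w hw]⟩
  by_cases hk : w ∈ K
  · exact t1 w hk _ (K.add_mem hk (K.smul_mem _ (hM c1))) hw
      fun e => hw ((M.add_mem_iff_left (M.smul_mem _ c1)).1 e)
  · exact t2 w hk _ fun e => hk ((K.add_mem_iff_left (K.smul_mem _ (hM c1))).1 e)

theorem Pre.four_tr (h : Pre Γ B) {Y : Subgroup Γ} {K M : Submodule F W}
    (t1 : ∀ w ∈ K, ∀ w' ∈ K, w ∉ M → w' ∉ M → ∃ g ∈ Y, g • w = w')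
    (t2 : ∀ w ∉ K, ∀ w' ∉ K, ∃ g ∈ Y, g • w = w') {v v' : V} (hv : v ∈ perp B M)
    (hv' : v' ∈ perp B M) (n : v ∉ perp B K) (n' : v' ∉ perp B K) : ∃ g ∈ Y, g • v = v' := by
  obtain ⟨χ, c0, c1, c2⟩ := exists_two B.flip K (ψ := v) (ψ' := v')
    (by obtain ⟨χ, a, b⟩ := exists_perp_one n; exact ⟨χ, a, by simp [b]⟩)
    (by obtain ⟨χ, a, b⟩ := exists_perp_one n'; exact ⟨χ, a, by simp [b]⟩)
  rw [LinearMap.flip_apply] at c1 c2
  have hu := (perp B M).sub_mem hv' hv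
  have := h.dual' Y (v' - v) χ (fun w => ?_) v
  · simpa [c1] using this
  by_cases hw : w ∈ M
  · exact ⟨1, Y.one_mem, by rw [mem_perp.1 hu w hw]; simp⟩
  by_cases hk : w ∈ K
  · refine t1 w hk _ (K.add_mem hk (K.smul_mem _ c0)) hw fun e => hw ?_
    have h1 := mem_perp.1 hu _ e
    rw [map_add, map_smul, smul_eq_mul] at h1
    have h2 : B (v' - v) w * B v' χ = 0 := by
      rw [← h1, show B (v' - v) χ = B v' χ - 1 by simp [c1]]; ring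
    rwa [(mul_eq_zero.1 h2).resolve_right c2, zero_smul, add_zero] at e
  · exact t2 w hk _ fun e => hk ((K.add_mem_iff_left (K.smul_mem _ c0)).1 e)

theorem Pre.perp_perp (h : Pre Γ B) (U : Submodule F V) : perp B (perp B.flip U) = U := by
  refine le_antisymm (fun v hv => ?_) fun v hv => mem_perp.2 fun w hw => mem_perp.1 hw v hv
  by_contra hc
  obtain ⟨w, a, b⟩ := h.exists_sep hc
  have := mem_perp.1 hv w (mem_perp.2 b)
  rw [a] at this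
  exact one_ne_zero this

theorem Pre.perp_Hy (h : Pre Γ B) (x : V) : perp B (Hy B.flip x) = F ∙ x := by
  rw [← h.perp_perp (F ∙ x)]
  congr 1
  ext w
  rw [mem_perp, mem_Hy]
  refine ⟨fun e v hv => ?_, fun e => e x (Submodule.mem_span_singleton_self x)⟩
  obtain ⟨a, rfl⟩ := Submodule.mem_span_singleton.1 hv
  rw [map_smul, e, smul_zero]

theorem Pre.finrank_Hy (h : Pre Γ B) {φ : W} (hφ : φ ≠ 0) :
    finrank F (Hy B φ) + 1 = finrank F V := h.finrank_ker hφ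

theorem Pre.Hy_smul (h : Pre Γ B) {g : Γ} {φ φ' : W} (hφ : φ ≠ 0) (e : g • φ ∈ F ∙ φ') {v : V} :
    B (g • v) φ' = 0 ↔ B v φ = 0 := by
  obtain ⟨a, ha⟩ := Submodule.mem_span_singleton.1 e
  rw [← h.inv g v φ, ← ha, (B _).map_smul, smul_eq_zero,
    or_iff_right (ne_of_smul_eq hφ ha.symm)]

theorem span_smul_iff {g : Γ} {x x' : V} (hx : x ≠ 0) (e : g • x ∈ F ∙ x') {v : V} :
    g • v ∈ F ∙ x' ↔ v ∈ F ∙ x :=
  ⟨fun h => by simpa using smul_mem_span_trans h (smul_mem_span_inv hx e), fun h => by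
    obtain ⟨a, rfl⟩ := Submodule.mem_span_singleton.1 h
    rw [gsm]; exact Submodule.smul_mem _ _ e⟩

theorem conj_SS {g k : Γ} {x x' : V} (hx : x ≠ 0) (e : g • x ∈ F ∙ x') (hk : k ∈ SS Γ (F ∙ x')) :
    g⁻¹ * k * g ∈ SS Γ (F ∙ x) := mem_SS_span_iff.2 (by
  rw [← span_smul_iff hx e, mul_smul, mul_smul, smul_inv_smul]
  exact hk _ e)

theorem finrank_le_smul (g : Γ) {U U' : Submodule F V} (h : ∀ v ∈ U, g • v ∈ U') :
    finrank F U ≤ finrank F U' :=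
  (Submodule.finrank_mono (show U ≤ U'.comap (lin F V g) from h)).trans
    (finrank_comap_lin g U').le

theorem Fl.smul (h : Pre Γ B) {x : V} {φ : W} (f : Fl B x φ) (g : Γ) : Fl B (g • x) (g • φ) :=
  ⟨smul_ne f.x0, smul_ne f.f0, by rw [h.inv, f.inc]⟩

theorem Hyp.ftr (h : Hyp Γ B) {x x' : V} {φ φ' : W} (f : Fl B x φ) (f' : Fl B x' φ') :
    ∃ g : Γ, g • x ∈ F ∙ x' ∧ g • φ ∈ F ∙ φ' := by
  obtain ⟨g, hg⟩ := h.one f.x0 f'.x0
  obtain ⟨k, k1, k2⟩ := h.flag (ψ := g • φ) f'.x0 (smul_ne f.f0) f'.f0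
    (by rw [← hg, h.inv, f.inc]) f'.inc
  refine ⟨k * g, ?_, ?_⟩
  · rw [mul_smul, hg]; exact mem_SS_span_iff.1 k1
  · rw [mul_smul, k2]; exact Submodule.mem_span_singleton_self φ'

/-- the largest proper invariant subspace of the hyperplane -/
def MM (Γ : Type*) [Group Γ] [Finite Γ] [DistribMulAction Γ V] [DistribMulAction Γ W]
    (B : V →ₗ[F] W →ₗ[F] F) (x : V) (φ : W) : Submodule F V := Mx (GG F Γ x φ) (Hy B φ)

/-- the smallest invariant subspace above the point -/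
def NN (Γ : Type*) [Group Γ] [Finite Γ] [DistribMulAction Γ V] [DistribMulAction Γ W]
    (B : V →ₗ[F] W →ₗ[F] F) (x : V) (φ : W) : Submodule F V := perp B (MM Γ B.flip φ x)

theorem NN_flip (φ : W) (x : V) : NN Γ B.flip φ x = perp B.flip (MM Γ B x φ) := by
  rw [NN, LinearMap.flip_flip]

theorem mem_NN_flip {φ ψ : W} {x : V} : ψ ∈ NN Γ B.flip φ x ↔ ∀ v ∈ MM Γ B x φ, B v ψ = 0 := by
  rw [NN_flip]; exact mem_perp

section
variable {x x' y v v' u : V} {φ φ' : W} {g : Γ}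

theorem Pre.MM_smul (h : Pre Γ B) (f : Fl B x φ) (e1 : g • x ∈ F ∙ x') (e2 : g • φ ∈ F ∙ φ')
    (hv : v ∈ MM Γ B x φ) : g • v ∈ MM Γ B x' φ' :=
  Mx_smul (Y := GG F Γ x φ) (Y' := GG F Γ x' φ') g
    (fun _ hk => ⟨conj_SS f.x0 e1 hk.1, conj_SS f.f0 e2 hk.2⟩)
    (fun _ => h.Hy_smul f.f0 e2) hv

theorem Pre.Fl_of (h : Pre Γ B) (f : Fl B x φ) (e1 : g • x ∈ F ∙ x') (e2 : g • φ ∈ F ∙ φ') :
    Fl B x' φ' := by
  obtain ⟨a, ha⟩ := Submodule.mem_span_singleton.1 e1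
  refine ⟨fun e => smul_ne f.x0 (by rw [← ha, e, smul_zero]), fun e => smul_ne (g := g) f.f0
    (by simpa [e] using e2), ?_⟩
  have := (h.Hy_smul f.f0 e2).2 f.inc
  rwa [← ha, B.map_smul, LinearMap.smul_apply, smul_eq_zero,
    or_iff_right (ne_of_smul_eq f.x0 ha.symm)] at this

theorem Pre.NN_smul (h : Pre Γ B) (f : Fl B x φ) (e1 : g • x ∈ F ∙ x') (e2 : g • φ ∈ F ∙ φ')
    (hv : v ∈ NN Γ B x φ) : g • v ∈ NN Γ B x' φ' := mem_perp.2 fun w hw => by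
  rw [h.inv_left]
  exact mem_perp.1 hv _ (h.flip.MM_smul (h.Fl_of f e1 e2).flip (smul_mem_span_inv f.f0 e2)
    (smul_mem_span_inv f.x0 e1) hw)

theorem Pre.MM_inv (h : Pre Γ B) (f : Fl B x φ) : GG F Γ x φ ≤ SS Γ (MM Γ B x φ) :=
  fun _ hg _ hv => h.MM_smul f (mem_SS_span_iff.1 hg.1) (mem_SS_span_iff.1 hg.2) hv

theorem Pre.NN_inv (h : Pre Γ B) (f : Fl B x φ) : GG F Γ x φ ≤ SS Γ (NN Γ B x φ) :=
  fun _ hg _ hv => h.NN_smul f (mem_SS_span_iff.1 hg.1) (mem_SS_span_iff.1 hg.2) hv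

theorem Pre.MM_congr (h : Pre Γ B) (f : Fl B x φ) (e1 : x ∈ F ∙ x') (e2 : φ ∈ F ∙ φ') :
    MM Γ B x φ = MM Γ B x' φ' := by
  have e1 : (1 : Γ) • x ∈ F ∙ x' := by simpa using e1
  have e2 : (1 : Γ) • φ ∈ F ∙ φ' := by simpa using e2
  ext v
  exact ⟨fun hv => by simpa using h.MM_smul f e1 e2 hv, fun hv => by
    simpa using h.MM_smul (h.Fl_of f e1 e2) (smul_mem_span_inv f.x0 e1)
      (smul_mem_span_inv f.f0 e2) hv⟩

theorem Pre.NN_congr (h : Pre Γ B) (f : Fl B x φ) (e1 : x ∈ F ∙ x') (e2 : φ ∈ F ∙ φ') :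
    NN Γ B x φ = NN Γ B x' φ' := by
  rw [NN, h.flip.MM_congr f.flip e2 e1, NN]

theorem Hyp.MM_spec (h : Hyp Γ B) (f : Fl B x φ) : MM Γ B x φ < Hy B φ ∧
    ∀ v ∈ Hy B φ, ∀ v' ∈ Hy B φ, v ∉ MM Γ B x φ → v' ∉ MM Γ B x φ →
      ∃ g ∈ GG F Γ x φ, g • v = v' := by
  obtain ⟨ψ, a, -, H⟩ := h.big f.x0 f.f0 f.inc
  refine Mx_spec (fun g hg => h.toPre.ker_SS hg.2) (B.flip ψ) ?_ fun v a v' a' b b' =>
    H v v' a a' b b'
  obtain ⟨v, v1, v2⟩ := h.toPre.exists_sep' a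
  exact ⟨v, v1, by simp [v2]⟩

theorem Hyp.M_lt (h : Hyp Γ B) (f : Fl B x φ) : MM Γ B x φ < Hy B φ := (h.MM_spec f).1

theorem Hyp.M_inc (h : Hyp Γ B) (f : Fl B x φ) (hv : v ∈ MM Γ B x φ) : B v φ = 0 :=
  (h.M_lt f).le hv

theorem Hyp.M_tr (h : Hyp Γ B) (f : Fl B x φ) (a : B v φ = 0) (a' : B v' φ = 0)
    (b : v ∉ MM Γ B x φ) (b' : v' ∉ MM Γ B x φ) : ∃ g ∈ GG F Γ x φ, g • v = v' :=
  (h.MM_spec f).2 v a v' a' b b'

theorem M_max {U : Submodule F V} (h1 : U < Hy B φ) (h2 : GG F Γ x φ ≤ SS Γ U) :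
    U ≤ MM Γ B x φ := le_Mx h1 h2

theorem Hyp.x_mem_M (h : Hyp Γ B) (f : Fl B x φ) : x ∈ MM Γ B x φ := by
  refine M_max (U := F ∙ x) (Submodule.lt_of_le_of_finrank_lt_finrank
    ((Submodule.span_singleton_le_iff_mem _ _).2 f.inc) ?_) inf_le_left
    (Submodule.mem_span_singleton_self x)
  have := h.toPre.finrank_Hy f.f0
  have := h.dim
  rw [finrank_span_singleton f.x0]
  omega

theorem Hyp.x_mem_N (h : Hyp Γ B) (f : Fl B x φ) : x ∈ NN Γ B x φ :=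
  mem_perp.2 fun _ hw => h.flip.M_inc f.flip hw

theorem Hyp.N_inc (h : Hyp Γ B) (f : Fl B x φ) (hv : v ∈ NN Γ B x φ) : B v φ = 0 :=
  mem_perp.1 hv φ (h.flip.x_mem_M f.flip)

theorem Hyp.four1 (h : Hyp Γ B) (f : Fl B x φ) : ∀ w ∈ Hy B.flip x, ∀ w' ∈ Hy B.flip x,
    w ∉ MM Γ B.flip φ x → w' ∉ MM Γ B.flip φ x → ∃ g ∈ GG F Γ x φ, g • w = w' :=
  fun _ a _ a' b b' => by
    obtain ⟨g, hg, e⟩ := h.flip.M_tr f.flip a a' b b'
    exact ⟨g, ⟨hg.2, hg.1⟩, e⟩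

theorem Hyp.four2 (h : Hyp Γ B) (f : Fl B x φ) : ∀ w ∉ Hy B.flip x, ∀ w' ∉ Hy B.flip x,
    ∃ g ∈ GG F Γ x φ, g • w = w' := fun _ a _ a' => by
  obtain ⟨g, hg, e⟩ := h.flip.f1 f.f0 f.x0 f.inc a a'
  exact ⟨g, ⟨hg.2, hg.1⟩, e⟩

theorem Hyp.N_cone (h : Hyp Γ B) (f : Fl B x φ) (hv : v ∉ NN Γ B x φ) (hu : u ∈ NN Γ B x φ) :
    ∃ g ∈ GG F Γ x φ, g • v = v + u :=
  h.toPre.four_cone (h.flip.M_lt f.flip).le (h.four1 f) (h.four2 f) hv hu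

theorem Hyp.N_tr (h : Hyp Γ B) (f : Fl B x φ) (a : v ∈ NN Γ B x φ) (a' : v' ∈ NN Γ B x φ)
    (b : v ∉ F ∙ x) (b' : v' ∉ F ∙ x) : ∃ g ∈ GG F Γ x φ, g • v = v' :=
  h.toPre.four_tr (h.four1 f) (h.four2 f) a a' (by rwa [h.toPre.perp_Hy])
    (by rwa [h.toPre.perp_Hy])

theorem Hyp.N_min (h : Hyp Γ B) (f : Fl B x φ) {U : Submodule F V} (hU : GG F Γ x φ ≤ SS Γ U)
    (hx : x ∈ U) (hu : u ∈ U) (hu' : u ∉ F ∙ x) : NN Γ B x φ ≤ U := fun v hv => by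
  by_cases a : u ∈ NN Γ B x φ
  · by_cases b : v ∈ F ∙ x
    · exact (Submodule.span_singleton_le_iff_mem _ _).2 hx b
    · obtain ⟨g, hg, rfl⟩ := h.N_tr f a hv hu' b
      exact hU hg u hu
  · obtain ⟨g, hg, e⟩ := h.N_cone f a hv
    exact (U.add_mem_iff_right hu).1 (e ▸ hU hg u hu)

theorem Hyp.symm_of (h : Hyp Γ B) (f : Fl B x φ) (hy : y ∉ F ∙ x) (hφ : B y φ = 0) :
    ∃ g : Γ, g • x ∈ F ∙ y ∧ g • φ ∈ F ∙ φ ∧ ∃ b : F, b ≠ 0 ∧ g • y = b • x := by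
  obtain ⟨g, g1, ⟨a, g2⟩, b, g3⟩ := h.swap f.x0 hy f.f0 f.inc hφ
  exact ⟨g, Submodule.mem_span_singleton.2 ⟨a, g2.symm⟩, mem_SS_span_iff.1 g1, b,
    ne_of_smul_eq (ne_zero_of_not_mem hy) g3, g3⟩

theorem span_symm (hy : y ≠ 0) (e : y ∈ F ∙ x) : x ∈ F ∙ y := by
  by_contra hc
  exact not_mem_span_symm hy hc e

theorem Hyp.Fl_N (h : Hyp Γ B) (f : Fl B x φ) (hy : y ∈ NN Γ B x φ) (h0 : y ≠ 0) : Fl B y φ :=
  ⟨h0, f.f0, h.N_inc f hy⟩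

theorem Hyp.Fl_M (h : Hyp Γ B) (f : Fl B x φ) (hy : y ∈ MM Γ B x φ) (h0 : y ≠ 0) : Fl B y φ :=
  ⟨h0, f.f0, h.M_inc f hy⟩

theorem Hyp.N_symm (h : Hyp Γ B) (f : Fl B x φ) (hy : y ∈ NN Γ B x φ) (h0 : y ≠ 0) :
    x ∈ NN Γ B y φ := by
  by_cases e : y ∈ F ∙ x
  · rw [h.toPre.NN_congr (h.Fl_N f hy h0) e (Submodule.mem_span_singleton_self φ)]
    exact h.x_mem_N f
  obtain ⟨g, g1, g2, b, hb, g3⟩ := h.symm_of f e (h.N_inc f hy)
  have := h.toPre.NN_smul f g1 g2 hy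
  rwa [g3, Submodule.smul_mem_iff _ hb] at this

theorem Hyp.M_symm (h : Hyp Γ B) (f : Fl B x φ) (hy : y ∈ MM Γ B x φ) (h0 : y ≠ 0) :
    x ∈ MM Γ B y φ := by
  by_cases e : y ∈ F ∙ x
  · rw [h.toPre.MM_congr (h.Fl_M f hy h0) e (Submodule.mem_span_singleton_self φ)]
    exact h.x_mem_M f
  obtain ⟨g, g1, g2, b, hb, g3⟩ := h.symm_of f e (h.M_inc f hy)
  have := h.toPre.MM_smul f g1 g2 hy
  rwa [g3, Submodule.smul_mem_iff _ hb] at this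

end

/-- stabiliser of a point-line flag -/
abbrev GL2 (F Γ : Type*) [Field F] [Module F V] [Group Γ] [Finite Γ]
    [DistribMulAction Γ V] (x y : V) : Subgroup Γ :=
  SS Γ (F ∙ x) ⊓ SS Γ (Submodule.span F {x, y})

/-- the largest proper subspace invariant under a point-line flag stabiliser -/
def SX (F Γ : Type*) [Field F] [Module F V] [Group Γ] [Finite Γ] [DistribMulAction Γ V]
    (x y : V) : Submodule F V := Mx (GL2 F Γ x y) ⊤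

/-- the hyperplanes containing `SX` -/
def EE2 (Γ : Type*) [Group Γ] [Finite Γ] [DistribMulAction Γ V]
    (B : V →ₗ[F] W →ₗ[F] F) (x y : V) : Submodule F W := perp B.flip (SX F Γ x y)

/-- the dual of `EE2` -/
abbrev TT (Γ : Type*) [Group Γ] [Finite Γ] [DistribMulAction Γ W]
    (B : V →ₗ[F] W →ₗ[F] F) (φ ψ : W) : Submodule F V := EE2 Γ B.flip φ ψ

section
variable {x y z v v' : V} {φ ψ : W} {g : Γ}

theorem Pre.mem_SX (h : Pre Γ B) : z ∈ SX F Γ x y ↔ ∀ φ ∈ EE2 Γ B x y, B z φ = 0 := by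
  rw [← mem_perp, EE2, h.perp_perp]

theorem mem_GL2 (h1 : g • x ∈ F ∙ x) (h2 : g • y ∈ Submodule.span F {x, y}) :
    g ∈ GL2 F Γ x y := ⟨mem_SS_span_iff.2 h1, fun v hv => by
  obtain ⟨a, b, rfl⟩ := Submodule.mem_span_pair.1 hv
  rw [smul_add, gsm, gsm]
  exact Submodule.add_mem _ (Submodule.smul_mem _ _ (Submodule.span_mono (by simp) h1))
    (Submodule.smul_mem _ _ h2)⟩

theorem Hyp.SX_spec (h : Hyp Γ B) (hx : x ≠ 0) (hy : y ∉ F ∙ x) : SX F Γ x y < ⊤ ∧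
    ∀ v ∈ (⊤ : Submodule F V), ∀ v' ∈ (⊤ : Submodule F V), v ∉ SX F Γ x y → v' ∉ SX F Γ x y →
      ∃ g ∈ GL2 F Γ x y, g • v = v' := by
  obtain ⟨φ, a, -, -, H⟩ := h.f2 hx hy
  refine Mx_spec (fun _ _ _ _ => trivial) (B.flip φ) ?_ fun v _ v' _ b b' => ?_
  · obtain ⟨v, hv⟩ := h.toPre.exists_ne' a
    exact ⟨v, trivial, hv⟩
  rw [LinearMap.flip_apply] at b b'
  obtain ⟨g, g1, g2, -, g3⟩ := H ((B v φ)⁻¹ • v) ((B v' φ)⁻¹ • v') (by simp [b]) (by simp [b'])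
  obtain ⟨k, k1, -, k3, -⟩ := h.scal_mem (mul_ne_zero b' (inv_ne_zero b))
  refine ⟨k * g, Subgroup.mul_mem _ ⟨k1 _, k1 _⟩ (mem_GL2 (by simp [g1]) ?_), ?_⟩
  · have := Submodule.add_mem _ (Submodule.span_mono (t := {x, y}) (by simp) g2)
      (Submodule.subset_span (by simp : y ∈ ({x, y} : Set V)))
    simpa using this
  · rw [mul_smul k, k3, mul_smul (B v' φ), ← gsm, g3, smul_smul, mul_inv_cancel₀ b', one_smul]

theorem Hyp.SX_tr (h : Hyp Γ B) (hx : x ≠ 0) (hy : y ∉ F ∙ x) (a : v ∉ SX F Γ x y)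
    (a' : v' ∉ SX F Γ x y) : ∃ g ∈ GL2 F Γ x y, g • v = v' :=
  (h.SX_spec hx hy).2 v trivial v' trivial a a'

theorem SX_inv : GL2 F Γ x y ≤ SS Γ (SX F Γ x y) := fun g hg _ hv =>
  Mx_smul (Y := GL2 F Γ x y) g (fun _ hk => Subgroup.mul_mem _ (Subgroup.mul_mem _
    (Subgroup.inv_mem _ hg) hk) hg) (fun _ => Iff.rfl) hv

theorem GL2_mem (hy : y ∉ F ∙ x) (hg : g ∈ GL2 F Γ x y) :
    ∃ a b : F, b ≠ 0 ∧ g • y = a • x + b • y := by
  obtain ⟨a, b, e⟩ := Submodule.mem_span_pair.1 (hg.2 y (Submodule.subset_span (by simp)))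
  refine ⟨a, b, ?_, e.symm⟩
  rintro rfl
  exact hy ((SS_iff hg.1).1 (Submodule.mem_span_singleton.2 ⟨a, by simpa using e⟩))

end

/-- the non-transitive situation; `ν + 1 = dim N`, `μ + 1 = codim M` -/
structure NT (Γ : Type*) [Group Γ] [Finite Γ] [DistribMulAction Γ V] [DistribMulAction Γ W]
    (B : V →ₗ[F] W →ₗ[F] F) (ν μ : ℕ) : Prop extends Hyp Γ B where
  ν1 : 1 ≤ ν
  μ1 : 1 ≤ μ
  dN : ∀ {x φ}, Fl B x φ → finrank F (NN Γ B x φ) = ν + 1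
  dM : ∀ {x φ}, Fl B x φ → finrank F (MM Γ B x φ) + μ + 1 = finrank F V
  NM : ∀ {x φ}, Fl B x φ → NN Γ B x φ ≤ MM Γ B x φ

theorem Hyp.exists_Fl (h : Hyp Γ B) : ∃ x φ, Fl B x φ := by
  obtain ⟨φ, hφ⟩ := h.flip.exists_not_mem 0
  have hφ := ne_zero_of_not_mem hφ
  have := h.toPre.finrank_Hy hφ
  have := h.dim
  obtain ⟨x, x1, hx⟩ := H7.exists_mem_notMem_of_finrank_lt (U := Hy B φ) (W := ⊥)
    (by rw [finrank_bot]; omega)
  exact ⟨x, φ, ne_zero_of_not_mem hx, hφ, x1⟩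

theorem Hyp.exists_NT (h : Hyp Γ B) (hn : ¬ Tr Γ B) : ∃ ν μ, NT Γ B ν μ := by
  obtain ⟨x₀, φ₀, f₀⟩ := h.exists_Fl
  have cN : ∀ {x φ x' φ'}, Fl B x φ → Fl B x' φ' →
      finrank F (NN Γ B x φ) ≤ finrank F (NN Γ B x' φ') := fun f f' => by
    obtain ⟨g, a, b⟩ := h.ftr f f'
    exact finrank_le_smul g fun v => h.toPre.NN_smul f a b
  have cM : ∀ {x φ x' φ'}, Fl B x φ → Fl B x' φ' →
      finrank F (MM Γ B x φ) ≤ finrank F (MM Γ B x' φ') := fun f f' => by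
    obtain ⟨g, a, b⟩ := h.ftr f f'
    exact finrank_le_smul g fun v => h.toPre.MM_smul f a b
  have l1 := Submodule.finrank_lt_finrank_of_lt (h.M_lt f₀)
  have l2 := Submodule.finrank_lt_finrank_of_lt (h.flip.M_lt f₀.flip)
  have l3 := h.toPre.finrank_Hy f₀.f0
  have l4 := h.toPre.flip.finrank_Hy f₀.x0
  have l5 := h.toPre.finrank_perp (MM Γ B.flip φ₀ x₀)
  have l6 := h.toPre.finrank_eq
  refine ⟨finrank F (NN Γ B x₀ φ₀) - 1, finrank F V - 1 - finrank F (MM Γ B x₀ φ₀), h,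
    by unfold NN; omega, by omega, fun f => ?_, fun f => ?_, fun {x φ} f => ?_⟩
  · rw [le_antisymm (cN f f₀) (cN f₀ f)]; unfold NN; omega
  · rw [le_antisymm (cM f f₀) (cM f₀ f)]; omega
  · refine M_max (lt_of_le_of_ne (fun v => h.N_inc f) fun e => hn fun x' φ' f' v v' a b a' b' => ?_)
      (h.toPre.NN_inv f)
    have : NN Γ B x' φ' = Hy B φ' := Submodule.eq_of_le_of_finrank_le (fun v => h.N_inc f') (by
      have := cN f f'
      have := h.toPre.finrank_Hy f.f0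
      have := h.toPre.finrank_Hy f'.f0
      rw [e] at *
      omega)
    exact h.N_tr f' (this ▸ a) (this ▸ a') b b'

variable {ν μ : ℕ}

theorem NT.pre (h : NT Γ B ν μ) : Pre Γ B := h.toHyp.toPre

theorem NT.flip (h : NT Γ B ν μ) : NT Γ B.flip μ ν where
  toHyp := h.toHyp.flip
  ν1 := h.μ1
  μ1 := h.ν1
  dN {φ x} f := by
    have := h.dM f.flip
    have := h.pre.flip.finrank_perp (MM Γ B x φ)
    have := h.pre.finrank_eq
    rw [NN_flip]; omega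
  dM {φ x} f := by
    have := h.dN f.flip
    have := h.pre.finrank_perp (MM Γ B.flip φ x)
    have := h.pre.finrank_eq
    unfold NN at *; omega
  NM {φ x} f := by
    rw [NN_flip, ← h.pre.flip.perp_perp (MM Γ B.flip φ x)]
    exact fun w hw => mem_perp.2 fun v hv => mem_perp.1 hw v (h.NM f.flip hv)

section
variable {x y z : V} {φ ψ : W}

theorem ncard_diff_pt {U : Submodule F V} (hx : x ≠ 0) (h : x ∈ U) :
    {v | v ∈ U ∧ v ∉ F ∙ x}.ncard + Fintype.card F = Fintype.card F ^ finrank F U := by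
  have := ncard_diff ((Submodule.span_singleton_le_iff_mem _ _).2 h)
  rwa [finrank_span_singleton hx, pow_one] at this

theorem NT.E_spec (h : NT Γ B ν μ) (hx : x ≠ 0) (hy : y ∉ F ∙ x) :
    finrank F (EE2 Γ B x y) = ν ∧
      ∀ φ, φ ≠ 0 → (φ ∈ EE2 Γ B x y ↔ B x φ = 0 ∧ y ∈ NN Γ B x φ) := by
  have q1 := Fintype.one_lt_card (α := F)
  have d3 := h.dim
  have dH := h.pre.flip.finrank_Hy hx
  obtain ⟨φ₀, a₀, b₀⟩ := H7.exists_mem_notMem_of_finrank_lt (U := Hy B.flip x) (W := ⊥)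
    (by have := h.pre.finrank_eq; rw [finrank_bot]; omega)
  have f₀ : Fl B x φ₀ := ⟨hx, ne_zero_of_not_mem b₀, a₀⟩
  have hb := bireg (SS Γ (F ∙ x)) {v : V | v ∈ (⊤ : Submodule F V) ∧ v ∉ F ∙ x}
    {φ : W | φ ∈ Hy B.flip x ∧ φ ≠ 0} (fun v φ => v ∈ NN Γ B x φ)
    (fun u a u' a' => h.toHyp.off hx a.2 a'.2) (fun u a u' a' => h.toHyp.flag hx a.2 a'.2 a.1 a'.1)
    (fun g hg u a => ⟨trivial, fun e => a.2 ((SS_iff hg).1 e)⟩)
    (fun g hg u a => ⟨h.pre.flip.ker_SS hg u a.1, smul_ne a.2⟩)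
    (fun g hg u _ φ a r => h.pre.NN_smul ⟨hx, a.2, a.1⟩ (mem_SS_span_iff.1 hg)
      (Submodule.mem_span_singleton_self _) r) (u₀ := y) ⟨trivial, hy⟩ (v₀ := φ₀) ⟨a₀, f₀.f0⟩
  have c1 := ncard_diff_pt (U := (⊤ : Submodule F V)) hx trivial
  have c2 := ncard_ne (Hy B.flip x)
  have c3 := ncard_diff_pt hx (h.toHyp.x_mem_N f₀)
  rw [h.dN f₀] at c3
  rw [finrank_top, h.pre.finrank_eq, ← dH] at c1
  rw [show {u | u ∈ {v : V | v ∈ (⊤ : Submodule F V) ∧ v ∉ F ∙ x} ∧ u ∈ NN Γ B x φ₀} =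
    {v | v ∈ NN Γ B x φ₀ ∧ v ∉ F ∙ x} from Set.ext fun v => by simp [and_comm]] at hb
  set E := {φ | φ ∈ {φ : W | φ ∈ Hy B.flip x ∧ φ ≠ 0} ∧ y ∈ NN Γ B x φ} with hE
  have mE : ∀ φ, φ ∈ E ↔ (B x φ = 0 ∧ φ ≠ 0) ∧ y ∈ NN Γ B x φ := fun _ => Iff.rfl
  have cE : E.ncard + 1 = Fintype.card F ^ ν := by
    have p1 : 1 < Fintype.card F ^ finrank F (Hy B.flip x) :=
      Nat.one_lt_pow (by have := h.pre.finrank_eq; omega) q1
    rw [pow_succ] at c1 c3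
    generalize Fintype.card F ^ finrank F (Hy B.flip x) = a at *
    generalize Fintype.card F ^ ν = b at *
    zify at c1 c2 c3 hb p1 q1 ⊢
    refine mul_left_cancel₀ (a := ((a : ℤ) - 1) * Fintype.card F)
      (mul_ne_zero (by omega) (by omega)) ?_
    rw [← eq_sub_iff_add_eq] at c1 c2 c3
    rw [c1, c2, c3] at hb
    linear_combination hb
  have iE : ∀ g ∈ GL2 F Γ x y, ∀ φ ∈ E, g • φ ∈ E := fun g hg φ a => by
    have f : Fl B x φ := ⟨hx, a.1.2, a.1.1⟩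
    obtain ⟨c, d, hd, e⟩ := GL2_mem hy hg
    have f' := h.pre.Fl_of f (mem_SS_span_iff.1 hg.1) (Submodule.mem_span_singleton_self (g • φ))
    have := h.pre.NN_smul f (mem_SS_span_iff.1 hg.1) (Submodule.mem_span_singleton_self _) a.2
    rw [e, Submodule.add_mem_iff_right _ (Submodule.smul_mem _ _ (h.toHyp.x_mem_N f')),
      Submodule.smul_mem_iff _ hd] at this
    exact ⟨⟨f'.inc, f'.f0⟩, this⟩
  have tE : ∀ φ ∈ E, ∀ φ' ∈ E, ∃ g ∈ GL2 F Γ x y, g • φ = φ' := fun φ a φ' a' => by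
    have f : Fl B x φ := ⟨hx, a.1.2, a.1.1⟩
    have f' : Fl B x φ' := ⟨hx, a'.1.2, a'.1.1⟩
    obtain ⟨g, hg, e⟩ := h.toHyp.flag hx f.f0 f'.f0 f.inc f'.inc
    obtain ⟨k, hk, e'⟩ := h.toHyp.N_tr f' (h.pre.NN_smul f (mem_SS_span_iff.1 hg)
      (e ▸ Submodule.mem_span_singleton_self _) a.2) a'.2 (fun c => hy ((SS_iff hg).1 c)) hy
    obtain ⟨c, hc, e''⟩ := (mem_SS_span' f'.f0).1 hk.2
    obtain ⟨s, s1, -, -, s2⟩ := h.toHyp.scal_mem hc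
    refine ⟨s * (k * g), Subgroup.mul_mem _ ⟨s1 _, s1 _⟩ (mem_GL2 (mem_SS_span_iff.1
      (Subgroup.mul_mem _ hk.1 hg)) (by rw [mul_smul, e']; exact Submodule.subset_span (by simp))), ?_⟩
    rw [mul_smul, mul_smul, e, e'', s2, smul_smul, inv_mul_cancel₀ hc, one_smul]
  have sp := h.toHyp.SX_spec hx hy
  have ex : ∃ φ ∈ E, φ ∈ EE2 Γ B x y := by
    by_contra hc
    push Not at hc
    have := dvd_ncard (EE2 Γ B x y) E fun φ a u hu => by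
      obtain ⟨g, hg, e⟩ := h.pre.flip.four_cone le_top sp.2 (fun w hw => absurd trivial hw)
        (hc φ a) hu
      exact e ▸ iE g hg φ a
    have d1 := Submodule.finrank_lt_finrank_of_lt sp.1
    have d2 := h.pre.flip.finrank_perp (SX F Γ x y)
    have d4 := h.pre.finrank_eq
    rw [finrank_top] at d1
    have h1 : Fintype.card F ∣ E.ncard :=
      (dvd_pow_self _ (by unfold EE2; omega)).trans this
    have h2 : Fintype.card F ∣ E.ncard + 1 := cE ▸ dvd_pow_self _ (by have := h.ν1; omega)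
    have := Nat.le_of_dvd one_pos ((Nat.dvd_add_right h1).1 h2)
    omega
  obtain ⟨φ₁, a₁, b₁⟩ := ex
  have key : ∀ φ, φ ∈ E ↔ φ ∈ EE2 Γ B x y ∧ φ ≠ 0 := fun φ => by
    refine ⟨fun a => ⟨?_, a.1.2⟩, fun a => ?_⟩
    · obtain ⟨g, hg, rfl⟩ := tE _ a₁ _ a
      exact h.pre.flip.perp_SS (SX_inv hg) _ b₁
    · have n : ∀ {χ : W}, χ ≠ 0 → χ ∉ perp B.flip ⊤ := fun a e =>
        a (h.sepW _ fun v => mem_perp.1 e v trivial)
      obtain ⟨g, hg, rfl⟩ := h.pre.flip.four_tr sp.2 (fun w hw => absurd trivial hw) b₁ a.1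
        (n a₁.1.2) (n a.2)
      exact iE g hg _ a₁
  refine ⟨Nat.pow_right_injective q1 ?_, fun φ hφ => ?_⟩
  · show Fintype.card F ^ _ = Fintype.card F ^ _
    rw [← cE, ← ncard_ne, show E = {φ | φ ∈ EE2 Γ B x y ∧ φ ≠ 0} from Set.ext key]
  · have := key φ
    rw [mE] at this
    tauto

theorem NT.dE (h : NT Γ B ν μ) (hx : x ≠ 0) (hy : y ∉ F ∙ x) : finrank F (EE2 Γ B x y) = ν :=
  (h.E_spec hx hy).1

theorem NT.mem_E (h : NT Γ B ν μ) (hx : x ≠ 0) (hy : y ∉ F ∙ x) (hφ : φ ≠ 0) :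
    φ ∈ EE2 Γ B x y ↔ B x φ = 0 ∧ y ∈ NN Γ B x φ := (h.E_spec hx hy).2 φ hφ

theorem NT.dS (h : NT Γ B ν μ) (hx : x ≠ 0) (hy : y ∉ F ∙ x) :
    finrank F (SX F Γ x y) + ν = finrank F V := by
  rw [← h.dE hx hy, h.pre.finrank_eq]
  exact h.pre.flip.finrank_perp _

theorem NT.dT (h : NT Γ B ν μ) (hφ : φ ≠ 0) (hψ : ψ ∉ F ∙ φ) : finrank F (TT Γ B φ ψ) = μ :=
  h.flip.dE hφ hψ

theorem NT.mem_T (h : NT Γ B ν μ) (hφ : φ ≠ 0) (hψ : ψ ∉ F ∙ φ) (hx : x ≠ 0) :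
    x ∈ TT Γ B φ ψ ↔ B x φ = 0 ∧ ψ ∈ NN Γ B.flip φ x := h.flip.mem_E hφ hψ hx

theorem NT.dN' (h : NT Γ B ν μ) (f : Fl B x φ) : finrank F (NN Γ B.flip φ x) = μ + 1 :=
  h.flip.dN f.flip

end

end Cfsg.Agent.H5.CK
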