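import Cfsg.Agent.H5.CKb

/-! Cameron-Kantor, general dimension: classes and the comparison of M and S. -/

set_option autoImplicit false
set_option linter.unusedSectionVars false

namespace Cfsg.Agent.H5.CK

open Module

variable {F V W Γ : Type*} [Field F] [Fintype F] [AddCommGroup V] [Module F V] [Finite V]
  [AddCommGroup W] [Module F W] [Finite W] [Group Γ] [Finite Γ]
  [DistribMulAction Γ V] [SMulCommClass Γ F V] [DistribMulAction Γ W] [SMulCommClass Γ F W]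
  {B : V →ₗ[F] W →ₗ[F] F} {ν μ : ℕ}

/-- the subspaces `N` form a spread of each hyperplane -/
def Al (Γ : Type*) [Group Γ] [Finite Γ] [DistribMulAction Γ V] [DistribMulAction Γ W]
    (B : V →ₗ[F] W →ₗ[F] F) : Prop :=
  ∀ x φ y, Fl B x φ → y ∈ NN Γ B x φ → y ≠ 0 → NN Γ B y φ = NN Γ B x φ

/-- the closed case -/
def Cl (Γ : Type*) [Group Γ] [Finite Γ] [DistribMulAction Γ V] [DistribMulAction Γ W]
    (B : V →ₗ[F] W →ₗ[F] F) (ν : ℕ) : Prop :=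
  ∀ x φ y, Fl B x φ → y ∈ NN Γ B x φ → y ∉ F ∙ x →
    finrank F (NN Γ B x φ ⊓ NN Γ B y φ : Submodule F V) = ν ∧ ∀ y', y' ∈ NN Γ B x φ → y' ∉ F ∙ x →
      NN Γ B x φ ⊔ NN Γ B y φ = NN Γ B x φ ⊔ NN Γ B y' φ

variable {x x' y z v : V} {φ φ' ψ : W} {g : Γ}

theorem Pre.NN_iff (h : Pre Γ B) (f : Fl B x φ) (e1 : g • x ∈ F ∙ x') (e2 : g • φ ∈ F ∙ φ') :
    g • v ∈ NN Γ B x' φ' ↔ v ∈ NN Γ B x φ :=
  ⟨fun a => by
    simpa using h.NN_smul (h.Fl_of f e1 e2) (smul_mem_span_inv f.x0 e1)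
      (smul_mem_span_inv f.f0 e2) a, h.NN_smul f e1 e2⟩

theorem Pre.MM_iff (h : Pre Γ B) (f : Fl B x φ) (e1 : g • x ∈ F ∙ x') (e2 : g • φ ∈ F ∙ φ') :
    g • v ∈ MM Γ B x' φ' ↔ v ∈ MM Γ B x φ :=
  ⟨fun a => by
    simpa using h.MM_smul (h.Fl_of f e1 e2) (smul_mem_span_inv f.x0 e1)
      (smul_mem_span_inv f.f0 e2) a, h.MM_smul f e1 e2⟩

theorem Hyp.al_of (h : Hyp Γ B) (f : Fl B x φ) (hy : y ∈ NN Γ B x φ) (hy' : y ∉ F ∙ x)
    (e : NN Γ B y φ = NN Γ B x φ) : Al Γ B := fun x' φ' y' f' a b => by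
  by_cases c : y' ∈ F ∙ x'
  · exact h.toPre.NN_congr (h.Fl_N f' a b) c (Submodule.mem_span_singleton_self _)
  obtain ⟨g, g1, g2⟩ := h.ftr f f'
  obtain ⟨k, hk, e'⟩ := h.N_tr f' (h.toPre.NN_smul f g1 g2 hy) a
    (fun d => hy' ((span_smul_iff f.x0 g1).1 d)) c
  have k1 := smul_mem_span_trans g1 (mem_SS_span_iff.1 hk.1)
  have k2 := smul_mem_span_trans g2 (mem_SS_span_iff.1 hk.2)
  ext v
  rw [← smul_inv_smul (k * g) v, h.toPre.NN_iff f k1 k2, h.toPre.NN_iff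
    (h.Fl_N f hy (ne_zero_of_not_mem hy')) (x' := y') (by rw [mul_smul, e']; simp) k2, e]

theorem NT.cls (h : NT Γ B ν μ) (ρ : V → Set V)
    (eqv : ∀ g ∈ SS Γ (F ∙ φ), ∀ x, Fl B x φ → ∀ z ∈ ρ x, g • z ∈ ρ (g • x))
    (sub : ∀ x, Fl B x φ → ∀ z ∈ ρ x, Fl B z φ)
    (con : ∀ x y, Fl B x φ → y ∈ NN Γ B x φ → y ≠ 0 → ρ y = ρ x) (f : Fl B x φ) :
    {y | Fl B y φ ∧ ρ y = ρ x}.ncard ∣ (ρ x).ncard ∧
      Fintype.card F ^ (ν + 1) ∣ {y | Fl B y φ ∧ ρ y = ρ x}.ncard + 1 := by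
  classical
  have gF : ∀ g ∈ SS Γ (F ∙ φ), ∀ {y}, Fl B y φ → Fl B (g • y) φ := fun g hg _ a =>
    h.pre.Fl_of a (Submodule.mem_span_singleton_self _) (mem_SS_span_iff.1 hg)
  have tr : ∀ u, Fl B u φ → ∀ u', Fl B u' φ → ∃ g ∈ SS Γ (F ∙ φ), g • u = u' :=
    fun u a u' a' => h.toHyp.flag' f.f0 a.x0 a'.x0 a.inc a'.inc
  have cj : ∀ g ∈ SS Γ (F ∙ φ), ∀ {a b}, Fl B a φ → Fl B b φ → ρ a = ρ b →
      ρ (g • a) = ρ (g • b) := by
    have : ∀ g ∈ SS Γ (F ∙ φ), ∀ {a b}, Fl B a φ → Fl B b φ → ρ a = ρ b →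
        ρ (g • a) ⊆ ρ (g • b) := fun g hg a b fa fb e z hz => by
      have := eqv _ (Subgroup.inv_mem _ hg) _ (gF g hg fa) z hz
      rw [inv_smul_smul, e] at this
      simpa using eqv g hg _ fb _ this
    exact fun g hg a b fa fb e => (this g hg fa fb e).antisymm (this g hg fb fa e.symm)
  constructor
  · have hb := bireg (SS Γ (F ∙ φ)) {y | Fl B y φ} {y | Fl B y φ} (fun a z => z ∈ ρ a) tr tr
      (fun g hg _ => gF g hg) (fun g hg _ => gF g hg) (fun g hg u a v _ r => eqv g hg u a v r) f f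
    have := Nat.eq_of_mul_eq_mul_left ((Set.ncard_pos (Set.toFinite _)).2 ⟨x, f⟩) hb
    rw [show {v | v ∈ {y | Fl B y φ} ∧ v ∈ ρ x} = ρ x from
      Set.ext fun v => ⟨fun a => a.2, fun a => ⟨sub x f v a, a⟩⟩] at this
    rw [this, Set.ncard_eq_toFinset_card _ (Set.toFinite {u | u ∈ {y | Fl B y φ} ∧ x ∈ ρ u}),
      Finset.card_eq_sum_card_image ρ]
    refine Finset.dvd_sum fun b hb => ?_
    obtain ⟨a, ha, rfl⟩ := Finset.mem_image.1 hb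
    rw [Set.Finite.mem_toFinset] at ha
    have e : (Finset.filter (fun u => ρ u = ρ a) (Set.toFinite
        {u | u ∈ {y | Fl B y φ} ∧ x ∈ ρ u}).toFinset).card = {y | Fl B y φ ∧ ρ y = ρ a}.ncard := by
      rw [← Set.ncard_coe_finset]
      congr 1
      ext u
      simp only [Finset.coe_filter, Set.Finite.mem_toFinset, Set.mem_ofPred_eq]
      exact ⟨fun c => ⟨c.1.1, c.2⟩, fun c => ⟨⟨c.1, c.2 ▸ ha.2⟩, c.2⟩⟩
    have l : ∀ {a b}, Fl B a φ → Fl B b φ →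
        {y | Fl B y φ ∧ ρ y = ρ a}.ncard ≤ {y | Fl B y φ ∧ ρ y = ρ b}.ncard := fun fa fb => by
      obtain ⟨g, hg, rfl⟩ := tr _ fa _ fb
      exact ncard_le_smul g fun y c => ⟨gF g hg c.1, cj g hg c.1 fa c.2⟩
    rw [e, le_antisymm (l ha.1 f) (l f ha.1)]
  · rw [← Set.ncard_insert_of_notMem (a := 0) (fun c => c.1.x0 rfl), ← h.dN f]
    refine dvd_ncard _ _ fun v hv u hu => ?_
    by_cases c : v ∈ NN Γ B x φ
    · by_cases d : v + u = 0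
      · exact Or.inl d
      · exact Or.inr ⟨h.toHyp.Fl_N f (Submodule.add_mem _ c hu) d,
          con x _ f (Submodule.add_mem _ c hu) d⟩
    obtain ⟨g, hg, e⟩ := h.toHyp.N_cone f c hu
    rcases hv with rfl | hv
    · exact absurd (Submodule.zero_mem _) c
    refine Or.inr ⟨e ▸ gF g hg.2 hv.1, ?_⟩
    rw [← e, cj g hg.2 hv.1 f hv.2]
    exact con x _ f (h.pre.NN_inv f hg _ (h.toHyp.x_mem_N f)) (smul_ne f.x0)

/-- valency `q ^ k * (q - 1)` is impossible -/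
theorem NT.cls_false (h : NT Γ B ν μ) (ρ : V → Set V)
    (eqv : ∀ g ∈ SS Γ (F ∙ φ), ∀ x, Fl B x φ → ∀ z ∈ ρ x, g • z ∈ ρ (g • x))
    (sub : ∀ x, Fl B x φ → ∀ z ∈ ρ x, Fl B z φ)
    (con : ∀ x y, Fl B x φ → y ∈ NN Γ B x φ → y ≠ 0 → ρ y = ρ x) (f : Fl B x φ) {k : ℕ}
    (hk : (ρ x).ncard + Fintype.card F ^ k = Fintype.card F ^ (k + 1)) : False := by
  obtain ⟨h1, h2⟩ := h.cls ρ eqv sub con f
  generalize {y | Fl B y φ ∧ ρ y = ρ x}.ncard = κ at h1 h2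
  have q1 := Fintype.one_lt_card (α := F)
  generalize Fintype.card F = q at *
  obtain ⟨p, rfl⟩ : ∃ p, q = p + 1 := ⟨q - 1, by omega⟩
  rw [show (ρ x).ncard = (p + 1) ^ k * p by rw [pow_succ, mul_add, mul_one] at hk; omega] at h1
  have c : Nat.Coprime κ (p + 1) := Nat.Coprime.coprime_dvd_right
    ((dvd_pow_self _ (by omega)).trans h2) (by simp)
  have h3 := Nat.le_of_dvd (by omega) ((c.pow_right k).dvd_of_dvd_mul_left h1)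
  have h4 := Nat.le_of_dvd (by omega) h2
  have h5 : (p + 1) ^ 1 < (p + 1) ^ (ν + 1) := Nat.pow_lt_pow_right q1 (by have := h.ν1; omega)
  rw [pow_one] at h5
  omega

theorem NT.E_of (h : NT Γ B ν μ) (f : Fl B x φ) (hy : y ∈ NN Γ B x φ) (hy' : y ∉ F ∙ x) :
    φ ∈ EE2 Γ B x y := (h.mem_E f.x0 hy' f.f0).2 ⟨f.inc, hy⟩

theorem NT.mem_S (h : NT Γ B ν μ) (hx : x ≠ 0) (hy : y ∉ F ∙ x) :
    z ∈ SX F Γ x y ↔ ∀ ψ, Fl B x ψ → y ∈ NN Γ B x ψ → B z ψ = 0 := by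
  rw [h.pre.mem_SX]
  refine ⟨fun a ψ f b => a ψ (h.E_of f b hy), fun a ψ b => ?_⟩
  by_cases c : ψ = 0
  · simp [c]
  · have := (h.mem_E hx hy c).1 b
    exact a ψ ⟨hx, c, this.1⟩ this.2

theorem NT.S_smul (h : NT Γ B ν μ) (hx : x ≠ 0) (hy : y ∉ F ∙ x) (e : g • x ∈ F ∙ x')
    (hz : z ∈ SX F Γ x y) : g • z ∈ SX F Γ x' (g • y) := by
  have hx' : x' ≠ 0 := fun c => smul_ne (g := g) hx (by simpa [c] using e)
  rw [h.mem_S hx hy] at hz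
  rw [h.mem_S hx' fun c => hy ((span_smul_iff hx e).1 c)]
  intro ψ f b
  have e' := smul_mem_span_inv hx e
  rw [h.pre.inv_left]
  exact hz _ (h.pre.Fl_of f e' (Submodule.mem_span_singleton_self _))
    (by simpa using h.pre.NN_smul f e' (Submodule.mem_span_singleton_self _) b)

theorem NT.S_add (h : NT Γ B ν μ) (hx : x ≠ 0) (hy : y ∉ F ∙ x) {u : V} (hu : u ∈ F ∙ x)
    (hz : z ∈ SX F Γ x y) : z ∈ SX F Γ x (y + u) := by
  rw [h.mem_S hx hy] at hz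
  rw [h.mem_S hx fun c => hy ((Submodule.add_mem_iff_left _ hu).1 c)]
  exact fun ψ f b => hz ψ f ((Submodule.add_mem_iff_left _
    ((Submodule.span_singleton_le_iff_mem _ _).2 (h.toHyp.x_mem_N f) hu)).1 b)

theorem pow_dvd_aux {q a b c A : ℕ} (hq : 1 < q) (h1 : A + q ^ a = q ^ b) (hab : a < b) (hc : 0 < c)
    {s : ℕ} (hs : s + 1 = q ^ c) {k : ℕ} (hd : q ^ k ∣ s * A) : k ≤ a := by
  obtain ⟨u, rfl⟩ := Nat.exists_eq_add_of_lt hab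
  obtain ⟨t, ht⟩ : ∃ t, q ^ (u + 1) = t + 1 := ⟨_, (Nat.succ_pred_eq_of_pos (by positivity)).symm⟩
  have eA : A = t * q ^ a := by rw [add_assoc, pow_add, ht] at h1; nlinarith
  have c1 : Nat.Coprime q s := Nat.Coprime.coprime_dvd_left (hs ▸ dvd_pow_self q hc.ne') (by simp)
  have c2 : Nat.Coprime q t :=
    Nat.Coprime.coprime_dvd_left (ht ▸ dvd_pow_self q (Nat.succ_ne_zero u)) (by simp)
  rw [eA] at hd
  exact (Nat.pow_dvd_pow_iff_le_right hq).1 ((c2.pow_left k).dvd_of_dvd_mul_left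
    ((c1.pow_left k).dvd_of_dvd_mul_left hd))

/-- step A -/
theorem NT.S_or (h : NT Γ B ν μ) (f : Fl B x φ) (hy : y ∈ NN Γ B x φ) (hy' : y ∉ F ∙ x) :
    SX F Γ x y ≤ MM Γ B x φ ∨ MM Γ B x φ ≤ SX F Γ x y := by
  rw [or_iff_not_imp_left]
  intro hn
  obtain ⟨z, z1, z2⟩ := SetLike.not_le_iff_exists.1 hn
  have SH : ∀ {y z}, y ∈ NN Γ B x φ → y ∉ F ∙ x → z ∈ SX F Γ x y → z ∈ Hy B φ :=
    fun a b c => (h.mem_S f.x0 b).1 c φ f a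
  have hb := bireg (GG F Γ x φ) {v | v ∈ NN Γ B x φ ∧ v ∉ F ∙ x}
    {v | v ∈ Hy B φ ∧ v ∉ MM Γ B x φ} (fun y z => z ∈ SX F Γ x y)
    (fun u a u' a' => h.toHyp.N_tr f a.1 a'.1 a.2 a'.2)
    (fun u a u' a' => h.toHyp.M_tr f a.1 a'.1 a.2 a'.2)
    (fun g hg u a => ⟨h.pre.NN_inv f hg u a.1, fun c => a.2 ((SS_iff hg.1).1 c)⟩)
    (fun g hg u a => ⟨h.pre.ker_SS hg.2 u a.1, fun c => a.2 ((SS_iff (h.pre.MM_inv f hg)).1 c)⟩)
    (fun g hg u a v _ r => h.S_smul f.x0 a.2 (mem_SS_span_iff.1 hg.1) r)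
    (u₀ := y) ⟨hy, hy'⟩ (v₀ := z) ⟨SH hy hy' z1, z2⟩
  have d1 := dvd_ncard (F ∙ x) {u | u ∈ {v | v ∈ NN Γ B x φ ∧ v ∉ F ∙ x} ∧ z ∈ SX F Γ x u}
    fun v hv u hu => ⟨⟨Submodule.add_mem _ hv.1.1 ((Submodule.span_singleton_le_iff_mem _ _).2
      (h.toHyp.x_mem_N f) hu), fun c => hv.1.2 ((Submodule.add_mem_iff_left _ hu).1 c)⟩,
      h.S_add f.x0 hv.1.2 hu hv.2⟩
  have d2 := dvd_ncard (MM Γ B x φ) {v | v ∈ Hy B φ ∧ v ∉ MM Γ B x φ} fun v hv u hu =>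
    ⟨Submodule.add_mem _ hv.1 ((h.toHyp.M_lt f).le hu),
      fun c => hv.2 ((Submodule.add_mem_iff_left _ hu).1 c)⟩
  have d3 := mul_dvd_mul d2 d1
  rw [← hb, finrank_span_singleton f.x0, pow_one, show {v | v ∈ {v | v ∈ Hy B φ ∧ v ∉ MM Γ B x φ} ∧
    v ∈ SX F Γ x y} = {v | v ∈ SX F Γ x y ∧ v ∉ SX F Γ x y ⊓ MM Γ B x φ} from Set.ext fun v =>
      ⟨fun a => ⟨a.2, fun c => a.1.2 c.2⟩, fun a => ⟨⟨SH hy hy' a.1, fun c => a.2 ⟨a.1, c⟩⟩, a.1⟩⟩]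
    at d3
  have c1 := ncard_diff_pt f.x0 (h.toHyp.x_mem_N f)
  have c2 := ncard_diff (inf_le_left : SX F Γ x y ⊓ MM Γ B x φ ≤ _)
  have q1 := Fintype.one_lt_card (α := F)
  obtain ⟨s, hs⟩ : ∃ s, s + 1 = Fintype.card F ^ ν :=
    ⟨_, Nat.succ_pred_eq_of_pos (by positivity)⟩
  rw [h.dN f, pow_succ, ← hs, add_mul, one_mul, add_left_inj] at c1
  rw [c1, mul_right_comm] at d3
  have := pow_dvd_aux q1 c2 (Submodule.finrank_lt_finrank_of_lt (inf_lt_left.2 hn)) h.ν1 hs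
    (Nat.dvd_of_mul_dvd_mul_right (by omega) d3)
  exact inf_eq_right.1 (Submodule.eq_of_le_of_finrank_le inf_le_right this)

theorem NT.MS (h : NT Γ B ν μ) (hle : ν ≤ μ) (f : Fl B x φ) (hy : y ∈ NN Γ B x φ)
    (hy' : y ∉ F ∙ x) : MM Γ B x φ ≤ SX F Γ x y := (h.S_or f hy hy').resolve_left fun e => by
  have := Submodule.finrank_mono e
  have := h.dS f.x0 hy'
  have := h.dM f
  omega

theorem perp_anti {U U' : Submodule F W} (e : U ≤ U') : perp B U' ≤ perp B U :=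
  fun _ a => mem_perp.2 fun w b => mem_perp.1 a w (e b)

theorem NT.TN (h : NT Γ B ν μ) (hle : μ ≤ ν) (f : Fl B x φ) (hψ : ψ ∈ NN Γ B.flip φ x)
    (hψ' : ψ ∉ F ∙ φ) : TT Γ B φ ψ ≤ NN Γ B x φ := by
  have := perp_anti (B := B) (h.flip.MS hle f.flip hψ hψ')
  rwa [← LinearMap.flip_flip B] at this

theorem NT.NTl (h : NT Γ B ν μ) (hlt : ν < μ) (f : Fl B x φ) (hψ : ψ ∈ NN Γ B.flip φ x)
    (hψ' : ψ ∉ F ∙ φ) : NN Γ B x φ ≤ TT Γ B φ ψ := by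
  rcases h.flip.S_or f.flip hψ hψ' with e | e
  · have := perp_anti (B := B) e
    rwa [← LinearMap.flip_flip B] at this
  · have := perp_anti (B := B) e
    rw [← LinearMap.flip_flip B] at this
    exact (Submodule.eq_of_le_of_finrank_le (S₁ := TT Γ B φ ψ) (S₂ := NN Γ B x φ) this
      (by rw [h.dN f, h.dT f.f0 hψ']; omega)).ge

theorem NT.M_eq_of_NTl (h : NT Γ B ν μ) (NTl : ∀ {x φ ψ}, Fl B x φ → ψ ∈ NN Γ B.flip φ x →
      ψ ∉ F ∙ φ → NN Γ B x φ ≤ TT Γ B φ ψ) (f : Fl B x φ) (hy : y ∈ NN Γ B x φ) (h0 : y ≠ 0) :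
    MM Γ B y φ = MM Γ B x φ := by
  have fy := h.toHyp.Fl_N f hy h0
  refine Submodule.eq_of_le_of_finrank_le ?_ (by have := h.dM f; have := h.dM fy; omega)
  rw [← h.pre.perp_perp (MM Γ B x φ), ← NN_flip]
  refine fun v hv => mem_perp.2 fun ψ a => ?_
  by_cases c : ψ ∈ F ∙ φ
  · obtain ⟨b, rfl⟩ := Submodule.mem_span_singleton.1 c
    rw [map_smul, h.toHyp.M_inc fy hv, smul_zero]
  · exact mem_NN_flip.1 ((h.mem_T f.f0 c h0).1 (NTl f a c hy)).2 v hv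

end Cfsg.Agent.H5.CK
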