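import Cfsg.Agent.H5.CKc

/-! Cameron-Kantor, general dimension: the spread cases. -/

set_option autoImplicit false
set_option linter.unusedSectionVars false

namespace Cfsg.Agent.H5.CK

open Module

variable {F V W Γ : Type*} [Field F] [Fintype F] [AddCommGroup V] [Module F V] [Finite V]
  [AddCommGroup W] [Module F W] [Finite W] [Group Γ] [Finite Γ]
  [DistribMulAction Γ V] [SMulCommClass Γ F V] [DistribMulAction Γ W] [SMulCommClass Γ F W]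
  {B : V →ₗ[F] W →ₗ[F] F} {ν μ : ℕ} {x x' y z u v : V} {φ φ' ψ : W} {g : Γ}

theorem NT.exists_N (h : NT Γ B ν μ) (f : Fl B x φ) : ∃ y ∈ NN Γ B x φ, y ∉ F ∙ x :=
  H7.exists_mem_notMem_of_finrank_lt (by
    rw [finrank_span_singleton f.x0, h.dN f]; have := h.ν1; omega)

theorem Hyp.self_N' (h : Hyp Γ B) (f : Fl B x φ) : φ ∈ NN Γ B.flip φ x := h.flip.x_mem_N f.flip

theorem Hyp.Fl_N' (h : Hyp Γ B) (f : Fl B x φ) (a : ψ ∈ NN Γ B.flip φ x) (b : ψ ≠ 0) :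
    Fl B x ψ := ⟨f.x0, b, h.flip.N_inc f.flip a⟩

theorem Pre.bM (h : Pre Γ B) (hβ : Al Γ B.flip) (f : Fl B x φ) (a : ψ ∈ NN Γ B.flip φ x)
    (b : ψ ≠ 0) : MM Γ B x ψ = MM Γ B x φ := by
  rw [← h.perp_perp (MM Γ B x ψ), ← NN_flip, hβ φ x ψ f.flip a b, NN_flip, h.perp_perp]

theorem NT.N'_of (h : NT Γ B ν μ) (hle : ν ≤ μ) (f : Fl B x φ) (f' : Fl B x ψ) (hy : y ∉ F ∙ x)
    (a : y ∈ NN Γ B x φ) (a' : y ∈ NN Γ B x ψ) : ψ ∈ NN Γ B.flip φ x :=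
  mem_NN_flip.2 fun _ hv => (h.mem_S f.x0 hy).1 (h.MS hle f a hy hv) ψ f' a'

/-- the union of the `N x ψ` with a given `M x ψ` -/
def DD (Γ : Type*) [Group Γ] [Finite Γ] [DistribMulAction Γ V] [DistribMulAction Γ W]
    (B : V →ₗ[F] W →ₗ[F] F) (x : V) (φ : W) : Set V :=
  {z | ∃ ψ, Fl B x ψ ∧ z ∈ NN Γ B x ψ ∧ MM Γ B x ψ = MM Γ B x φ}

theorem N_sub_D (f : Fl B x φ) (a : z ∈ NN Γ B x φ) : z ∈ DD Γ B x φ := ⟨φ, f, a, rfl⟩

theorem DD_congr (e : MM Γ B x ψ = MM Γ B x φ) : DD Γ B x ψ = DD Γ B x φ := by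
  rw [DD, e, DD]

theorem Pre.DD_smul (h : Pre Γ B) (f : Fl B x φ) (e1 : g • x ∈ F ∙ x') (e2 : g • φ ∈ F ∙ φ')
    (a : z ∈ DD Γ B x φ) : g • z ∈ DD Γ B x' φ' := by
  obtain ⟨ψ, f', a, e⟩ := a
  have s := Submodule.mem_span_singleton_self (R := F) (g • ψ)
  refine ⟨g • ψ, h.Fl_of f' e1 s, h.NN_smul f' e1 s a, ?_⟩
  ext v
  rw [← smul_inv_smul g v, h.MM_iff f' e1 s, h.MM_iff f e1 e2, e]

theorem NT.DD_inc (h : NT Γ B ν μ) (f : Fl B x φ) (a : z ∈ DD Γ B x φ) : B z φ = 0 := by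
  obtain ⟨ψ, f', a, e⟩ := a
  exact h.toHyp.M_inc f (e ▸ h.NM f' a)

theorem NT.DD_N (h : NT Γ B ν μ) (hle : ν ≤ μ) (hβ : Al Γ B.flip) (f : Fl B x φ)
    (hy : y ∈ NN Γ B x φ) (h0 : y ≠ 0) : DD Γ B y φ = DD Γ B x φ := by
  suffices H : ∀ {x y}, Fl B x φ → y ∈ NN Γ B x φ → y ≠ 0 → DD Γ B x φ ⊆ DD Γ B y φ from
    (H (h.toHyp.Fl_N f hy h0) (h.toHyp.N_symm f hy h0) f.x0).antisymm (H f hy h0)
  intro x y f hy h0 z hz
  have fy := h.toHyp.Fl_N f hy h0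
  have hx := h.toHyp.N_symm f hy h0
  by_cases c : y ∈ F ∙ x
  · simpa using h.pre.DD_smul (g := 1) f (by simpa using span_symm h0 c) (by simp) hz
  by_cases d : z ∈ Submodule.span F {x, y}
  · refine N_sub_D fy (Submodule.span_le.2 ?_ d)
    rintro _ (rfl | rfl)
    exacts [hx, h.toHyp.x_mem_N fy]
  obtain ⟨g, g1, g2, g3⟩ := h.toHyp.swap3 f.x0 c d
  have s := Submodule.mem_span_singleton_self (R := F) (g • φ)
  have e1 : g • x ∈ F ∙ y := by simp [g1]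
  have f' := h.pre.Fl_of f e1 s
  have := h.pre.NN_smul f e1 s hy
  rw [g2, Submodule.neg_mem_iff] at this
  rw [← DD_congr (h.pre.bM hβ fy (h.N'_of hle fy f' (not_mem_span_symm f.x0 c) hx this) f'.f0),
    ← g3]
  exact h.pre.DD_smul f e1 s hz

theorem NT.DD_card (h : NT Γ B ν μ) (hle : ν ≤ μ) (hβ : Al Γ B.flip) (f : Fl B x φ) :
    {z | z ∈ DD Γ B x φ ∧ z ∉ F ∙ x}.ncard + Fintype.card F = Fintype.card F ^ (μ + 2) := by
  have q1 := Fintype.one_lt_card (α := F)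
  obtain ⟨s, hs⟩ : ∃ s, s + 1 = Fintype.card F ^ ν := ⟨_, Nat.succ_pred_eq_of_pos (by positivity)⟩
  have hb := dc_eq {z | z ∈ DD Γ B x φ ∧ z ∉ F ∙ x} {ψ | ψ ∈ NN Γ B.flip φ x ∧ ψ ≠ 0}
    (fun z ψ => z ∈ NN Γ B x ψ) s (s * Fintype.card F) (fun z hz => by
      have := ncard_ne (EE2 Γ B x z)
      rw [h.dE f.x0 hz.2, ← hs, add_left_inj] at this
      rw [← this]
      congr 1
      ext ψ
      refine ⟨fun a => ⟨h.E_of (h.toHyp.Fl_N' f a.1.1 a.1.2) a.2 hz.2, a.1.2⟩, fun a => ?_⟩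
      obtain ⟨χ, f', b, e⟩ := hz.1
      have c := (h.mem_E f.x0 hz.2 a.2).1 a.1
      have := h.N'_of hle f' ⟨f.x0, a.2, c.1⟩ hz.2 b c.2
      rw [NN_flip, e, ← NN_flip] at this
      exact ⟨⟨this, a.2⟩, c.2⟩) (fun ψ a => by
      have f' := h.toHyp.Fl_N' f a.1 a.2
      have := ncard_diff_pt f.x0 (h.toHyp.x_mem_N f')
      rw [h.dN f', pow_succ, ← hs, add_mul, one_mul, add_left_inj] at this
      rw [← this]
      congr 1
      ext z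
      exact ⟨fun b => ⟨b.2, b.1.2⟩, fun b => ⟨⟨⟨ψ, f', b.1, h.pre.bM hβ f a.1 a.2⟩, b.2⟩, b.1⟩⟩)
  have c := ncard_ne (NN Γ B.flip φ x)
  have s0 : 0 < s := by
    have : 1 < Fintype.card F ^ ν := Nat.one_lt_pow (by have := h.ν1; omega) q1
    omega
  rw [← mul_assoc, mul_right_comm] at hb
  rw [Nat.eq_of_mul_eq_mul_right s0 hb, pow_succ, ← h.dN' f, ← c]
  ring

theorem NT.D_not_T (h : NT Γ B ν μ) (hle : ν ≤ μ) (hβ : Al Γ B.flip) (f : Fl B x φ)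
    (H : ∀ u ∈ DD Γ B x φ, u ≠ 0 → ∀ ψ ∈ NN Γ B.flip φ x, ψ ≠ 0 → ψ ∈ NN Γ B.flip φ u) :
    False := by
  obtain ⟨ψ, a, b⟩ := h.flip.exists_N f.flip
  have c := h.DD_card hle hβ f
  have : {z | z ∈ DD Γ B x φ ∧ z ∉ F ∙ x}.ncard ≤ (TT Γ B φ ψ : Set V).ncard :=
    Set.ncard_le_ncard fun u hu => (h.mem_T f.f0 b (ne_zero_of_not_mem hu.2)).2
      ⟨h.DD_inc f hu.1, H u hu.1 (ne_zero_of_not_mem hu.2) ψ a (ne_zero_of_not_mem b)⟩
  rw [ncard_sub, h.dT f.f0 b] at this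
  have q1 := Fintype.one_lt_card (α := F)
  have : Fintype.card F ^ 1 ≤ Fintype.card F ^ μ := Nat.pow_le_pow_right (by omega) h.μ1
  have : Fintype.card F ^ μ * 2 ^ 2 ≤ Fintype.card F ^ μ * Fintype.card F ^ 2 :=
    Nat.mul_le_mul_left _ (Nat.pow_le_pow_left q1 2)
  rw [pow_add] at c
  rw [pow_one] at *
  omega

theorem NT.DN_card (h : NT Γ B ν ν) (hβ : Al Γ B.flip) (f : Fl B x φ) :
    {z | z ∈ DD Γ B x φ ∧ z ∉ NN Γ B x φ}.ncard + Fintype.card F ^ (ν + 1) =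
      Fintype.card F ^ (ν + 1 + 1) := by
  have c1 := h.DD_card le_rfl hβ f
  have c2 := ncard_diff_pt f.x0 (h.toHyp.x_mem_N f)
  have s := (Submodule.span_singleton_le_iff_mem _ _).2 (h.toHyp.x_mem_N f)
  rw [← h.dN f, ← c2, h.dN f, ← c1, ← add_assoc, ← Set.ncard_union_eq
    (Set.disjoint_left.2 fun z a b => a.2 b.1)]
  congr 2
  ext z
  refine ⟨fun a => a.elim (fun b => ⟨b.1, fun c => b.2 (s c)⟩) fun b => ⟨N_sub_D f b.1, b.2⟩,
    fun a => ?_⟩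
  by_cases c : z ∈ NN Γ B x φ
  exacts [Or.inr ⟨c, a.2⟩, Or.inl ⟨a.1, c⟩]

theorem NT.DD_comp (h : NT Γ B ν ν) (hβ : Al Γ B.flip) (hα : ¬ Al Γ B) (f : Fl B x φ)
    (hu : u ∈ DD Γ B x φ) (h0 : u ≠ 0) : DD Γ B u φ = DD Γ B x φ := by
  by_cases c : u ∈ NN Γ B x φ
  · exact h.DD_N le_rfl hβ f c h0
  obtain ⟨y, y1, y2⟩ := h.exists_N f
  have fy := h.toHyp.Fl_N f y1 (ne_zero_of_not_mem y2)
  obtain ⟨z, z1, z2⟩ := SetLike.not_le_iff_exists.1 fun e => hα (h.toHyp.al_of f y1 y2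
    (Submodule.eq_of_le_of_finrank_le e (by rw [h.dN f, h.dN fy])))
  have ey := h.DD_N le_rfl hβ f y1 fy.x0
  have key : ∀ v, v ∈ NN Γ B x φ ⊔ (F ∙ z) → v ∉ NN Γ B x φ →
      v ∈ DD Γ B x φ ∧ DD Γ B v φ = DD Γ B x φ := fun v a b => by
    obtain ⟨n, hn, t, rfl⟩ := H7.mem_sup_span_iff.1 a
    have b' : t • z ∉ NN Γ B x φ := fun e => b (Submodule.add_mem _ hn e)
    have t1 := Submodule.smul_mem _ t z1
    have t0 := ne_zero_of_not_mem b'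
    have ft := h.toHyp.Fl_N fy t1 t0
    have et := (h.DD_N le_rfl hβ fy t1 t0).trans ey
    obtain ⟨g, hg, e⟩ := h.toHyp.N_cone f b' hn
    have g1 := mem_SS_span_iff.1 hg.1
    have g2 := mem_SS_span_iff.1 hg.2
    have s := Submodule.mem_span_singleton_self (R := F) (g • t • z)
    rw [add_comm, ← e]
    refine ⟨h.pre.DD_smul f g1 g2 (ey ▸ N_sub_D fy t1), Set.Subset.antisymm (fun w hw => ?_)
      fun w hw => ?_⟩
    · have := h.pre.DD_smul (h.pre.Fl_of ft s g2) (smul_mem_span_inv t0 s)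
        (smul_mem_span_inv f.f0 g2) hw
      have := h.pre.DD_smul f g1 g2 (et ▸ this)
      rwa [smul_inv_smul] at this
    · have := h.pre.DD_smul f (smul_mem_span_inv f.x0 g1) (smul_mem_span_inv f.f0 g2) hw
      have := h.pre.DD_smul ft s g2 (et ▸ this)
      rwa [smul_inv_smul] at this
  have c1 := h.DN_card hβ f
  have c2 := ncard_diff (le_sup_left : NN Γ B x φ ≤ NN Γ B x φ ⊔ (F ∙ z))
  have d1 := H7.finrank_sup_span_le (NN Γ B x φ) z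
  have d2 := Submodule.finrank_lt_finrank_of_lt (left_lt_sup.2 fun e =>
    z2 ((Submodule.span_singleton_le_iff_mem _ _).1 e) : NN Γ B x φ < NN Γ B x φ ⊔ (F ∙ z))
  rw [le_antisymm d1 d2, h.dN f, ← c1, add_left_inj] at c2
  have := Set.eq_of_subset_of_ncard_le (s := {v | v ∈ NN Γ B x φ ⊔ (F ∙ z) ∧ v ∉ NN Γ B x φ})
    (t := {z | z ∈ DD Γ B x φ ∧ z ∉ NN Γ B x φ}) (fun v a => ⟨(key v a.1 a.2).1, a.2⟩) c2.ge
  have : u ∈ {v | v ∈ NN Γ B x φ ⊔ (F ∙ z) ∧ v ∉ NN Γ B x φ} := this ▸ ⟨hu, c⟩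
  exact (key u this.1 c).2

/-- step D -/
theorem NT.not_beta (h : NT Γ B ν μ) (hle : ν ≤ μ) : ¬ Al Γ B.flip := fun hβ => by
  obtain ⟨x, φ, f⟩ := h.toHyp.exists_Fl
  rcases hle.lt_or_eq with hlt | rfl
  · refine h.D_not_T hle hβ f fun u ⟨χ, f', a, e⟩ h0 ψ b _ => ?_
    have e1 := (h.M_eq_of_NTl (h.NTl hlt) f' a h0).trans e
    have := h.pre.bM hβ (h.toHyp.Fl_N f' a h0) (ψ := φ)
      (mem_NN_flip.2 fun v hv => h.toHyp.M_inc f (e1 ▸ hv)) f.f0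
    rwa [NN_flip, this, e1, ← NN_flip]
  by_cases hα : Al Γ B
  · refine h.cls_false (fun x => {z | z ∈ DD Γ B x φ ∧ z ∉ NN Γ B x φ}) (fun g hg x f z a => ?_)
      (fun x f z a => ⟨ne_zero_of_not_mem a.2, f.f0, h.DD_inc f a.1⟩)
      (fun x y f a b => by rw [h.DD_N le_rfl hβ f a b, hα x φ y f a b]) f (h.DN_card hβ f)
    have s := Submodule.mem_span_singleton_self (R := F) (g • x)
    have g2 := mem_SS_span_iff.1 hg
    exact ⟨h.pre.DD_smul f s g2 a.1, fun c => a.2 ((h.pre.NN_iff f s g2).1 c)⟩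
  refine h.D_not_T hle hβ f fun u hu h0 ψ a b => ?_
  have f' := h.toHyp.Fl_N' f a b
  have e := DD_congr (h.pre.bM hβ f a b)
  have fu : Fl B u ψ := ⟨h0, b, h.DD_inc f' (e ▸ hu)⟩
  obtain ⟨y, y1, y2⟩ := h.exists_N fu
  have := N_sub_D fu y1
  rw [h.DD_comp hβ hα f' (e ▸ hu) h0, e, ← h.DD_comp hβ hα f hu h0] at this
  obtain ⟨χ, fχ, c, e'⟩ := this
  rw [NN_flip, ← e', ← NN_flip]
  exact h.N'_of hle fχ fu y2 c y1

theorem NT.al_one (h : NT Γ B 1 μ) : Al Γ B := by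
  obtain ⟨x, φ, f⟩ := h.toHyp.exists_Fl
  obtain ⟨y, y1, y2⟩ := h.exists_N f
  have fy := h.toHyp.Fl_N f y1 (ne_zero_of_not_mem y2)
  exact h.toHyp.al_of f y1 y2 (Submodule.eq_of_le_of_finrank_le (span_two_le (h.dN fy) f.x0 y2
    (h.toHyp.N_symm f y1 fy.x0) (h.toHyp.x_mem_N fy) (h.toHyp.x_mem_N f) y1)
    (by rw [h.dN f, h.dN fy]))

theorem NT.al_three (h : NT Γ B ν ν) (h3 : 3 ≤ ν) : Al Γ B := by
  obtain ⟨x, φ, f⟩ := h.toHyp.exists_Fl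
  obtain ⟨y, y1, y2⟩ := h.exists_N f
  have fy := h.toHyp.Fl_N f y1 (ne_zero_of_not_mem y2)
  refine h.toHyp.al_of f y1 y2 (Submodule.eq_of_le_of_finrank_le (fun w hw => ?_)
    (by rw [h.dN f, h.dN fy])).symm
  obtain ⟨ψ, a, b⟩ := h.flip.exists_N f.flip
  have le := h.TN le_rfl f a b
  have dT := h.dT f.f0 b
  have dN := h.dN f
  have sep : ∀ U : Submodule F V, x ∈ U → finrank F U ≤ ν → ∃ χ, χ ∈ Hy B.flip x ∧
      χ ∉ MM Γ B.flip φ x ∧ ∀ u ∈ U, B u χ = 0 := fun U a b => by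
    obtain ⟨v, v1, v2⟩ := H7.exists_mem_notMem_of_finrank_lt (U := NN Γ B x φ) (W := U) (by omega)
    obtain ⟨χ, c1, c2⟩ := h.pre.exists_sep v2
    exact ⟨χ, c2 x a, fun e => by simpa [c1] using mem_perp.1 v1 χ e, c2⟩
  obtain ⟨χ, c1, c2, c3⟩ := sep (TT Γ B φ ψ) ((h.mem_T f.f0 b f.x0).2 ⟨f.inc, a⟩) dT.le
  obtain ⟨χ', d1, d2, d3⟩ := sep (((F ∙ x) ⊔ (F ∙ y)) ⊔ (F ∙ w))
    (Submodule.mem_sup_left (Submodule.mem_sup_left (Submodule.mem_span_singleton_self x))) (by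
      have := H7.finrank_sup_span_le ((F ∙ x) ⊔ (F ∙ y)) w
      have := H7.finrank_sup_span_le (F ∙ x) y
      have := H7.finrank_span_singleton_le (F := F) x
      omega)
  obtain ⟨g, hg, e⟩ := h.toHyp.four1 f χ c1 χ' d1 c2 d2
  have eT : TT Γ B φ ψ = NN Γ B x φ ⊓ Hy B χ :=
    Submodule.eq_of_le_of_finrank_le (le_inf le c3) (by
      have := Submodule.finrank_lt_finrank_of_lt (inf_lt_left.2 fun (e : NN Γ B x φ ≤ Hy B χ) =>
        c2 (h.pre.flip.perp_perp (MM Γ B.flip φ x) ▸ mem_perp.2 e))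
      omega)
  have m : ∀ v ∈ NN Γ B x φ, B v χ' = 0 → g⁻¹ • v ∈ TT Γ B φ ψ := fun v a b =>
    eT ▸ ⟨h.pre.NN_inv f (Subgroup.inv_mem _ hg) v a, by
      rw [SetLike.mem_coe, mem_Hy, ← h.pre.inv_right, e, b]⟩
  have my := m y y1 (d3 y (Submodule.mem_sup_left (Submodule.mem_sup_right
    (Submodule.mem_span_singleton_self y))))
  have := (h.mem_T f.f0 b (smul_ne fy.x0)).1 my
  have f' : Fl B (g⁻¹ • y) φ := ⟨smul_ne fy.x0, f.f0, this.1⟩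
  simpa using h.pre.NN_smul f' (x' := y) (by simp) (mem_SS_span_iff.1 hg.2) (h.TN le_rfl f' this.2 b
    (m w hw (d3 w (Submodule.mem_sup_right (Submodule.mem_span_singleton_self w)))))

theorem NT.not_one_two (h : NT Γ B 1 2) : False := by
  obtain ⟨x, φ, f⟩ := h.toHyp.exists_Fl
  obtain ⟨y, y1, y2⟩ := h.exists_N f
  obtain ⟨ψ, a, b⟩ := h.flip.exists_N f.flip
  have y0 := ne_zero_of_not_mem y2
  have f' := h.toHyp.Fl_N' f a (ne_zero_of_not_mem b)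
  have b' := not_mem_span_symm f.f0 b
  have t := (h.mem_T f.f0 b y0).1 (h.NTl one_lt_two f a b y1)
  have fy : Fl B y φ := ⟨y0, f.f0, t.1⟩
  have t' := (h.mem_T f'.f0 b' y0).2 ⟨(h.toHyp.Fl_N' fy t.2 f'.f0).inc,
    h.toHyp.flip.N_symm fy.flip t.2 f'.f0⟩
  rw [← Submodule.eq_of_le_of_finrank_le (h.NTl one_lt_two f'
    (h.toHyp.flip.N_symm f.flip a f'.f0) b') (by rw [h.dN f', h.dT f'.f0 b'])] at t'
  refine b ?_
  rw [Submodule.eq_of_le_of_finrank_le ((Submodule.span_singleton_le_iff_mem _ _).2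
    (h.E_of f y1 y2)) (by rw [h.dE f.x0 y2, finrank_span_singleton f.f0])]
  exact h.E_of f' t' y2

/-- the structure theorem, given the three remaining packages -/
theorem NT.struct_of (h : NT Γ B ν μ) (hle : ν ≤ μ) {P : Prop}
    (fg : Al Γ B.flip ∨ μ = 2 ∨ Cl Γ B.flip μ) (hE : ν < μ → Cl Γ B.flip μ → P)
    (r3 : NT Γ B 2 2 → ¬ Al Γ B → ¬ Al Γ B.flip → False) : P := by
  rcases hle.lt_or_eq with hlt | rfl
  · rcases fg with a | rfl | a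
    · exact absurd a (h.not_beta hle)
    · obtain rfl : ν = 1 := by have := h.ν1; omega
      exact h.not_one_two.elim
    · exact hE hlt a
  have hα : ¬ Al Γ B := by simpa using h.flip.not_beta le_rfl
  have := h.ν1
  rcases (by omega : ν = 1 ∨ ν = 2 ∨ 3 ≤ ν) with rfl | rfl | h3
  · exact absurd h.al_one hα
  · exact (r3 h hα (h.not_beta le_rfl)).elim
  · exact absurd (h.al_three h3) hα

end Cfsg.Agent.H5.CK
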