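import Cfsg.Agent.H5.CKd

/-! Cameron-Kantor, general dimension: the polygon case, closure of the balls of radius two. -/

set_option autoImplicit false
set_option linter.unusedSectionVars false

namespace Cfsg.Agent.H5.CK

open Module

variable {F V W Γ : Type*} [Field F] [Fintype F] [AddCommGroup V] [Module F V] [Finite V]
  [AddCommGroup W] [Module F W] [Finite W] [Group Γ] [Finite Γ]
  [DistribMulAction Γ V] [SMulCommClass Γ F V] [DistribMulAction Γ W] [SMulCommClass Γ F W]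
  {B : V →ₗ[F] W →ₗ[F] F} {x x' y y' z u v w : V} {φ φ' ψ : W} {g : Γ}

theorem pair_le {U : Submodule F V} (a : x ∈ U) (b : y ∈ U) : Submodule.span F {x, y} ≤ U :=
  Submodule.span_le.2 (by rintro _ (rfl | rfl); exacts [a, b])

theorem left_mem_pair : x ∈ Submodule.span F {x, y} := Submodule.subset_span (by simp)

theorem right_mem_pair : y ∈ Submodule.span F {x, y} := Submodule.subset_span (by simp)

theorem pt_le {U : Submodule F V} (a : x ∈ U) : (F ∙ x) ≤ U :=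
  (Submodule.span_singleton_le_iff_mem _ _).2 a

theorem finrank_pair (hx : x ≠ 0) (hy : y ∉ F ∙ x) : finrank F (Submodule.span F {x, y}) = 2 := by
  have h1 := Submodule.finrank_lt_finrank_of_lt (lt_of_le_of_ne (pt_le left_mem_pair)
    fun e => hy (e ▸ right_mem_pair) : (F ∙ x) < Submodule.span F {x, y})
  have h2 := H7.finrank_sup_span_le (F ∙ x) y
  rw [← Submodule.span_insert, finrank_span_singleton hx] at h2
  rw [finrank_span_singleton hx] at h1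
  omega

theorem span_three_le {L U : Submodule F V} (hL : finrank F L = 3) (hx : x ≠ 0) (hy : y ∉ F ∙ x)
    (hz : z ∉ Submodule.span F {x, y}) (xL : x ∈ L) (yL : y ∈ L) (zL : z ∈ L) (xU : x ∈ U)
    (yU : y ∈ U) (zU : z ∈ U) : L ≤ U := by
  have h1 := Submodule.finrank_lt_finrank_of_lt (lt_of_le_of_ne (pair_le ⟨xL, xU⟩ ⟨yL, yU⟩)
    fun e => hz (e ▸ ⟨zL, zU⟩) : Submodule.span F {x, y} < L ⊓ U)
  rw [finrank_pair hx hy] at h1
  exact inf_eq_left.1 (Submodule.eq_of_le_of_finrank_le inf_le_left (by omega))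

theorem pair_eq (hx : x ≠ 0) (hy : y ∉ F ∙ x) (hu : u ≠ 0) (hv : v ∉ F ∙ u)
    (a : u ∈ Submodule.span F {x, y}) (b : v ∈ Submodule.span F {x, y}) :
    Submodule.span F {u, v} = Submodule.span F {x, y} :=
  Submodule.eq_of_le_of_finrank_le (pair_le a b) (by rw [finrank_pair hx hy, finrank_pair hu hv])

/-- adjacency in the geometry at `x` -/
def Ad (Γ : Type*) [Group Γ] [Finite Γ] [DistribMulAction Γ V] [DistribMulAction Γ W]
    (B : V →ₗ[F] W →ₗ[F] F) (x y z : V) : Prop :=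
  ∃ φ, Fl B x φ ∧ y ∈ NN Γ B x φ ∧ z ∈ NN Γ B x φ

/-- the ball of radius two -/
def Ba (Γ : Type*) [Group Γ] [Finite Γ] [DistribMulAction Γ V] [DistribMulAction Γ W]
    (B : V →ₗ[F] W →ₗ[F] F) (x y : V) : Set V :=
  {z | ∃ u, u ∉ F ∙ x ∧ Ad Γ B x y u ∧ Ad Γ B x u z}

/-- the union of the solids on the lines of a plane -/
def ZZ (Γ : Type*) [Group Γ] [Finite Γ] [DistribMulAction Γ V] [DistribMulAction Γ W]
    (B : V →ₗ[F] W →ₗ[F] F) (P : Submodule F V) : Set V :=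
  {z | ∃ u ∈ P, ∃ v ∈ P, u ≠ 0 ∧ v ∉ F ∙ u ∧ Ad Γ B u v z}

theorem Pre.Ad_smul (h : Pre Γ B) (g : Γ) (a : Ad Γ B x y z) : Ad Γ B (g • x) (g • y) (g • z) := by
  obtain ⟨φ, f, a, b⟩ := a
  have s := Submodule.mem_span_singleton_self (R := F) (g • φ)
  have t := Submodule.mem_span_singleton_self (R := F) (g • x)
  exact ⟨g • φ, f.smul h g, h.NN_smul f t s a, h.NN_smul f t s b⟩

theorem Pre.Ba_smul (h : Pre Γ B) (g : Γ) (x y z : V) (a : z ∈ Ba Γ B x y) :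
    g • z ∈ Ba Γ B (g • x) (g • y) := by
  obtain ⟨u, a, b, c⟩ := a
  obtain ⟨_, f, _⟩ := id b
  exact ⟨g • u, fun e => a ((span_smul_iff f.x0 (Submodule.mem_span_singleton_self _)).1 e),
    h.Ad_smul g b, h.Ad_smul g c⟩

theorem NT.plane (h : NT Γ B 2 2) (f : Fl B x φ) (a : u ∈ NN Γ B x φ) (hu : u ≠ 0) :
    ∃ ψ, Fl B u ψ ∧ NN Γ B u ψ = NN Γ B x φ := by
  by_cases c : u ∈ F ∙ x
  · exact ⟨φ, h.toHyp.Fl_N f a hu, h.pre.NN_congr (h.toHyp.Fl_N f a hu) c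
      (Submodule.mem_span_singleton_self _)⟩
  obtain ⟨w, w1, w2⟩ := H7.exists_mem_notMem_of_finrank_lt (U := NN Γ B x φ)
    (W := Submodule.span F {x, u}) (by rw [finrank_pair f.x0 c, h.dN f]; omega)
  obtain ⟨g, g1, g2, g3⟩ := h.toHyp.swap3 f.x0 c w2
  have s := Submodule.mem_span_singleton_self (R := F) (g • φ)
  have e1 : g • x ∈ F ∙ u := by simp [g1]
  have f' := h.pre.Fl_of f e1 s
  have b := h.pre.NN_smul f e1 s a
  rw [g2, Submodule.neg_mem_iff] at b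
  exact ⟨g • φ, f', (Submodule.eq_of_le_of_finrank_le (span_three_le (h.dN f) f.x0 c w2
    (h.toHyp.x_mem_N f) a w1 b (h.toHyp.x_mem_N f') (g3 ▸ h.pre.NN_smul f e1 s w1))
    (by rw [h.dN f, h.dN f'])).symm⟩

theorem NT.Ad_of (h : NT Γ B 2 2) (f : Fl B x φ) (a : u ∈ NN Γ B x φ) (hu : u ≠ 0)
    (b : v ∈ NN Γ B x φ) (c : w ∈ NN Γ B x φ) : Ad Γ B u v w := by
  obtain ⟨ψ, f', e⟩ := h.plane f a hu
  exact ⟨ψ, f', e ▸ b, e ▸ c⟩

theorem NT.Ad_line (h : NT Γ B 2 2) (a : Ad Γ B x y z) (b : u ∈ Submodule.span F {x, y})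
    (hu : u ≠ 0) (c : v ∈ Submodule.span F {x, y}) : Ad Γ B u v z := by
  obtain ⟨φ, f, a, a'⟩ := a
  have := pair_le (h.toHyp.x_mem_N f) a
  exact h.Ad_of f (this b) hu (this c) a'

theorem NT.exists_E (h : NT Γ B 2 2) (hx : x ≠ 0) (hy : y ∉ F ∙ x) :
    ∃ φ, Fl B x φ ∧ y ∈ NN Γ B x φ := by
  obtain ⟨φ, a, b⟩ := H7.exists_mem_notMem_of_finrank_lt (U := EE2 Γ B x y) (W := ⊥)
    (by rw [h.dE hx hy]; simp)
  have := (h.mem_E hx hy (ne_zero_of_not_mem b)).1 a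
  exact ⟨φ, ⟨hx, ne_zero_of_not_mem b, this.1⟩, this.2⟩

theorem NT.N_inj (h : NT Γ B 2 2) (f : Fl B x φ) (f' : Fl B x ψ)
    (e : NN Γ B x φ ≤ NN Γ B x ψ) : ψ ∈ F ∙ φ := by
  by_contra c
  obtain ⟨y, y1, y2⟩ := h.exists_N f
  have : NN Γ B x φ ≤ TT Γ B φ ψ := fun u a => by
    by_cases d : u ∈ F ∙ x
    · exact pt_le ((h.mem_T f.f0 c f.x0).2 ⟨f.inc, h.N'_of le_rfl f f' y2 y1 (e y1)⟩) d
    have u0 := ne_zero_of_not_mem d
    exact (h.mem_T f.f0 c u0).2 ⟨h.toHyp.N_inc f a, h.N'_of le_rfl (h.toHyp.Fl_N f a u0)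
      (h.toHyp.Fl_N f' (e a) u0) (not_mem_span_symm f.x0 d) (h.toHyp.N_symm f a u0)
      (h.toHyp.N_symm f' (e a) u0)⟩
  have := Submodule.finrank_mono this
  rw [h.dN f, h.dT f.f0 c] at this
  omega

theorem NT.U_card' (h : NT Γ B 2 2) (hx : x ≠ 0) (hy : y ∉ F ∙ x) :
    {z | Ad Γ B x y z ∧ z ∉ Submodule.span F {x, y}}.ncard + Fintype.card F ^ 2 =
      Fintype.card F ^ 4 := by
  have q1 := Fintype.one_lt_card (α := F)
  obtain ⟨p, hp⟩ : ∃ p, Fintype.card F = p + 1 := ⟨_, (Nat.succ_pred_eq_of_pos (by omega)).symm⟩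
  have hb := dc_eq {φ | φ ∈ EE2 Γ B x y ∧ φ ≠ 0}
    {z | Ad Γ B x y z ∧ z ∉ Submodule.span F {x, y}} (fun φ z => z ∈ NN Γ B x φ)
    ((p + 1) ^ 2 * p) p (fun φ a => by
      have c := (h.mem_E hx hy a.2).1 a.1
      have f : Fl B x φ := ⟨hx, a.2, c.1⟩
      have := ncard_diff (pair_le (h.toHyp.x_mem_N f) c.2)
      rw [h.dN f, finrank_pair hx hy, hp, pow_succ _ 2, mul_add, mul_one, add_left_inj] at this
      rw [← this]
      congr 1
      ext z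
      exact ⟨fun b => ⟨b.2, b.1.2⟩, fun b => ⟨⟨⟨φ, f, c.2, b.1⟩, b.2⟩, b.1⟩⟩) (fun z a => by
      obtain ⟨⟨φ, f, b, c⟩, d⟩ := a
      have := ncard_ne (F ∙ φ)
      rw [finrank_span_singleton f.f0, pow_one, hp, add_left_inj] at this
      rw [← this]
      congr 1
      ext ψ
      refine ⟨fun e => ⟨?_, e.1.2⟩, fun e => ?_⟩
      · have t := (h.mem_E hx hy e.1.2).1 e.1.1
        have f' : Fl B x ψ := ⟨hx, e.1.2, t.1⟩
        exact h.N_inj f f' (span_three_le (h.dN f) hx hy d (h.toHyp.x_mem_N f) b c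
          (h.toHyp.x_mem_N f') t.2 e.2)
      · refine ⟨⟨pt_le (h.E_of f b hy) e.1, e.2⟩, ?_⟩
        rwa [← h.pre.NN_congr f (Submodule.mem_span_singleton_self x) (span_symm e.2 e.1)])
  have c := ncard_ne (EE2 Γ B x y)
  rw [h.dE hx hy, hp] at c
  rw [← mul_assoc] at hb
  rw [← Nat.eq_of_mul_eq_mul_right (by omega) hb, hp, show 4 = 2 + 2 from rfl, pow_add]
  generalize (p + 1) ^ 2 = a at *
  rw [← c]
  ring

theorem NT.U_card (h : NT Γ B 2 2) (hx : x ≠ 0) (hy : y ∉ F ∙ x) :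
    {z | Ad Γ B x y z}.ncard = Fintype.card F ^ 4 := by
  obtain ⟨φ, f, a⟩ := h.exists_E hx hy
  rw [← h.U_card' hx hy, ← finrank_pair hx hy, ← ncard_sub]
  exact (Set.ncard_sdiff_add_ncard_of_subset (t := {z | Ad Γ B x y z})
    fun z b => ⟨φ, f, a, pair_le (h.toHyp.x_mem_N f) a b⟩).symm

theorem NT.UP_card (h : NT Γ B 2 2) (f : Fl B x φ) (a : u ∈ NN Γ B x φ) (hu : u ≠ 0)
    (b : v ∈ NN Γ B x φ) (hv : v ∉ F ∙ u) :
    {z | Ad Γ B u v z ∧ z ∉ NN Γ B x φ}.ncard + Fintype.card F ^ 3 = Fintype.card F ^ 4 := by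
  have d : finrank F (NN Γ B x φ) = 3 := h.dN f
  rw [← h.U_card hu hv, ← d, ← ncard_sub]
  exact Set.ncard_sdiff_add_ncard_of_subset (t := {z | Ad Γ B u v z})
    fun z c => h.Ad_of f a hu b c

theorem NT.notri (h : NT Γ B 2 2) (hβ : ¬ Al Γ B.flip) (f : Fl B x φ) (a : y ∈ NN Γ B x φ)
    (a' : y' ∈ NN Γ B x φ) (hy : y ∉ F ∙ x) (hy' : y' ∉ Submodule.span F {x, y})
    (b : Ad Γ B x y z) (b' : Ad Γ B x y' z) : z ∈ NN Γ B x φ := by
  by_contra hz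
  obtain ⟨ψ, f2, b1, b2⟩ := b
  obtain ⟨χ, f3, c1, c2⟩ := b'
  have xN := h.toHyp.x_mem_N f
  have n2 : ψ ∉ F ∙ φ := fun e =>
    hz (h.pre.NN_congr f2 (Submodule.mem_span_singleton_self x) e ▸ b2)
  have n3 : χ ∉ Submodule.span F {φ, ψ} := fun e => hz (by
    have := ((h.mem_E f.x0 hy f3.f0).1 (pair_le (h.E_of f a hy) (h.E_of f2 b1 hy) e)).2
    rwa [Submodule.eq_of_le_of_finrank_le (span_three_le (h.dN f) f.x0 hy hy' xN a a'
      (h.toHyp.x_mem_N f3) this c1) (by rw [h.dN f, h.dN f3])])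
  have m2 := h.N'_of le_rfl f f2 hy a b1
  refine hβ (h.toHyp.flip.al_of f.flip m2 n2 (Submodule.eq_of_le_of_finrank_le
    (span_three_le (h.dN' f) f.f0 n2 n3 (h.toHyp.self_N' f) m2
      (h.N'_of le_rfl f f3 (fun e => hy' (pt_le left_mem_pair e)) a' c1)
      (h.N'_of le_rfl f2 f hy b1 a) (h.toHyp.self_N' f2)
      (h.N'_of le_rfl f2 f3 (fun e => hz (pt_le xN e)) b2 c2)) (by rw [h.dN' f, h.dN' f2])).symm)

theorem NT.U_sub_Ba (hy : y ∉ F ∙ x) (a : Ad Γ B x y z) : z ∈ Ba Γ B x y := by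
  obtain ⟨φ, f, b, c⟩ := id a
  exact ⟨y, hy, ⟨φ, f, b, b⟩, a⟩

theorem NT.Ba_le (h : NT Γ B 2 2) (hx : x ≠ 0) (hy : y ∉ F ∙ x) :
    (Ba Γ B x y).ncard ≤ Fintype.card F ^ 6 := by
  have q1 := Fintype.one_lt_card (α := F)
  obtain ⟨p, hp⟩ : ∃ p, Fintype.card F = p + 1 := ⟨_, (Nat.succ_pred_eq_of_pos (by omega)).symm⟩
  have hb := dc_le {z | z ∈ Ba Γ B x y ∧ ¬ Ad Γ B x y z}
    {u | Ad Γ B x y u ∧ u ∉ Submodule.span F {x, y}} (fun z u => Ad Γ B x u z)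
    ((p + 1) * p) ((p + 1) ^ 3 * p) (fun z a => by
      obtain ⟨⟨u, b, ⟨φ, f, c, c'⟩, d⟩, e⟩ := a
      have := ncard_diff_pt hx (left_mem_pair (F := F) (y := u))
      rw [finrank_pair hx b, hp, sq, mul_add, mul_one, add_left_inj] at this
      rw [← this]
      refine Set.ncard_le_ncard fun v k => ⟨⟨⟨φ, f, c, pair_le (h.toHyp.x_mem_N f) c' k.1⟩,
        fun m => e (h.Ad_line d left_mem_pair hx ?_)⟩, h.Ad_line d left_mem_pair hx k.1⟩
      rw [← pair_eq hx b hx k.2 left_mem_pair k.1, pair_eq hx hy hx k.2 left_mem_pair m]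
      exact right_mem_pair) (fun u a => by
      obtain ⟨⟨φ, f, c, c'⟩, d⟩ := a
      have := h.UP_card f (h.toHyp.x_mem_N f) hx c' fun e => d (pt_le left_mem_pair e)
      rw [hp, pow_succ _ 3, mul_add, mul_one, add_left_inj] at this
      rw [← this]
      exact Set.ncard_le_ncard fun z k => ⟨k.2, fun m => k.1.2 ⟨φ, f, c, m⟩⟩)
  have c1 := h.U_card' hx hy
  have c2 := h.U_card hx hy
  have c3 := Set.ncard_sdiff_add_ncard_of_subset (s := {z | Ad Γ B x y z}) (t := Ba Γ B x y)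
    fun z => NT.U_sub_Ba hy
  rw [← c3, c2, hp]
  rw [hp] at c1
  have e : (Ba Γ B x y \ {z | Ad Γ B x y z}) = {z | z ∈ Ba Γ B x y ∧ ¬ Ad Γ B x y z} := rfl
  rw [e]
  generalize {z | z ∈ Ba Γ B x y ∧ ¬ Ad Γ B x y z}.ncard = a at *
  generalize {u | Ad Γ B x y u ∧ u ∉ Submodule.span F {x, y}}.ncard = c at *
  have : a ≤ c * (p + 1) ^ 2 := Nat.le_of_mul_le_mul_right (c := (p + 1) * p)
    (hb.trans_eq (by ring)) (by have : 0 < p := by omega
                                positivity)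
  calc a + (p + 1) ^ 4 ≤ c * (p + 1) ^ 2 + (p + 1) ^ 4 := by omega
    _ = (c + (p + 1) ^ 2) * (p + 1) ^ 2 := by ring
    _ = _ := by rw [c1]; ring

theorem exists_meet {P L L' : Submodule F V} (hP : finrank F P = 3) (hL : finrank F L = 2)
    (hL' : finrank F L' = 2) (a : L ≤ P) (b : L' ≤ P) : ∃ w, w ≠ 0 ∧ w ∈ L ∧ w ∈ L' := by
  have := Submodule.finrank_sup_add_finrank_inf_eq L L'
  have := Submodule.finrank_mono (sup_le a b)
  obtain ⟨w, c, d⟩ := H7.exists_mem_notMem_of_finrank_lt (U := L ⊓ L') (W := ⊥)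
    (by rw [finrank_bot]; omega)
  exact ⟨w, ne_zero_of_not_mem d, c.1, c.2⟩

theorem exists_other {L : Submodule F V} (hL : finrank F L = 2) (w : V) : ∃ a ∈ L, a ∉ F ∙ w :=
  H7.exists_mem_notMem_of_finrank_lt (by have := H7.finrank_span_singleton_le (F := F) w; omega)

theorem NT.le_ZZ (h : NT Γ B 2 2) (hβ : ¬ Al Γ B.flip) (f : Fl B x φ) :
    Fintype.card F ^ 6 ≤ (ZZ Γ B (NN Γ B x φ)).ncard := by
  have q1 := Fintype.one_lt_card (α := F)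
  obtain ⟨p, hp⟩ : ∃ p, Fintype.card F = p + 1 := ⟨_, (Nat.succ_pred_eq_of_pos (by omega)).symm⟩
  have dN := h.dN f
  have dP := h.pre.flip.finrank_perp (NN Γ B x φ)
  set m := finrank F (perp B.flip (NN Γ B x φ)) with hm
  have hb := dc_le {χ | χ ∈ (⊤ : Submodule F W) ∧ χ ∉ perp B.flip (NN Γ B x φ)}
    {z | z ∈ ZZ Γ B (NN Γ B x φ) ∧ z ∉ NN Γ B x φ}
    (fun χ z => ∃ u ∈ NN Γ B x φ ⊓ Hy B χ, ∃ v ∈ NN Γ B x φ ⊓ Hy B χ, u ≠ 0 ∧ v ∉ F ∙ u ∧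
      Ad Γ B u v z) ((p + 1) ^ 3 * p) ((p + 1) ^ m * p) (fun χ _ => by
      have d := H7.finrank_le_finrank_inf_ker (NN Γ B x φ) (B.flip χ)
      obtain ⟨u, u1, u2⟩ := H7.exists_mem_notMem_of_finrank_lt (U := NN Γ B x φ ⊓ Hy B χ) (W := ⊥)
        (by rw [finrank_bot, Hy]; omega)
      have u0 := ne_zero_of_not_mem u2
      obtain ⟨v, v1, v2⟩ := H7.exists_mem_notMem_of_finrank_lt (U := NN Γ B x φ ⊓ Hy B χ)
        (W := F ∙ u) (by rw [finrank_span_singleton u0, Hy]; omega)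
      have := h.UP_card f u1.1 u0 v1.1 v2
      rw [hp, pow_succ _ 3, mul_add, mul_one, add_left_inj] at this
      rw [← this]
      exact Set.ncard_le_ncard fun z k => ⟨⟨⟨u, u1.1, v, v1.1, u0, v2, k.1⟩, k.2⟩,
        u, u1, v, v1, u0, v2, k.1⟩) (fun z a => by
      obtain ⟨⟨u, u1, v, v1, u0, v2, b⟩, c⟩ := a
      have l := pair_le u1 v1
      have := ncard_diff (perp_anti (B := B.flip) l)
      have d := h.pre.flip.finrank_perp (Submodule.span F {u, v})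
      rw [finrank_pair u0 v2] at d
      rw [← hm, show finrank F (perp B.flip (Submodule.span F {u, v})) = m + 1 by omega, hp,
        pow_succ, mul_add, mul_one, add_left_inj] at this
      rw [← this]
      refine Set.ncard_le_ncard fun χ k => ⟨?_, k.1.2⟩
      obtain ⟨s, s1, t, t1, s0, t2, e⟩ := k.2
      obtain ⟨w, w0, w1, w2⟩ := exists_meet dN (finrank_pair u0 v2) (finrank_pair s0 t2) l
        (pair_le s1.1 t1.1)
      obtain ⟨a, a1, a2⟩ := exists_other (finrank_pair u0 v2) w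
      obtain ⟨a', a1', a2'⟩ := exists_other (finrank_pair s0 t2) w
      obtain ⟨ψ, fw, ew⟩ := h.plane f (l w1) w0
      by_cases k : a ∈ Submodule.span F {w, a'}
      · rw [← pair_eq u0 v2 w0 a2 w1 a1]
        refine perp_anti (B := B.flip) (pair_le (pair_le s1.2 t1.2 w2)
          (pair_le (pair_le s1.2 t1.2 w2) (pair_le s1.2 t1.2 a1') k)) (mem_perp.2 fun _ r => r)
      · exact absurd (ew ▸ h.notri hβ fw (ew ▸ pair_le s1.1 t1.1 a1') (ew ▸ l a1) a2' k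
          (h.Ad_line e w2 w0 a1') (h.Ad_line b w1 w0 a1)) c)
  have c1 := ncard_diff (le_top : perp B.flip (NN Γ B x φ) ≤ ⊤)
  obtain ⟨y, y1, y2⟩ := h.exists_N f
  have c3 := Set.ncard_sdiff_add_ncard_of_subset (s := (NN Γ B x φ : Set V))
    (t := ZZ Γ B (NN Γ B x φ)) fun z a => ⟨x, h.toHyp.x_mem_N f, y, y1, f.x0, y2, φ, f, y1, a⟩
  rw [← c3, ncard_sub, dN, hp]
  rw [← hm, finrank_top, ← dP, dN, hp] at c1
  have e : ZZ Γ B (NN Γ B x φ) \ NN Γ B x φ = {z | z ∈ ZZ Γ B (NN Γ B x φ) ∧ z ∉ NN Γ B x φ} := rfl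
  rw [e]
  generalize {z | z ∈ ZZ Γ B (NN Γ B x φ) ∧ z ∉ NN Γ B x φ}.ncard = a at *
  generalize {χ | χ ∈ (⊤ : Submodule F W) ∧ χ ∉ perp B.flip (NN Γ B x φ)}.ncard = c at *
  refine Nat.le_of_mul_le_mul_right (c := (p + 1) ^ m * p) ?_ (by have : 0 < p := by omega
                                                                  positivity)
  calc (p + 1) ^ 6 * ((p + 1) ^ m * p) = (p + 1) ^ (2 + 1 + m) * ((p + 1) ^ 3 * p) := by ring
    _ = c * ((p + 1) ^ 3 * p) + (p + 1) ^ 3 * ((p + 1) ^ m * p) := by rw [← c1]; ring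
    _ ≤ _ := by rw [add_mul]; exact Nat.add_le_add_right hb _

theorem NT.Ba_line (h : NT Γ B 2 2) (hx : x ≠ 0) (hy : y ∉ F ∙ x) (hu : u ≠ 0)
    (a : u ∈ Submodule.span F {x, y}) (b : v ∈ Submodule.span F {x, y}) :
    Ba Γ B x y ⊆ Ba Γ B u v := by
  have h1 : ∀ {x y u v : V}, u ≠ 0 → u ∈ F ∙ x → v ∈ Submodule.span F {x, y} →
      Ba Γ B x y ⊆ Ba Γ B u v := fun hu a b z ⟨w, c, d, e⟩ =>
    ⟨w, fun k => c (pt_le a k), h.Ad_line d (pt_le left_mem_pair a) hu b,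
      h.Ad_line e (pt_le left_mem_pair a) hu right_mem_pair⟩
  by_cases c : u ∈ F ∙ x
  · exact h1 hu c b
  have e := pair_eq hx hy hx c left_mem_pair a
  refine (h1 hx (Submodule.mem_span_singleton_self x) a).trans (Set.Subset.trans (fun z k => ?_)
    (h1 (y := -x) hu (Submodule.mem_span_singleton_self u) ?_))
  · by_cases d : z ∈ Submodule.span F {x, u}
    · obtain ⟨φ, f, m⟩ := h.exists_E hx c
      have xN := h.toHyp.x_mem_N f
      exact NT.U_sub_Ba (fun t => not_mem_span_symm hx c ((Submodule.neg_mem_iff _).1 t))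
        (h.Ad_of f m hu (Submodule.neg_mem _ xN) (pair_le xN m d))
    obtain ⟨g, g1, g2, g3⟩ := h.toHyp.swap3 hx c d
    have := h.pre.Ba_smul g _ _ _ k
    rwa [g1, g2, g3] at this
  · rw [← e] at b
    exact pair_le ((Submodule.neg_mem_iff _).1 right_mem_pair) left_mem_pair b

theorem NT.Ba_eq (h : NT Γ B 2 2) (hβ : ¬ Al Γ B.flip) (f : Fl B x φ) (a : y ∈ NN Γ B x φ)
    (hy : y ∉ F ∙ x) : ZZ Γ B (NN Γ B x φ) = Ba Γ B x y := by
  refine Set.eq_of_subset_of_ncard_le (fun z ⟨u, u1, v, v1, u0, v2, b⟩ => ?_)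
    ((h.Ba_le f.x0 hy).trans (h.le_ZZ hβ f))
  have l := pair_le (h.toHyp.x_mem_N f) a
  have l' := pair_le u1 v1
  obtain ⟨w, w0, w1, w2⟩ := exists_meet (h.dN f) (finrank_pair f.x0 hy) (finrank_pair u0 v2) l l'
  obtain ⟨s, s1, s2⟩ := exists_other (finrank_pair f.x0 hy) w
  obtain ⟨t, t1, t2⟩ := exists_other (finrank_pair u0 v2) w
  have e := pair_eq f.x0 hy w0 s2 w1 s1
  exact h.Ba_line w0 s2 f.x0 (e ▸ left_mem_pair) (e ▸ right_mem_pair)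
    ⟨t, t2, h.Ad_of f (l w1) w0 (l s1) (l' t1), h.Ad_line b w2 w0 t1⟩

theorem NT.Ba_card (h : NT Γ B 2 2) (hβ : ¬ Al Γ B.flip) (hx : x ≠ 0) (hy : y ∉ F ∙ x) :
    (Ba Γ B x y).ncard = Fintype.card F ^ 6 := by
  obtain ⟨φ, f, a⟩ := h.exists_E hx hy
  exact le_antisymm (h.Ba_le hx hy) (h.Ba_eq hβ f a hy ▸ h.le_ZZ hβ f)

theorem NT.Ba_con (h : NT Γ B 2 2) (hβ : ¬ Al Γ B.flip) (f : Fl B x φ) (a : y ∈ NN Γ B x φ)
    (hy : y ∉ F ∙ x) (b : u ∈ NN Γ B x φ) (hu : u ≠ 0) (c : v ∈ NN Γ B x φ) (hv : v ∉ F ∙ u) :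
    Ba Γ B u v = Ba Γ B x y := by
  obtain ⟨ψ, f', e⟩ := h.plane f b hu
  rw [← h.Ba_eq hβ f a hy, ← e, h.Ba_eq hβ f' (e ▸ c) hv]

theorem NT.Ba_sub (f : Fl B x φ) (a : y ∈ NN Γ B x φ) (hy : y ∉ F ∙ x) :
    (NN Γ B x φ : Set V) ⊆ Ba Γ B x y := fun _ b => NT.U_sub_Ba hy ⟨φ, f, a, b⟩

theorem NT.Ba_clo (h : NT Γ B 2 2) (hβ : ¬ Al Γ B.flip) (hx : x ≠ 0) (hy : y ∉ F ∙ x)
    (a : z ∈ Ba Γ B x y) (hz : z ∉ F ∙ x) : Ba Γ B x z = Ba Γ B x y := by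
  obtain ⟨u, b, ⟨φ, f, c, c'⟩, ψ, f', d, d'⟩ := a
  rw [h.Ba_con hβ f' d b (h.toHyp.x_mem_N f') hx d' hz,
    h.Ba_con hβ f c hy (h.toHyp.x_mem_N f) hx c' b]

end Cfsg.Agent.H5.CK
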