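import Cfsg.Agent.H5.CKr
import Cfsg.Agent.H2.CKf
import Cfsg.Agent.H2.CKe
import Cfsg.Agent.H9.R3c
import Cfsg.Agent.Sg.Ck7
import Cfsg.Agent.H8.ZS

/-! The Cameron-Kantor theorem in odd dimension. -/

set_option autoImplicit false
set_option linter.unusedSectionVars false

namespace Cfsg.Agent.H5.CK

open Module

section
variable {F V W Γ : Type*} [Field F] [Fintype F] [AddCommGroup V] [Module F V] [Finite V]
  [AddCommGroup W] [Module F W] [Finite W] [Group Γ] [Finite Γ]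
  [DistribMulAction Γ V] [SMulCommClass Γ F V] [DistribMulAction Γ W] [SMulCommClass Γ F W]
  {B : V →ₗ[F] W →ₗ[F] F} {ν μ : ℕ}

theorem NT.struct_le (h : NT Γ B ν μ) (h7 : 7 ≤ finrank F V) (hle : ν ≤ μ) :
    Odd (finrank F V) ∧ Fintype.card F ^ (finrank F V - 3) - 1 ∣ Nat.card Γ :=
  h.struct_of hle (fg h.flip) (fun hlt hc => caseE h (h.MS hle) (h.NTl hlt) hc)
    fun h hα hβ => r3c h h7 hα (Ba Γ B) h.pre.Ba_smul (h.Ba_card hβ) (h.Ba_con hβ) NT.Ba_sub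

/-- the structure theorem -/
theorem Hyp.struct (h : Hyp Γ B) (h7 : 7 ≤ finrank F V) : Tr Γ B ∨
    (Odd (finrank F V) ∧ Fintype.card F ^ (finrank F V - 3) - 1 ∣ Nat.card Γ) := by
  refine or_iff_not_imp_left.2 fun hn => ?_
  obtain ⟨ν, μ, H⟩ := h.exists_NT hn
  rcases le_total ν μ with hle | hle
  · exact H.struct_le h7 hle
  · rw [h.toPre.finrank_eq] at h7 ⊢
    exact H.flip.struct_le h7 hle

end

open scoped LinearAlgebra.Projectivization

variable {F V : Type*} [Field F] [Fintype F] [AddCommGroup V] [Module F V] [FiniteDimensional F V]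

/-- Cameron-Kantor in odd dimension at least eleven -/
theorem ck (ho : Odd (finrank F V)) (h11 : 11 ≤ finrank F V) (M : Subgroup (V ≃ₗ[F] V))
    (h2 : ∀ x y x' y' : ℙ F V, x ≠ y → x' ≠ y' → ∃ g ∈ M, g • x = x' ∧ g • y = y')
    (g : V ≃ₗ[F] V) (hg : LinearEquiv.det g = 1) : g ∈ M :=
  ck_of (fun _ _ _ _ _ _ _ h h7 => h.struct h7) H8.ZS.exists_ppd' ho h11 M h2 g hg

/-- Cameron-Kantor in dimension seven -/
theorem ck7 (h7 : finrank F V = 7) (M : Subgroup (V ≃ₗ[F] V))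
    (h2 : ∀ x y x' y' : ℙ F V, x ≠ y → x' ≠ y' → ∃ g ∈ M, g • x = x' ∧ g • y = y')
    (g : V ≃ₗ[F] V) (hg : LinearEquiv.det g = 1) : g ∈ M :=
  ck7_of (fun _ _ _ _ _ _ _ h h7 => h.struct h7) h7 M h2 g hg

end Cfsg.Agent.H5.CK
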