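import Cfsg.Agent.Asch.Struct
import Cfsg.Agent.Asch.FF
import Cfsg.Agent.Form.Adapters

/-!
Involutions of `SU₃(q)`, `q` odd, lift to involutions in a double cover.
-/

set_option autoImplicit false
set_option linter.unusedSectionVars false

namespace Cfsg.Agent.H3.S7

open Matrix Cfsg.Agent.Asch

theorem dc_grp {G H : Type*} [Group G] [Group H] (π : G →* H) {z : G} (hz : z * z = 1) (hc : ∀ g, z * g = g * z)
    (hk : ∀ g, π g = 1 → g = 1 ∨ g = z) {x y f : G} {q k : ℕ} (hq : Odd q) (e : q * q = 2 * k + 1)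
    (h1 : π y * π y = 1) (h2 : π y * π x * (π y)⁻¹ = (π x ^ q)⁻¹) (h3 : π x ^ k = π f) : f * f = 1 := by
  have key : ∀ g, π g = 1 → g * g = 1 ∧ ∀ h, g * h = h * g := fun g hg => by
    rcases hk g hg with rfl | rfl
    · simp
    · exact ⟨hz, hc⟩
  obtain ⟨a1, a2⟩ := key (x ^ q * (y * x * y⁻¹)) (by simp [h2])
  obtain ⟨-, b2⟩ := key (y * y) (by simp [h1])
  obtain ⟨c1, c2⟩ := key ((x ^ k)⁻¹ * f) (by simp [h3])
  generalize hζ : x ^ q * (y * x * y⁻¹) = ζ at a1 a2
  let c := MulAut.conj y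
  have e1 : c x = (x ^ q)⁻¹ * ζ := by rw [← hζ]; simp [c]
  have e2 : c ζ = ζ := by simp [c, ← a2 y]
  have e3 : c (c x) = x := by
    simp only [c, MulAut.conj_apply]
    calc y * (y * x * y⁻¹) * y⁻¹ = (y * y * x) * (y * y)⁻¹ := by group
      _ = x := by rw [b2, mul_inv_cancel_right]
  have e4 : ζ ^ q = ζ := by
    obtain ⟨j, rfl⟩ := hq
    rw [pow_succ, pow_mul, sq, a1, one_pow, one_mul]
  have e5 : x ^ (q * q) = x := by
    conv_rhs => rw [← e3, e1, map_mul, map_inv, map_pow, e1, e2, (show Commute (x ^ q)⁻¹ ζ from (a2 _).symm).mul_pow, e4,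
      _root_.mul_inv_rev, inv_pow, inv_inv, ← pow_mul, mul_assoc, ← a2, inv_mul_cancel_left]
  rw [e, pow_succ, mul_eq_right, mul_comm, pow_mul, sq] at e5
  rw [show f = x ^ k * ((x ^ k)⁻¹ * f) by simp]
  generalize (x ^ k)⁻¹ * f = η at c1 c2
  rw [mul_assoc, ← mul_assoc η, c2, mul_assoc, c1, mul_one, e5]

variable {K : Type*} [Field K] {φ : K →+* K}

theorem adj3 (A : Matrix (Fin 3) (Fin 3) K) :
    A.adjugate = A * A - A.trace • A + A.adjugate.trace • (1 : Matrix (Fin 3) (Fin 3) K) := by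
  ext i j
  fin_cases i <;> fin_cases j <;> simp [adjugate_fin_three, mul_apply, Fin.sum_univ_three, trace] <;> ring

theorem ex_diag {A : Matrix (Fin 3) (Fin 3) K} (h : A.trace ≠ 0) : ∃ i, A i i ≠ 0 := by
  by_contra! hc
  simp [trace, hc] at h

/-- an orthogonal eigenbasis -/
theorem dc_basis (hφ : ∀ a, φ (φ a) = a) (h2 : (2 : K) ≠ 0) {X : Matrix (Fin 3) (Fin 3) K} (hd : X.det = 1)
    (hu : Xᵀ * X.map φ = 1) (hx : X * X = 1) (h1 : X ≠ 1) : ∃ v a b : Fin 3 → K,
    X *ᵥ v = v ∧ X *ᵥ a = -a ∧ X *ᵥ b = -b ∧ v ⬝ᵥ φ ∘ v ≠ 0 ∧ a ⬝ᵥ φ ∘ a ≠ 0 ∧ b ⬝ᵥ φ ∘ b ≠ 0 ∧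
      v ⬝ᵥ φ ∘ a = 0 ∧ b ⬝ᵥ φ ∘ v = 0 ∧ b ⬝ᵥ φ ∘ a = 0 := by
  have e1 : X.adjugate = X := by
    have := X.mul_adjugate
    rw [hd, one_smul] at this
    rw [← one_mul X.adjugate, ← hx, mul_assoc, this, mul_one]
  have e2 : X.trace = -1 := by
    have := adj3 X
    rw [e1, hx] at this
    have e : (1 + X.trace) • (X - 1) = 0 := by
      rw [smul_sub, add_smul, add_smul, one_smul, one_smul]
      linear_combination (norm := module) this
    exact eq_neg_of_add_eq_zero_right ((smul_eq_zero.1 e).resolve_right (sub_ne_zero.2 h1))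
  have e3 : X.map φ = Xᵀ := by
    rw [← one_mul (X.map φ), ← transpose_one, ← hx, transpose_mul, mul_assoc, hu, mul_one]
  have e4 : ∀ i j, φ (X i j) = X j i := fun i j => congrFun (congrFun e3 i) j
  have col : ∀ (s : K) (i j : Fin 3) (t : K), φ t = t →
      (fun k => (1 + s • X) k i) ⬝ᵥ φ ∘ (fun k => (1 + t • X) k j) = ((1 + t • X) * (1 + s • X)) j i := fun s i j t ht => by
    simp only [dotProduct, mul_apply, Function.comp, Matrix.add_apply, Matrix.smul_apply, smul_eq_mul, map_add, map_mul, ht, e4, one_apply]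
    refine Finset.sum_congr rfl fun k _ => ?_
    rw [mul_comm]
    congr 2
    by_cases h : k = j
    · simp [h]
    · simp [h, Ne.symm h]
  have mv : ∀ (s : K) (i : Fin 3), s * s = 1 → X *ᵥ (fun k => (1 + s • X) k i) = s • fun k => (1 + s • X) k i := fun s i hs => by
    ext k
    have : X * (1 + s • X) = s • (1 + s • X) := by
      rw [mul_add, mul_one, mul_smul_comm, hx, smul_add, smul_smul, hs, one_smul, add_comm]
    exact congrFun (congrFun this k) i
  have sq : ∀ s t : K, (1 + t • X) * (1 + s • X) = (1 + s * t) • (1 : Matrix (Fin 3) (Fin 3) K) + (s + t) • X := fun s t => by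
    simp only [mul_add, add_mul, mul_one, one_mul, smul_mul_smul_comm, hx, add_smul, one_smul, mul_comm t s]
    abel
  obtain ⟨i, hi⟩ := ex_diag (A := 1 + (1 : K) • X) (by simp [e2]; exact fun e => h2 (by linear_combination e))
  obtain ⟨j, hj⟩ := ex_diag (A := 1 + (-1 : K) • X) (by
    simp [e2]; exact fun e => mul_ne_zero h2 h2 (by linear_combination e))
  have n1 := col 1 i i 1 (map_one φ)
  have n2 := col (-1) j j (-1) (by simp)
  have n3 := col 1 i j (-1) (by simp)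
  have m1 := mv 1 i (by simp)
  have m2 := mv (-1) j (by simp)
  rw [sq] at n1 n2 n3
  have n1' := n1.trans_ne (c := 0) fun e => mul_ne_zero h2 hi (by rw [← e]; simp [Matrix.add_apply]; ring)
  have n2' := n2.trans_ne (c := 0) fun e => mul_ne_zero h2 hj (by rw [← e]; simp [Matrix.add_apply]; ring)
  replace n3 : _ = (0 : K) := n3.trans (by simp)
  generalize (fun k => (1 + (1 : K) • X) k i) = v at *
  generalize (fun k => (1 + (-1 : K) • X) k j) = a at *
  rw [one_smul K v] at m1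
  rw [neg_one_smul K a] at m2
  have n4 : a ⬝ᵥ φ ∘ v = 0 := by
    have := congrArg φ n3
    simp only [dotProduct, Fin.sum_univ_three, Function.comp, map_add, map_mul, hφ, map_zero] at this ⊢
    linear_combination this
  have t1 : (φ ∘ v) ᵥ* X = φ ∘ v := by
    ext k
    have := congrArg φ (congrFun m1 k)
    simp only [mulVec, vecMul, dotProduct, Fin.sum_univ_three, Function.comp, map_add, map_mul, e4] at this ⊢
    linear_combination this
  have t2 : (φ ∘ a) ᵥ* X = -φ ∘ a := by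
    ext k
    have := congrArg φ (congrFun m2 k)
    simp only [mulVec, vecMul, dotProduct, Fin.sum_univ_three, Function.comp, map_add, map_mul, e4, Pi.neg_apply,
      map_neg] at this ⊢
    linear_combination this
  refine ⟨v, a, crossProduct (φ ∘ v) (φ ∘ a), m1, m2, ?_, n1', n2', ?_, n3, ?_, ?_⟩
  · have cr : ∀ r s : Fin 3 → K, crossProduct (r ᵥ* X) (s ᵥ* X) = X.adjugate *ᵥ crossProduct r s := fun r s => by
      ext k
      fin_cases k <;> simp [cross_apply, adjugate_fin_three, mulVec, vecMul, dotProduct, Fin.sum_univ_three] <;> ring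
    rw [← e1, ← cr, t1, t2, map_neg]
  · have : crossProduct (φ ∘ v) (φ ∘ a) ⬝ᵥ φ ∘ crossProduct (φ ∘ v) (φ ∘ a) =
        (v ⬝ᵥ φ ∘ v) * (a ⬝ᵥ φ ∘ a) - (v ⬝ᵥ φ ∘ a) * (a ⬝ᵥ φ ∘ v) := by
      simp [cross_apply, dotProduct, Fin.sum_univ_three, hφ]; ring
    rw [this, n3, zero_mul, sub_zero]
    exact mul_ne_zero n1' n2'
  · simp [cross_apply, dotProduct, Fin.sum_univ_three]; ring
  · simp [cross_apply, dotProduct, Fin.sum_univ_three]; ring

theorem dc_core [Fintype K] {q : ℕ} (hK : Fintype.card K = q ^ 2) (hφ : ∀ a, φ a = a ^ q) (h2 : (2 : K) ≠ 0)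
    {X : GL (Fin 3) K} (hd : X.val.det = 1) (hu : X.valᵀ * X.val.map φ = 1) (hx : X * X = 1) (h1 : X ≠ 1) :
    ∃ x y : GL (Fin 3) K, (x.val.det = 1 ∧ x.valᵀ * x.val.map φ = 1) ∧ (y.val.det = 1 ∧ y.valᵀ * y.val.map φ = 1) ∧
      y * y = 1 ∧ y * x * y⁻¹ = (x ^ q)⁻¹ ∧ x ^ (Fintype.card K / 2) = X := by
  have hi : ∀ a, φ (φ a) = a := fun a => by rw [hφ, hφ, Form.pow_q_pow_q hK]
  obtain ⟨v, a, b, x1, x2, x3, n1, n2, n3, o1, o2, o3⟩ := dc_basis hi h2 hd hu (congrArg Units.val hx)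
    fun e => h1 (Units.ext e)
  have cs : ∀ r s : Fin 3 → K, φ (r ⬝ᵥ φ ∘ s) = s ⬝ᵥ φ ∘ r := fun r s => by
    simp only [dotProduct, Fin.sum_univ_three, Function.comp, map_add, map_mul, hi]; ring
  obtain ⟨l, hl⟩ := exists_norm_eq hK (a := -(a ⬝ᵥ φ ∘ a) / (b ⬝ᵥ φ ∘ b)) (by rw [← hφ, map_div₀, map_neg, cs, cs])
  rw [← hφ, eq_div_iff n3] at hl
  have o1' := (cs v a).symm.trans ((congrArg φ o1).trans (map_zero φ))
  have o2' := (cs b v).symm.trans ((congrArg φ o2).trans (map_zero φ))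
  have o3' := (cs b a).symm.trans ((congrArg φ o3).trans (map_zero φ))
  let B : Matrix (Fin 3) (Fin 3) K := (of ![v, a + l • b, a - l • b])ᵀ
  generalize hn : v ⬝ᵥ φ ∘ v = n at n1
  generalize hm : a ⬝ᵥ φ ∘ a = m at n2 hl
  have hB : Bᵀ * B.map φ = !![n, 0, 0; 0, 0, 2 * m; 0, 2 * m, 0] := by
    simp only [dotProduct, Fin.sum_univ_three, Function.comp] at hn hm hl o1 o2 o3 o1' o2' o3'
    ext i j
    fin_cases i <;> fin_cases j <;> simp [B, mul_apply, Fin.sum_univ_three]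
    · exact hn
    · linear_combination o1 + φ l * o2'
    · linear_combination o1 - φ l * o2'
    · linear_combination o1' + l * o2
    · linear_combination hm + l * o3 + φ l * o3' + hl
    · linear_combination hm + l * o3 - φ l * o3' - hl
    · linear_combination o1' - l * o2
    · linear_combination hm - l * o3 + φ l * o3' - hl
    · linear_combination hm - l * o3 - φ l * o3' + hl
  have hB0 : B.det ≠ 0 := fun e => by
    have := congrArg det hB
    rw [det_mul, det_transpose, e, zero_mul, det_fin_three] at this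
    simp [n1, n2, h2] at this
  let Bu := GeneralLinearGroup.mkOfDetNeZero B hB0
  have b0 : Bu.val = B := rfl
  have cj : ∀ D : GL (Fin 3) K, D.val.det = 1 →
      D.valᵀ * !![n, 0, 0; 0, 0, 2 * m; 0, 2 * m, 0] * D.val.map φ = !![n, 0, 0; 0, 0, 2 * m; 0, 2 * m, 0] →
      (Bu * D * Bu⁻¹).val.det = 1 ∧ (Bu * D * Bu⁻¹).valᵀ * (Bu * D * Bu⁻¹).val.map φ = 1 := fun D d1 d2 => by
    have e : B * (Bu⁻¹).val = 1 := Bu.mul_inv
    constructor
    · rw [Units.val_mul, Units.val_mul, det_mul, det_mul, d1, mul_one, ← det_mul, b0, e, det_one]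
    · rw [Units.val_mul, Units.val_mul, b0, Matrix.map_mul, Matrix.map_mul, transpose_mul, transpose_mul]
      calc _ = (Bu⁻¹).valᵀ * (D.valᵀ * (Bᵀ * B.map φ) * D.val.map φ) * (Bu⁻¹).val.map φ := by simp only [mul_assoc]
        _ = (B * (Bu⁻¹).val)ᵀ * (B * (Bu⁻¹).val).map φ := by
          rw [hB, d2, ← hB, Matrix.map_mul, transpose_mul]; simp only [mul_assoc]
        _ = 1 := by rw [e]; simp
  have hc : ringChar K ≠ 2 := fun e => h2 (by exact_mod_cast (ringChar.spec K 2).2 (e ▸ dvd_rfl))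
  obtain ⟨t, ht⟩ := FiniteField.exists_nonsquare hc
  have t0 : t ≠ 0 := fun e => ht (e ▸ IsSquare.zero)
  have t1 : t ^ (Fintype.card K / 2) = -1 :=
    (FiniteField.pow_dichotomy hc t0).resolve_left fun e => ht ((FiniteField.isSquare_iff hc t0).2 e)
  have t2 : φ t ≠ 0 := (map_ne_zero φ).2 t0
  have t3 : φ t ^ (Fintype.card K / 2) = -1 := by rw [← map_pow, t1]; simp
  let D := GeneralLinearGroup.mkOfDetNeZero (diagonal ![φ t / t, t, (φ t)⁻¹]) (by simp [Fin.prod_univ_three, t0, t2])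
  let Y : GL (Fin 3) K := GeneralLinearGroup.mkOfDetNeZero !![-1, 0, 0; 0, 0, 1; 0, 1, 0] (by simp [det_fin_three])
  have d0 : D.val = diagonal ![φ t / t, t, (φ t)⁻¹] := rfl
  have y0 : Y.val = !![-1, 0, 0; 0, 0, 1; 0, 1, 0] := rfl
  have yy : Y * Y = 1 := Units.ext (by
    rw [Units.val_mul, y0]; ext i j; fin_cases i <;> fin_cases j <;> simp [mul_apply, Fin.sum_univ_three])
  refine ⟨_, _, cj D ?_ ?_, cj Y (by simp [y0, det_fin_three]) ?_, ?_, ?_, ?_⟩
  · simp [d0, Fin.prod_univ_three, t0, t2]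
  · rw [d0]
    ext i j
    fin_cases i <;> fin_cases j <;> simp [mul_apply, Fin.sum_univ_three, diagonal, hi] <;> field_simp
  · rw [y0]
    ext i j
    fin_cases i <;> fin_cases j <;> simp [mul_apply, Fin.sum_univ_three]
  · rw [conj_mul, yy]; simp
  · have : D ^ q * (Y * D) = Y := Units.ext (by
      rw [Units.val_mul, Units.val_mul, Units.val_pow_eq_pow_val, d0, y0, diagonal_pow]
      ext i j
      rw [diagonal_mul, mul_diagonal]
      fin_cases i <;> fin_cases j <;> simp [← hφ, hi, t0, t2])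
    rw [conj_pow, eq_inv_iff_mul_eq_one]
    calc _ = Bu * (Y * D * Y⁻¹ * D ^ q) * Bu⁻¹ := by group
      _ = 1 := by rw [mul_eq_one_comm.1 (show D ^ q * (Y * D * Y⁻¹) = 1 by rw [← mul_assoc, this]; simp)]; simp
  · rw [conj_pow, mul_inv_eq_iff_eq_mul]
    refine Units.ext ?_
    rw [Units.val_mul, Units.val_mul, Units.val_pow_eq_pow_val, d0, diagonal_pow, b0]
    ext i j
    have a1 := congrFun x1 i
    have a2 := congrFun x2 i
    have a3 := congrFun x3 i
    simp only [mulVec, dotProduct, Fin.sum_univ_three, Pi.neg_apply] at a1 a2 a3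
    rw [mul_diagonal]
    fin_cases j <;> simp [B, mul_apply, Fin.sum_univ_three, div_pow, t1, t3]
    · exact a1.symm
    · linear_combination -a2 - l * a3
    · linear_combination -a2 + l * a3

theorem su3_dc {F : Type*} [Field F] [Fintype F] (h2 : (2 : F) ≠ 0) {G : Type*} [Group G] (π : G →* GL (Fin 3) F) {z : G}
    (hz : z * z = 1) (hc : ∀ g, z * g = g * z) (hk : ∀ g, π g = 1 → g = 1 ∨ g = z) {L : Subgroup (GL (Fin 3) F)}
    {E : Subfield F} {q : ℕ} {P : GL (Fin 3) F} (hE : Nat.card E = q ^ 2)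
    (hL : ∀ g : GL (Fin 3) F, g ∈ L ↔ g.val.det = 1 ∧ Over E (cj P⁻¹ g.val) ∧
      (cj P⁻¹ g.val)ᵀ * (cj P⁻¹ g.val).map (· ^ q) = 1) (hr : L ≤ π.range) {f : G} (hf : π f ∈ L)
    (h1 : π f * π f = 1) : f * f = 1 := by
  classical
  by_cases h0 : π f = 1
  · rcases hk f h0 with rfl | rfl
    exacts [one_mul 1, hz]
  have := Fintype.ofFinite E
  rw [Nat.card_eq_fintype_card] at hE
  have h2' : (2 : E) ≠ 0 := fun e => h2 (by simpa only [map_ofNat, map_zero] using congrArg E.subtype e)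
  let ι : GL (Fin 3) E →* GL (Fin 3) F := (MulAut.conj P).toMonoidHom.comp (GeneralLinearGroup.map E.subtype)
  have i1 : ∀ x, cj P⁻¹ (ι x).val = x.val.map E.subtype := fun x => by
    rw [show (ι x).val = cj P (x.val.map E.subtype) from (cj_coe P (GeneralLinearGroup.map E.subtype x)).symm, cj_inv_cj]
  have inj : Function.Injective fun X : Matrix (Fin 3) (Fin 3) E => X.map E.subtype := map_injective E.subtype.injective
  have i2 : ∀ x, ι x ∈ L ↔ x.val.det = 1 ∧ x.valᵀ * x.val.map (Form.frobQ hE : E →+* E) = 1 := fun x => by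
    have e1 : (ι x).val.det = E.subtype x.val.det := by
      rw [RingHom.map_det, RingHom.mapMatrix_apply, ← i1, cj_apply, det_mul, det_mul, mul_right_comm, ← det_mul]
      simp
    rw [hL, i1, e1, map_eq_one_iff _ E.subtype.injective, ← inj.eq_iff (a := _ * _), Matrix.map_mul, Matrix.map_one _ rfl rfl]
    exact ⟨fun h => ⟨h.1, h.2.2⟩, fun h => ⟨h.1, over_map _, h.2⟩⟩
  have i3 : Function.Injective ι := fun x y e => Units.ext (inj (by simp only [← i1, e]))
  obtain ⟨Y, hY⟩ := ((hL _).1 hf).2.1.exists_map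
  have hY0 : Y.det ≠ 0 := fun e => by
    have := congrArg det hY
    rw [← RingHom.mapMatrix_apply, ← RingHom.map_det, e, map_zero, cj_coe] at this
    exact (P⁻¹ * π f * P⁻¹⁻¹).det_ne_zero this
  have hX : ι (GeneralLinearGroup.mkOfDetNeZero Y hY0) = π f := Units.ext ((cj P⁻¹).injective ((i1 _).trans hY.symm))
  obtain ⟨a1, a2⟩ := (i2 _).1 (hX ▸ hf)
  obtain ⟨x, y, x1, y1, b1, b2, b3⟩ := dc_core hE (fun _ => rfl) h2' a1 a2 (i3 (by rw [map_mul, hX, h1, map_one]))
    fun e => h0 (by rw [← hX, e, map_one])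
  obtain ⟨x', hx⟩ := hr ((i2 x).2 x1)
  obtain ⟨y', hy⟩ := hr ((i2 y).2 y1)
  have ho : Fintype.card E % 2 = 1 := FiniteField.odd_card_of_char_ne_two fun e =>
    h2' (by exact_mod_cast (ringChar.spec E 2).2 (e ▸ dvd_rfl))
  refine dc_grp π hz hc hk (x := x') (y := y') (q := q) (k := Fintype.card E / 2) ?_ (by rw [← sq, ← hE]; omega)
    (by rw [hy, ← map_mul, b1, map_one]) (by rw [hx, hy, ← map_inv, ← map_mul, ← map_mul, b2, map_inv, map_pow])
    (by rw [hx, ← map_pow, b3, hX])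
  exact (Nat.odd_pow_iff two_ne_zero).1 (hE ▸ Nat.odd_iff.2 ho)

end Cfsg.Agent.H3.S7
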