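import Cfsg.Agent.H7.Basic

/-!
Irreducible four-dimensional linear groups containing a transvection: definitions.
-/

set_option autoImplicit false

namespace Cfsg.Agent.H5.TA

open Module Cfsg.Agent.H7 Matrix

variable {K V : Type*} [Field K] [AddCommGroup V] [Module K V]

/-- a nontrivial transvection of `M` with axis `φ` and centre `v` -/
structure Tv (M : Subgroup (V ≃ₗ[K] V)) (φ : Dual K V) (v : V) : Prop where
  has : Has M φ v
  zero : φ v = 0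
  φ0 : φ ≠ 0
  v0 : v ≠ 0

/-- the standing hypotheses -/
structure Hy (M : Subgroup (V ≃ₗ[K] V)) : Prop where
  dim : finrank K V = 4
  irr : ∀ W : Submodule K V, (∀ g ∈ M, ∀ w ∈ W, g w ∈ W) → W = ⊥ ∨ W = ⊤
  perf : ⁅M, M⁆ = M
  gen : ∀ φ v, Tv M φ v → ∀ N : Subgroup (V ≃ₗ[K] V),
    (∀ g ∈ M, Has N (φ ∘ₗ (g.symm : V →ₗ[K] V)) (g v)) → M ≤ N

/-- a centre has only one axis and an axis has only one centre -/
structure Uq (M : Subgroup (V ≃ₗ[K] V)) : Prop where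
  axis : ∀ {φ ψ v}, Tv M φ v → Tv M ψ v → ∃ c : K, ψ = c • φ
  ctr : ∀ {φ v w}, Tv M φ v → Tv M φ w → ∃ c : K, w = c • v

/-- a nonempty invariant set of transvections -/
structure Cls (M : Subgroup (V ≃ₗ[K] V)) (O : Dual K V → V → Prop) : Prop where
  tv : ∀ {φ v}, O φ v → Tv M φ v
  map : ∀ {φ v g}, O φ v → g ∈ M → O (φ ∘ₗ (g.symm : V →ₗ[K] V)) (g v)
  ex : ∃ φ v, O φ v

/-- all triangles are symmetric -/
def Sym (O : Dual K V → V → Prop) : Prop :=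
  ∀ φ₁ v₁ φ₂ v₂ φ₃ v₃, O φ₁ v₁ → O φ₂ v₂ → O φ₃ v₃ → φ₁ v₂ * φ₂ v₃ * φ₃ v₁ + φ₁ v₃ * φ₃ v₂ * φ₂ v₁ = 0

/-- an invariant nondegenerate bilinear form exists -/
def SD (M : Subgroup (V ≃ₗ[K] V)) : Prop :=
  ∃ B : LinearMap.BilinForm K V, (∀ x, (∀ y, B x y = 0) → x = 0) ∧ ∀ g ∈ M, ∀ x y, B (g x) (g y) = B x y

/-- `M` is a special linear group over a subfield -/
def IsSL (M : Subgroup (V ≃ₗ[K] V)) : Prop :=
  ∃ (E : Subfield K) (b : Basis (Fin 4) K V), ∀ g : V ≃ₗ[K] V, g ∈ M ↔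
    (LinearMap.toMatrix b b (g : V →ₗ[K] V)).det = 1 ∧ ∀ i j, LinearMap.toMatrix b b (g : V →ₗ[K] V) i j ∈ E

/-- `M` is a special unitary group over a subfield -/
def IsSU (M : Subgroup (V ≃ₗ[K] V)) : Prop :=
  ∃ (E : Subfield K) (q : ℕ) (b : Basis (Fin 4) K V), Nat.card E = q ^ 2 ∧ ∀ g : V ≃ₗ[K] V, g ∈ M ↔
    (LinearMap.toMatrix b b (g : V →ₗ[K] V)).det = 1 ∧ (∀ i j, LinearMap.toMatrix b b (g : V →ₗ[K] V) i j ∈ E) ∧
      (LinearMap.toMatrix b b (g : V →ₗ[K] V))ᵀ * (LinearMap.toMatrix b b (g : V →ₗ[K] V)).map (· ^ q) = 1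

variable {M : Subgroup (V ≃ₗ[K] V)} {φ ψ : Dual K V} {v w : V}

theorem Tv.map (h : Tv M φ v) {g : V ≃ₗ[K] V} (hg : g ∈ M) : Tv M (φ ∘ₗ (g.symm : V →ₗ[K] V)) (g v) :=
  ⟨h.has.conj hg, by simp [h.zero], fun e => h.φ0 (LinearMap.ext fun z => by simpa using LinearMap.congr_fun e (g z)),
    by simpa using h.v0⟩

theorem Tv.neg (h : Tv M φ v) : Tv M (-φ) v := ⟨h.has.neg_left h.zero, by simp [h.zero], neg_ne_zero.2 h.φ0, h.v0⟩

theorem Tv.smul (h : Tv M φ v) {s : K} (hs : s ≠ 0) : Tv M (s⁻¹ • φ) (s • v) :=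
  ⟨h.has.congr fun z => by simp [smul_smul, mul_right_comm _ (φ z), hs], by simp [h.zero],
    smul_ne_zero (inv_ne_zero hs) h.φ0, smul_ne_zero hs h.v0⟩

theorem Cls.conj {O : Dual K V → V → Prop} (h : Cls M O) (h1 : O φ v) (h2 : Has M ψ w) (h0 : ψ w = 0) :
    O (φ - φ w • ψ) (v + ψ v • w) := by
  obtain ⟨t, ht, e⟩ := h2
  have := h.map h1 ht
  rwa [e, show φ ∘ₗ (t.symm : V →ₗ[K] V) = φ - φ w • ψ from LinearMap.ext fun z => by
    simp [symm_apply_of_tr e h0, mul_comm]] at this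

theorem cls_tv (h : Tv M φ v) : Cls M (Tv M) := ⟨id, fun h hg => h.map hg, φ, v, h⟩

theorem cls_orb (h : Tv M φ v) : Cls M fun ψ w => ∃ g ∈ M, ψ = φ ∘ₗ (g.symm : V →ₗ[K] V) ∧ w = g v :=
  ⟨by rintro _ _ ⟨g, hg, rfl, rfl⟩; exact h.map hg,
    by rintro _ _ g' ⟨g, hg, rfl, rfl⟩ hg'; exact ⟨g' * g, mul_mem hg' hg, rfl, rfl⟩, φ, v, 1, one_mem _, rfl, rfl⟩

theorem Tv.conj (h : Tv M φ v) (h2 : Has M ψ w) (h0 : ψ w = 0) : Tv M (φ - φ w • ψ) (v + ψ v • w) :=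
  (cls_tv h).conj h h2 h0

/-- there are no special pairs -/
theorem Uq.ns (u : Uq M) (h1 : Tv M φ v) (h2 : Tv M ψ w) (e : ψ v = 0) : φ w = 0 := by
  by_contra h
  obtain ⟨c, hc⟩ := u.axis h1 (ψ := φ w • ψ) ⟨h1.has.comm_left h2.has h1.zero h2.zero e, by simp [e],
    smul_ne_zero h h2.φ0, h1.v0⟩
  have h3 := LinearMap.congr_fun hc w
  simp only [LinearMap.smul_apply, h2.zero, smul_eq_mul, mul_zero] at h3
  rw [(mul_eq_zero.1 h3.symm).resolve_right h, zero_smul] at hc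
  exact smul_ne_zero h h2.φ0 hc

/-- a subspace invariant under the transvections of a class is trivial -/
theorem Hy.irr' (h : Hy M) {O : Dual K V → V → Prop} (c : Cls M O) (W : Submodule K V)
    (hW : ∀ φ v, O φ v → ∀ x ∈ W, φ x • v ∈ W) : W = ⊥ ∨ W = ⊤ := by
  obtain ⟨φ, v, h1⟩ := c.ex
  let N : Subgroup (V ≃ₗ[K] V) :=
    { carrier := {g | ∀ x, x ∈ W ↔ g x ∈ W}
      one_mem' := fun _ => Iff.rfl
      mul_mem' := fun {a b} ha hb x => (hb x).trans (ha _)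
      inv_mem' := fun {a} ha x => by simpa using (ha (a⁻¹ x)).symm }
  refine h.irr W fun g hg x hx => (h.gen φ v (c.tv h1) N (fun g hg => ?_) hg x).1 hx
  have h2 := c.map h1 hg
  obtain ⟨t, -, e⟩ := (c.tv h2).has
  refine ⟨t, fun x => ⟨fun hx => e x ▸ W.add_mem hx (hW _ _ h2 x hx), fun hx => ?_⟩, e⟩
  have := hW _ _ h2 _ hx
  rw [e] at this hx
  rw [map_add, map_smul, (c.tv h2).zero, smul_zero, add_zero] at this
  simpa using W.sub_mem hx this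

end Cfsg.Agent.H5.TA
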