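import Cfsg.Agent.H5.TA0
import Cfsg.Agent.H8.Dickson
import Cfsg.Agent.H9.MiB1

/-!
Irreducible four-dimensional linear groups containing a transvection: odd characteristic and large root groups.
-/

set_option autoImplicit false

namespace Cfsg.Agent.H5.TA

open Module Cfsg.Agent.H7 Matrix Cfsg.Agent.H9.Mi

variable {K V : Type*} [Field K] [AddCommGroup V] [Module K V] {M : Subgroup (V ≃ₗ[K] V)} {φ ψ χ : Dual K V} {u v w : V}

theorem Hy.partner (h : Hy M) {O : Dual K V → V → Prop} (c : Cls M O) (h1 : Tv M φ v) : ∃ ψ w, O ψ w ∧ φ w ≠ 0 := by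
  by_contra! e
  rcases h.irr' c (LinearMap.ker φ) (fun ψ w o x _ => by simp [e ψ w o]) with e | e
  · exact h1.v0 ((Submodule.eq_bot_iff _).1 e v h1.zero)
  · exact h1.φ0 (LinearMap.ker_eq_top.1 e)

theorem inv_pow [Finite K] (x : K) : ∃ n : ℕ, x⁻¹ = x ^ (n + 1) := by
  have := Fintype.ofFinite K
  obtain ⟨n, hn⟩ : ∃ n, Fintype.card K - 1 = n + 1 := ⟨Fintype.card K - 2, by have := Fintype.one_lt_card (α := K); omega⟩
  by_cases h : x = 0
  · exact ⟨0, by simp [h]⟩
  · have := FiniteField.pow_card_sub_one_eq_one x h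
    refine ⟨n + n, inv_eq_of_mul_eq_one_right ?_⟩
    rw [hn] at this
    linear_combination (x ^ (n + 1) + 1) * this

/-- the hypotheses of the form theorem -/
def Rat (M : Subgroup (V ≃ₗ[K] V)) : Prop := ∃ (O : Dual K V → V → Prop) (E : Subfield K), Cls M O ∧
  (∀ φ v ψ w, O φ v → O ψ w → φ w * ψ v ∈ E) ∧ ∀ φ v, O φ v → ∀ a ∈ E, Has M (a • φ) v

theorem rat_orb (t : Tv M φ v) (E : Subfield K) (h1 : ∀ ψ w, Tv M ψ w → φ w * ψ v ∈ E) (h2 : ∀ a ∈ E, Has M (a • φ) v) :
    Rat M := by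
  refine ⟨_, E, cls_orb t, ?_, ?_⟩
  · rintro _ _ ψ w ⟨g, hg, rfl, rfl⟩ o
    exact h1 _ _ (((cls_orb t).tv o).map (inv_mem hg))
  · rintro _ _ ⟨g, hg, rfl, rfl⟩ a ha
    exact ((h2 a ha).conj hg).congr fun z => by simp

theorem dick0 [Finite K] (t : Tv M φ v) {a : K} (ha : Has M (a • φ) v) (a0 : a ≠ 0) (a1 : a ≠ 1) (a2 : a ≠ -1)
    (s : Tv M ψ w) (hc : φ w * ψ v ≠ 0) :
    Has M ((φ w * ψ v) • φ) v ∧ ∀ x y : K, Has M (x • φ) v → Has M (y • φ) v → Has M ((x * y) • φ) v := by
  have c1 := left_ne_zero_of_mul hc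
  have c2 := right_ne_zero_of_mul hc
  let N := M ⊓ fixingSubgroup (V ≃ₗ[K] V) {z | φ z = 0 ∧ ψ z = 0}
  have hN : ∀ g, g ∈ N ↔ g ∈ M ∧ ∀ z, φ z = 0 → ψ z = 0 → g z = z := fun g => by
    simp [N, mem_fixingSubgroup_iff, LinearEquiv.smul_def]
  have key : ∀ b : K, (∃ g ∈ N, g v = v ∧ g (ψ v • w) = ψ v • w + b • v) ↔ Has M ((b / (φ w * ψ v)) • φ) v := fun b => by
    constructor
    · rintro ⟨g, hg, e1, e2⟩
      refine ⟨g, ((hN g).1 hg).1, fun z => ?_⟩
      have := ((hN g).1 hg).2 (z - (ψ z / ψ v) • v - (φ z / (φ w * ψ v)) • ψ v • w)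
        (by simp [t.zero]; field_simp; ring) (by simp [s.zero, c2])
      rw [map_sub, map_sub, map_smul, map_smul, e1, e2] at this
      simp only [LinearMap.smul_apply, smul_eq_mul]
      linear_combination (norm := skip) this
      match_scalars <;> field_simp <;> ring
    · rintro ⟨g, hg, e⟩
      refine ⟨g, (hN g).2 ⟨hg, fun z h _ => by simp [e, h]⟩, by simp [e, t.zero], ?_⟩
      rw [e]; simp only [LinearMap.smul_apply, smul_eq_mul, map_smul]
      congr 2; field_simp
  have k2 : ∀ x : K, Has M (x • φ) v → Has M (((x * (φ w * ψ v)) / (φ w * ψ v)) • φ) v := fun x h => by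
    rwa [mul_div_assoc, div_self hc, mul_one]
  obtain ⟨h1, -, h3⟩ := H8.Dickson.plane (K := N) (u := v) (a := ψ v • w) (by
    refine le_trans (le_of_eq ?_) (Set.ncard_le_ncard (s := (· * (φ w * ψ v)) '' {0, 1, a, a + 1}) ?_)
    · rw [Set.ncard_image_of_injective _ (mul_left_injective₀ hc), Set.ncard_insert_of_notMem (by grind),
        Set.ncard_insert_of_notMem (by grind), Set.ncard_pair (by grind)]
    · rintro _ ⟨x, hx, rfl⟩
      refine (key _).2 (k2 _ ?_)
      rcases hx with rfl | rfl | rfl | rfl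
      · simpa using has_zero_left v
      · simpa using t.has
      · exact ha
      · simpa [add_smul] using ha.add_left t.has (by simp [t.zero])) (by
    obtain ⟨g, hg, e⟩ := s.has
    exact ⟨g, (hN g).2 ⟨hg, fun z _ h => by simp [e, h]⟩, e v, by simp [e, s.zero]⟩)
  simp only [key] at h3
  have h4 := k2 1 (by simpa using t.has)
  rw [one_mul] at h4
  have h5 : ∀ n : ℕ, Has M (((φ w * ψ v) ^ (n + 1) / (φ w * ψ v)) • φ) v := fun n => by
    induction n with
    | zero => simpa using h4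
    | succ n ih => exact pow_succ (φ w * ψ v) (n + 1) ▸ h3 _ _ ih h4
  refine ⟨by simpa [hc, sq] using h5 1, fun x y hx hy => ?_⟩
  obtain ⟨n, hn⟩ := inv_pow (φ w * ψ v)
  convert h3 _ _ (h3 _ _ (k2 _ hx) (k2 _ hy)) (hn ▸ h5 n) using 2
  field_simp

theorem rat_big [Finite K] (h : Hy M) (u : Uq M) (t : Tv M φ v) {a : K} (ha : Has M (a • φ) v) (a0 : a ≠ 0) (a1 : a ≠ 1)
    (a2 : a ≠ -1) : Rat M := by
  obtain ⟨ψ, w, s, hs⟩ := h.partner (cls_tv t) t
  have hm := (dick0 t ha a0 a1 a2 s (mul_ne_zero hs fun e => hs (u.ns t s e))).2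
  let E : Subfield K :=
    { carrier := {x | Has M (x • φ) v}
      mul_mem' := hm _ _
      one_mem' := by simpa using t.has
      add_mem' := fun hx hy => by simpa [add_smul] using Has.add_left hx hy (by simp [t.zero])
      zero_mem' := by simpa using has_zero_left v
      neg_mem' := fun hx => (Has.neg_left hx (by simp [t.zero])).congr fun z => by simp
      inv_mem' := fun x hx => by
        obtain ⟨n, hn⟩ := inv_pow x
        rw [hn]; clear hn
        induction n with
        | zero => simpa using hx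
        | succ n ih => exact pow_succ x (n + 1) ▸ hm _ _ ih hx }
  refine rat_orb t E (fun ψ w s => ?_) fun a ha => ha
  by_cases e : φ w * ψ v = 0
  · exact e ▸ E.zero_mem
  · exact (dick0 t ha a0 a1 a2 s e).1

theorem s2 {p q : Dual K V} (pv : p v = 1) (pw : p w = 0) (qv : q v = 0) (qw : q w = 1) :
    S2 fun a b c d : K => a * d - b * c = 1 ∧ ∃ m ∈ M, ∀ z,
      m z = z + ((a - 1) * p z + b * q z) • v + (c * p z + (d - 1) * q z) • w where
  one := ⟨by simp, 1, one_mem _, fun z => by simp⟩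
  mul := by
    rintro a b c d a' b' c' d' ⟨h1, m, hm, e⟩ ⟨h2, m', hm', e'⟩
    refine ⟨by linear_combination (a' * d' - b' * c') * h1 + h2, m * m', mul_mem hm hm', fun z => ?_⟩
    rw [LinearEquiv.mul_apply, e', e]
    simp only [map_add, map_smul, pv, pw, qv, qw, smul_eq_mul]
    module
  det h := h.1

/-- all root groups have at most three elements -/
def Sm (M : Subgroup (V ≃ₗ[K] V)) : Prop := ∀ φ v, Tv M φ v → ∀ a : K, Has M (a • φ) v → a = 0 ∨ a = 1 ∨ a = -1

theorem Sm.pair [Finite K] (sm : Sm M) (h2 : (2 : K) ≠ 0) (t : Tv M φ v) (s : Tv M ψ w) (hc : φ w * ψ v ≠ 0) :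
    φ w * ψ v = 1 ∨ φ w * ψ v = -1 ∨ (φ w * ψ v) ^ 2 = -1 ∧
      ∃ m ∈ M, ∀ z, m z = z - (2 * (ψ z / ψ v)) • v - (2 * (φ z / φ w)) • w := by
  have β0 := left_ne_zero_of_mul hc
  have γ0 := right_ne_zero_of_mul hc
  have S := s2 (M := M) (v := v) (w := w) (p := (ψ v)⁻¹ • ψ) (q := (φ w)⁻¹ • φ) (by simp [γ0]) (by simp [s.zero])
    (by simp [t.zero]) (by simp [β0])
  obtain ⟨g, hg, e⟩ := t.has
  obtain ⟨g', hg', e'⟩ := s.has
  have hβ := And.intro (by simp : (1 : K) * 1 - φ w * 0 = 1) (⟨g, hg, fun z => by simp [e, β0]⟩ : ∃ m ∈ M, ∀ z,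
    m z = z + ((1 - 1) * ((ψ v)⁻¹ • ψ) z + φ w * ((φ w)⁻¹ • φ) z) • v +
      (0 * ((ψ v)⁻¹ • ψ) z + (1 - 1) * ((φ w)⁻¹ • φ) z) • w)
  have hγ := And.intro (by simp : (1 : K) * 1 - 0 * ψ v = 1) (⟨g', hg', fun z => by simp [e', γ0]⟩ : ∃ m ∈ M, ∀ z,
    m z = z + ((1 - 1) * ((ψ v)⁻¹ • ψ) z + 0 * ((φ w)⁻¹ • φ) z) • v +
      (ψ v * ((ψ v)⁻¹ • ψ) z + (1 - 1) * ((φ w)⁻¹ • φ) z) • w)
  rcases S.dk h2 β0 γ0 hβ hγ with ⟨E, h1, -⟩ | ⟨h3, h, -⟩
  · obtain ⟨-, m, hm, e⟩ := (h1 (φ w * (φ w * ψ v))).2 (by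
      convert E.mul_mem ((h1 _).1 hβ) ((h1 _).1 hβ) using 1; ring)
    exact ((sm φ v t _ ⟨m, hm, fun z => by rw [e]; simp; congr 1; field_simp⟩).resolve_left hc).imp_right Or.inl
  · refine Or.inr (Or.inr ⟨h, ?_⟩)
    generalize φ w = β at *
    generalize ψ v = γ at *
    have m1 := S.mul' (x := 1 + β * γ) (y := β) (z := γ) (w := 1) hβ hγ (by ring) (by ring) (by ring) (by ring)
    have m2 := S.mul' (x := 0) (y := β * (β * γ - 1)) (z := γ * (β * γ - 1)) (w := 1 + β * γ) m1 m1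
      (by linear_combination -h - β * γ * h3) (by linear_combination -β * h3) (by linear_combination -γ * h3) (by ring)
    have m4 := S.mul' (x := -1) (y := β) (z := γ) (w := -(1 + β * γ)) m2 m2
      (by linear_combination (2 - β * γ) * h - h3) (by linear_combination -β * h + β * h3)
      (by linear_combination -γ * h + γ * h3) (by linear_combination (1 - β * γ) * h - (1 + β * γ) * h3)
    obtain ⟨-, m, hm, e⟩ := S.mul' (x := -1) (y := 0) (z := 0) (w := -1) m4 m1 (by ring) (by ring) (by ring) (by ring)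
    refine ⟨m, hm, fun z => ?_⟩
    rw [e]; simp only [LinearMap.smul_apply, smul_eq_mul, div_eq_inv_mul]; module

theorem ten (h3 : (3 : K) = 0) {i X Y Z : K} (hi : i ^ 2 = -1) (h1 : X ^ 4 = 1) (h2 : Y ^ 4 = 1)
    (h : ∀ e : K, e ^ 2 = 1 → (X + e * Z - i * Y) ^ 4 = 1 ∧ (Y - e * Z - i * X) ^ 4 = 1 ∧
      ((1 + i) ^ 2 * X + e * (1 + i) * Z - i * Y) ^ 4 = 1 ∧ ((1 - i) ^ 2 * X + e * (1 - i) * Z - i * Y) ^ 4 = 1) : False := by
  have : CharP K 3 := (CharP.charP_iff_prime_eq_zero Nat.prime_three).2 (by exact_mod_cast h3)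
  have k : ∀ x : K, x ^ 4 = 1 → x = 1 ∨ x = -1 ∨ x = i ∨ x = -i := fun x hx => by
    have : (x - 1) * (x + 1) * (x - i) * (x + i) = 0 := by linear_combination hx - (x ^ 2 - 1) * hi
    simp only [mul_eq_zero] at this
    grind
  obtain ⟨a1, a2, a3, a4⟩ := h 1 (by simp)
  obtain ⟨a5, a6, a7, a8⟩ := h (-1) (by simp)
  obtain ⟨W, rfl⟩ : ∃ W, Z = W + i * Y - X := ⟨Z - i * Y + X, by ring⟩
  clear h
  rcases k _ h1 with rfl | rfl | rfl | rfl <;> rcases k _ h2 with rfl | rfl | rfl | rfl <;>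
    rcases k W (by linear_combination a1) with rfl | rfl | rfl | rfl <;> grind

theorem three (h3 : (3 : K) = 0) (h0 : Has M φ v) (h1 : Has M (φ + ψ) (v - w)) (h2 : Has M (φ - ψ) (v + w)) (a : φ v = 0)
    (b : φ w = 0) (c : ψ v = 0) (d : ψ w = 0) : Has M ψ w := by
  obtain ⟨g0, m0, e0⟩ := h0
  obtain ⟨g1, m1, e1⟩ := h1
  obtain ⟨g2, m2, e2⟩ := h2
  refine ⟨g0 * (g1 * g2), mul_mem m0 (mul_mem m1 m2), fun z => ?_⟩
  simp only [LinearEquiv.mul_apply, e0, e1, e2, map_add, map_sub, map_smul, LinearMap.add_apply, LinearMap.sub_apply, a, b, c, d]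
  linear_combination (norm := module) (h3 * φ z) • v - (h3 * ψ z) • w

theorem Sm.gold [Finite K] (h : Hy M) (uq : Uq M) (sm : Sm M) (h2 : (2 : K) ≠ 0) (t : Tv M φ v) (s : Tv M ψ w)
    (hi : (φ w * ψ v) ^ 2 = -1) : False := by
  have hc : φ w * ψ v ≠ 0 := fun e => by simp [e] at hi
  have β0 := left_ne_zero_of_mul hc
  have γ0 := right_ne_zero_of_mul hc
  have h3 : (3 : K) = 0 := by
    have := sm φ v t 2 (by simpa [two_smul] using t.has.add_left t.has t.zero)
    grind
  obtain ⟨m, hm, e⟩ : ∃ m ∈ M, ∀ z, m z = z - (2 * (ψ z / ψ v)) • v - (2 * (φ z / φ w)) • w :=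
    (((sm.pair h2 t s hc).resolve_left (by grind)).resolve_left (by grind)).2
  have := FiniteDimensional.of_finrank_pos (K := K) (V := V) (by rw [h.dim]; decide)
  obtain ⟨χ, u, r, x, hx, h1⟩ : ∃ χ u, Tv M χ u ∧ ∃ x ∈ Submodule.span K {v, w}, χ x • u ∉ Submodule.span K {v, w} := by
    by_contra! e
    rcases h.irr' (cls_tv t) _ e with e | e
    · exact t.v0 ((Submodule.eq_bot_iff _).1 e v (Submodule.subset_span (by simp)))
    · have := finrank_sup_span_le (K ∙ v) w
      have := finrank_span_singleton_le (F := K) v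
      rw [← Submodule.span_insert, e, finrank_top, h.dim] at *
      omega
  have te : ∀ {θ y}, Tv M θ y → ∀ e : K, e ^ 2 = 1 → Has M (e • θ) y := fun t e he => by
    rcases sq_eq_one_iff.1 he with rfl | rfl
    exacts [by simpa using t.has, t.neg.has.congr fun z => by simp]
  by_cases hΔ : φ w * ψ u * χ v + ψ v * φ u * χ w = 0; swap
  · have k : ∀ {θ y}, Tv M θ y → (θ u = 0 → χ y = 0 → φ w * ψ u * χ v + ψ v * φ u * χ w = 0) → (θ u * χ y) ^ 4 = 1 :=
      fun o ho => by
        have := sm.pair h2 o r fun e => hΔ (by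
          rcases mul_eq_zero.1 e with e | e
          exacts [ho e (uq.ns r o e), ho (uq.ns o r e) e])
        grind
    refine ten h3 hi (Z := ψ v * φ u * χ w - φ w * ψ u * χ v) (k t (by grind)) (k s (by grind)) fun e he => ?_
    have o := t.conj (te s e he) (by simp [s.zero])
    have k1 := k o (by simp; grind)
    have k2 := k (s.conj (te t e he) (by simp [t.zero])) (by simp; grind)
    have k3 := k (o.conj (te t e he) (by simp [t.zero])) (by simp [t.zero]; grind)
    have k4 := k (o.conj (te t (-e) (by simp [he])) (by simp [t.zero])) (by simp [t.zero]; grind)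
    simp only [LinearMap.sub_apply, LinearMap.smul_apply, map_add, map_smul, smul_eq_mul, t.zero] at k1 k2 k3 k4
    refine ⟨?_, ?_, ?_, ?_⟩
    · convert k1 using 2; grind
    · convert k2 using 2; grind
    · convert k3 using 2; grind
    · convert k4 using 2; grind
  obtain ⟨a, ha⟩ : ∃ a, a = (ψ u / ψ v) • v + (φ u / φ w) • w := ⟨_, rfl⟩
  obtain ⟨α, hα⟩ : ∃ α, α = (χ v / ψ v) • ψ + (χ w / φ w) • φ := ⟨_, rfl⟩
  obtain ⟨b, rfl⟩ : ∃ b, u = a + b := ⟨u - a, by abel⟩
  obtain ⟨β, rfl⟩ : ∃ β, χ = α + β := ⟨χ - α, by abel⟩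
  have a1 : φ b = 0 := by simpa [t.zero, β0] using congrArg φ ha
  have a2 : ψ b = 0 := by simpa [s.zero, γ0] using congrArg ψ ha
  have a3 : β v = 0 := by simpa [t.zero, γ0] using LinearMap.congr_fun hα v
  have a4 : β w = 0 := by simpa [s.zero, β0] using LinearMap.congr_fun hα w
  have a5 : α b = 0 := by rw [hα]; simp [a1, a2]
  have a6 : β a = 0 := by rw [ha]; simp [a3, a4]
  simp only [map_add, LinearMap.add_apply, a1, a2, a3, a4, add_zero] at ha hα hΔ
  have a7 : α a = 0 := by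
    rw [ha]; simp only [map_add, map_smul, smul_eq_mul]; field_simp; linear_combination hΔ
  have a8 : β b = 0 := by simpa [a5, a6, a7] using r.zero
  have r' : Tv M (β - α) (b - a) := by
    have e2 : ∀ z, m.symm z = m z := fun z => m.symm_apply_eq.2 (by
      simp only [e, map_sub, map_smul, t.zero, s.zero, smul_eq_mul]
      match_scalars <;> field_simp <;> ring)
    convert r.map hm using 1
    · ext z
      simp only [LinearMap.comp_apply, LinearEquiv.coe_coe, e2, e, map_sub, map_smul, LinearMap.add_apply, LinearMap.sub_apply, a3, a4]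
      nth_rewrite 1 2 [hα]
      simp only [LinearMap.add_apply, LinearMap.smul_apply, smul_eq_mul]
      field_simp; ring
    · rw [e]; simp only [map_add, a1, a2, add_zero]
      linear_combination (norm := module) (-2 : K) • ha
  have b0 : b ≠ 0 := by
    rintro rfl
    exact h1 (Submodule.smul_mem _ _ (by rw [add_zero, ha]; exact Submodule.mem_span_pair.2 ⟨_, _, rfl⟩))
  have a0 : α v ≠ 0 ∨ α w ≠ 0 := by
    by_contra! e
    obtain ⟨c, d, rfl⟩ := Submodule.mem_span_pair.1 hx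
    simp [e, a3, a4] at h1
  have b1 : β ≠ 0 := by
    rintro rfl
    obtain ⟨c, hc⟩ := uq.ctr r (w := b - a) (by simpa using r'.neg)
    have e1 := congrArg φ hc
    have e2 := congrArg ψ hc
    have e3 : c = -1 := by
      rcases a0 with e | e
      · have : φ a ≠ 0 := fun e' => e (by simpa using uq.ns r t (by simp [e', a1]))
        simp [a1] at e1; grind
      · have : ψ a ≠ 0 := fun e' => e (by simpa using uq.ns r s (by simp [e', a2]))
        simp [a2] at e2; grind
    exact smul_ne_zero h2 b0 (by linear_combination (norm := module) hc + e3 • (a + b))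
  have k : ∀ {θ y}, Tv M θ y → θ b = 0 → β y = 0 → Has M ((θ a * α y) • β) b := fun {θ y} o e1 e2 => by
    refine (three (ψ := (2 * θ a) • β) (w := (2 * α y) • b) h3 o.has ?_ ?_ o.zero (by simp [e1]) (by simp [e2])
      (by simp [a8])).congr fun z => ?_
    · convert ((o.conj r.neg.has r.neg.zero).conj r'.has r'.zero).has using 1 <;>
        simp [a5, a6, a7, a8, e1, e2] <;> module
    · convert ((o.conj r.has r.zero).conj r'.neg.has r'.neg.zero).has using 1 <;>
        simp [a5, a6, a7, a8, e1, e2] <;> module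
    · simp only [LinearMap.smul_apply, smul_eq_mul]
      linear_combination (norm := module) (h3 * (θ a * α y * β z)) • b
  have k2 : ∀ {φ ψ v w}, Tv M φ v → Tv M ψ w → (φ w * ψ v) ^ 2 = -1 → φ b = 0 → ψ b = 0 → β v = 0 → β w = 0 → α w = 0 :=
    fun {φ ψ v w} t s hi a1 a2 a3 a4 => by
    by_contra e1
    have e2 : ψ a ≠ 0 := fun e' => e1 (by simpa [a4] using uq.ns r s (by simp [e', a2]))
    have o := ((k t a1 a3).add_left (k (t.conj s.has s.zero) (by simp [a1, a2]) (by simp [a3, a4])) (by simp [a8])).add_left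
      (k (t.conj s.neg.has s.neg.zero) (by simp [a1, a2]) (by simp [a3, a4])) (by simp [a8])
    have := sm _ b ⟨k s a2 a4, by simp [a8], smul_ne_zero (mul_ne_zero e2 e1) b1, b0⟩ (φ w * ψ v) (o.congr fun z => by
      simp only [LinearMap.add_apply, LinearMap.sub_apply, LinearMap.neg_apply, LinearMap.smul_apply, smul_eq_mul, map_add, map_smul]
      congr 1; grind)
    grind
  exact a0.elim (· (k2 s t (by rw [mul_comm, hi]) a2 a1 a4 a3)) (· (k2 t s hi a1 a2 a3 a4))

theorem rat_odd [Finite K] (h : Hy M) (uq : Uq M) (sm : Sm M) (h2 : (2 : K) ≠ 0) (t : Tv M φ v) : Rat M := by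
  have h3 : (3 : K) = 0 := by
    have := sm φ v t 2 (by simpa [two_smul] using t.has.add_left t.has t.zero)
    grind
  let E : Subfield K :=
    { carrier := {x | x = 0 ∨ x = 1 ∨ x = -1}
      mul_mem' := by grind
      one_mem' := by simp
      add_mem' := by grind
      zero_mem' := by simp
      neg_mem' := by grind
      inv_mem' := by rintro x (rfl | rfl | rfl) <;> simp }
  refine ⟨_, E, cls_tv t, fun φ v ψ w t s => or_iff_not_imp_left.2 fun e => ?_, fun φ v t a ha => ?_⟩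
  · exact (sm.pair h2 t s e).imp_right fun e => e.resolve_right fun e => sm.gold h uq h2 t s e.1
  · rcases ha with rfl | rfl | rfl
    exacts [by simpa using has_zero_left v, by simpa using t.has, t.neg.has.congr fun z => by simp]

end Cfsg.Agent.H5.TA
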