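import Cfsg.Agent.H5.X2
import Cfsg.Agent.H2.ElC

set_option autoImplicit false
set_option linter.unusedSectionVars false

/-! Irreducible subgroups of `GL₃`; normalisers of extraspecial groups and of cubic fields. -/

namespace Cfsg.Agent.H5.X
open Cfsg Matrix Cfsg.Agent.Asch Cfsg.Agent.Form Cfsg.Agent.H5.MH Module
open scoped commutatorElement

variable {F : Type*} [Field F] [Fintype F] {M R : Subgroup (G3 F)}

omit [Fintype F] in
theorem exists_psi {D : Fin 3 → Submodule F (Fin 3 → F)} (hD : Geo.IsMDecomposition 1 D)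
    (h : M ≤ Geo.decompositionStabilizer D) : ∃ (v : Basis (Fin 3) F (Fin 3 → F)) (ψ : M →* Equiv.Perm (Fin 3)),
    ∀ g i, ∃ c : F, g.1.val *ᵥ v i = c • v (ψ g i) := by
  obtain ⟨π, hπ⟩ := H7.exists_projs hD.indep hD.iSup_eq_top
  obtain ⟨v, hv⟩ := hπ.exists_basis hD.finrank_eq
  choose σ hσ using fun g : M => h g.2
  have h1 : ∀ g i, ∃ c : F, g.1.val *ᵥ v i = c • v (σ g i) := fun g i => by
    have : g.1.val *ᵥ v i ∈ D (σ g i) := hσ g i ▸ ⟨v i, hv i ▸ Submodule.mem_span_singleton_self _, rfl⟩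
    rw [hv, Submodule.mem_span_singleton] at this
    exact this.imp fun _ e => e.symm
  refine ⟨v, MonoidHom.mk' σ fun a b => Equiv.ext fun i => ?_, h1⟩
  obtain ⟨c, hc⟩ := h1 (a * b) i
  obtain ⟨d, hd⟩ := h1 b i
  obtain ⟨e, he⟩ := h1 a (σ b i)
  have h2 : c • v (σ (a * b) i) = (d * e) • v (σ a (σ b i)) := by
    rw [← hc, Subgroup.coe_mul, Units.val_mul, ← mulVec_mulVec, hd, mulVec_smul, he, smul_smul]
  by_contra h3
  have h4 := congrArg (v.repr · (σ (a * b) i)) h2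
  simp only [map_smul, Basis.repr_self, Finsupp.smul_apply, Finsupp.single_eq_same, smul_eq_mul, mul_one,
    Finsupp.single_eq_of_ne (show σ (a * b) i ≠ σ a (σ b i) from h3), mul_zero] at h4
  rw [h4, zero_smul] at hc
  exact v.ne_zero i (by rw [← inv_mulVec_mulVec (a * b).1 (v i), hc, mulVec_zero])

theorem struct (hI : Irr M) :
    (∃ (v : Basis (Fin 3) F (Fin 3 → F)) (ψ : M →* Equiv.Perm (Fin 3)), ∀ g i, ∃ c : F, g.1.val *ᵥ v i = c • v (ψ g i)) ∨
    (∃ K, Geo.IsFieldSubalgebra 3 K ∧ M ≤ Geo.subalgebraNormalizer K) ∨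
    (∃ R, NCore R 3 ∧ Full (Geo.matrixSet R) ∧ NormsG M R) ∨
    ∃ L ≤ M, ⁅L, L⁆ = L ∧ Full (Geo.matrixSet L) ∧ NormsG M L := by
  by_contra hcon
  have dec : ∀ {t} {e : Fin t → M3 F}, IdemFam M e → False := fun {t e} he => by
    obtain ⟨m, hm⟩ := he.isMDecomposition hI
    have h1 := mul_eq_card_of_decomp hm
    have h2 := hm.two_le
    rw [Fintype.card_fin] at h1
    obtain rfl : t = 3 := ((Nat.dvd_prime Nat.prime_three).1 ⟨m, h1.symm⟩).resolve_left (by omega)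
    obtain rfl : m = 1 := by omega
    exact hcon (.inl (exists_psi hm he.le_stab))
  rcases prim_or hI (fun N _ hN z hz => by
    by_contra hz'
    have hn := hN.alg.cen (F := F)
    have hs : StarOn M (cen (alg F N)) id := ⟨cen_comm _, hn, fun _ h => h, fun _ _ => rfl, fun _ _ _ _ => rfl,
      fun _ => rfl, fun _ _ _ => rfl⟩
    rcases hs.trichotomy hI with ⟨t, e, he, -⟩ | ⟨e, -, he, -⟩ | hi
    · exact dec he
    · exact dec he
    obtain ⟨r, K, hr, hK, hK'⟩ := exists_prime_field _ (cen_comm _) hi ⟨z, hz, hz'⟩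
    obtain rfl : r = 3 := (Nat.prime_dvd_prime_iff_eq hr Nat.prime_three).1 (by simpa using dvd_card_of_field hK)
    refine hcon (.inr (.inl ⟨K, hK, Norms.le_subalgebraNormalizer fun h hh x hx =>
      (hK' _).2 ⟨hn h hh x ((hK' x).1 hx).1, ?_⟩⟩))
    rw [← map_pow, ((hK' x).1 hx).2]) with hP | ⟨N, -, hN, k, l, hk, hl, Φ, hΦ⟩
  swap
  · have := Φ.finrank_eq
    simp only [finrank_fintype_fun_eq_card, Fintype.card_prod, Fintype.card_fin] at this
    have := (Nat.dvd_prime Nat.prime_three).1 ⟨l, this.symm⟩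
    rcases this with rfl | rfl <;> omega
  rcases exists_core (hI.not_le_scalars (by simp)) with ⟨N, r, hM⟩ | ⟨P, hQ⟩
  · have hf := (hP N hM.le hM.norms).resolve_left hM.not_le
    obtain ⟨m, h1, h2⟩ := hM.nCore.exists_card hf
    obtain rfl : r = 3 := (Nat.prime_dvd_prime_iff_eq hM.prime Nat.prime_three).1 (by
      simpa [← h2] using dvd_pow_self r (show m ≠ 0 by omega))
    exact hcon (.inr (.inr (.inl ⟨N, hM.nCore, hf, hM.norms⟩)))
  by_cases hnP : NormsG M P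
  · exact hcon (.inr (.inr (.inr ⟨P, hQ.le, hQ.perfect,
      (hP P (hQ.le.trans le_sup_left) hnP).resolve_left hQ.not_le, hnP⟩)))
  obtain ⟨k, t, Φ, P₁, hW⟩ := hQ.exists_wcore hP hnP
  have h1 := hW.card
  have h2 := Nat.pow_le_pow_left hW.two_le_k t
  have h3 := Nat.pow_le_pow_right two_pos hW.two_le_t
  simp only [Fintype.card_fin] at h1
  omega

section Hess
variable (hc : NCore R 3) (hf : Full (Geo.matrixSet R))
include hc

theorem hs_comm {a b : G3 F} (ha : a ∈ R) (hb : b ∈ R) : pr a * pr b = pr b * pr a := by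
  rw [← commutatorElement_eq_one_iff_mul_comm, ← map_commutatorElement]; exact pr_eq_one.2 (hc.comm a ha b hb)

theorem hs_cube {a : G3 F} (ha : pr a ∈ bar R) : pr a ^ 3 = 1 := by
  obtain ⟨b, hb, e⟩ := ha
  rw [← e, ← map_pow]; exact pr_eq_one.2 (hc.pow b hb)

include hf

theorem hs_mem {x : G3 F} (h : ∀ r ∈ R, pr x * pr r = pr r * pr x) : pr x ∈ bar R := by
  obtain ⟨r, hr, h1⟩ : ∃ r ∈ R, T (x * r) ≠ 0 := by
    by_contra h1
    push Not at h1
    have := hf.induction (p := fun Y => (x.val * Y).trace = 0) (by rintro _ ⟨r, hr, rfl⟩; exact h1 r hr) (by simp)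
      (fun a b h h' => by rw [mul_add, trace_add, h, h', add_zero]) (fun c a h => by simp [h]) (x⁻¹).val
    exact hc.card_ne_zero hf (by simpa using this)
  have h2 : pr (x * r) = 1 := pr_eq_one'.2 (hf.isSc (by
    rintro _ ⟨s, hs, rfl⟩
    obtain ⟨c, h2⟩ := pr_eq_iff.1 (show pr (s * (x * r) * s⁻¹) = pr (x * r) by
      simp only [map_mul, map_inv]
      rw [← mul_assoc, ← h s hs, mul_assoc (pr x), hs_comm hc hs hr]; group)
    have h3 := T_of_smul h2
    rw [T_conj, eq_comm, mul_eq_right₀ h1] at h3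
    rw [h3, one_smul, Units.val_inj, mul_inv_eq_iff_eq_mul] at h2
    exact congrArg Units.val h2.symm))
  rw [map_mul, mul_eq_one_iff_eq_inv] at h2
  exact h2 ▸ inv_mem (mem_bar hr)

theorem hs_cent {u w : G3 F} (hu : u ∈ R) (h1 : pr u ≠ 1) (hw : w ∈ R) (h : u * w = w * u) :
    ∃ k, pr w = pr u ^ k := by
  by_contra h2
  push Not at h2
  have : Finite (PG3 F) := Finite.of_surjective _ pr_surj
  have h3 := sq_dvd_card (G := bar (R ⊓ Subgroup.centralizer {u})) Nat.prime_three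
    (x := ⟨_, mem_bar ⟨hu, Subgroup.mem_centralizer_singleton_iff.2 rfl⟩⟩)
    (y := ⟨_, mem_bar ⟨hw, Subgroup.mem_centralizer_singleton_iff.2 h.symm⟩⟩)
    (Subtype.ext (hs_cube hc (mem_bar hu))) (fun e => h1 (congrArg Subtype.val e))
    (Subtype.ext (hs_cube hc (mem_bar hw))) (Subtype.ext (hs_comm hc hu hw)) fun k _ e => h2 k (congrArg Subtype.val e)
  have h4 := Subgroup.eq_of_le_of_card_ge (Subgroup.map_mono inf_le_left) ((hc.card_map hf).trans_le
    (Nat.le_of_dvd Nat.card_pos h3))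
  refine h1 (pr_eq_one'.2 (hf.isSc ?_))
  rintro _ ⟨s, hs, rfl⟩
  obtain ⟨r, hr, e⟩ := h4.ge ⟨s, hs, rfl⟩
  obtain ⟨c, e⟩ := pr_eq_iff.1 (show pr s = pr r from e.symm)
  have : u.val * r.val = r.val * u.val := congrArg Units.val (hr.2 u rfl)
  simp only [e, Matrix.mul_smul, Matrix.smul_mul, this]

variable (hn : NormsG M R)
include hn

theorem hs_neg {t : G3 F} (ht : t ∈ M) (h2 : pr t ^ 2 = 1) (h1 : pr t ≠ 1) {x : G3 F} (hx : x ∈ R) :
    pr t * pr x * (pr t)⁻¹ = (pr x)⁻¹ := by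
  have e23 : ∀ {G : Type _} [Group G] {a : G}, a ^ 2 = 1 → a ^ 3 = 1 → a = 1 := fun h h' => by
    rwa [pow_succ, h, one_mul] at h'
  by_contra h3
  obtain ⟨y, hy, h4⟩ : ∃ y ∈ R, pr t * pr y ≠ pr y * pr t := by
    by_contra h4
    push Not at h4
    exact h1 (e23 h2 (hs_cube hc (hs_mem hc hf h4)))
  have h5 : ∀ g, t * (t * g * t⁻¹) * t⁻¹ = g := fun g => by
    rw [show t * (t * g * t⁻¹) * t⁻¹ = t * t * g * (t * t)⁻¹ by group, ← sc_central (z := t * t) (by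
      rw [map_mul, ← sq, h2])]; group
  have hu := mul_mem (hn t ht x hx) hx
  have hw := mul_mem (hn t ht y hy) (inv_mem hy)
  have a1 : pr (t * (t * x * t⁻¹ * x) * t⁻¹) = pr (t * x * t⁻¹ * x) := by
    rw [← conj_mul, h5, map_mul, hs_comm hc hx (hn t ht x hx), ← map_mul]
  have a2 : t * (t * y * t⁻¹ * y⁻¹) * t⁻¹ = (t * y * t⁻¹ * y⁻¹)⁻¹ := by rw [← conj_mul, h5]; group
  have a3 : pr (t * x * t⁻¹ * x) ≠ 1 := fun e => h3 (by simpa [mul_eq_one_iff_eq_inv] using e)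
  have a4 : pr (t * y * t⁻¹ * y⁻¹) ≠ 1 := fun e => h4 (by simpa [mul_inv_eq_one, mul_inv_eq_iff_eq_mul] using e)
  generalize t * x * t⁻¹ * x = u at hu a1 a3
  generalize t * y * t⁻¹ * y⁻¹ = w at hw a2 a4
  have b1 : pr ⁅u, w⁆ = 1 := pr_eq_one.2 (hc.comm u hu w hw)
  have b2 : ⁅u, w⁆ = ⁅u, w⁆⁻¹ := calc
    _ = t * ⁅u, w⁆ * t⁻¹ := by rw [sc_central b1]; simp
    _ = ⁅u, w⁻¹⁆ := by rw [conjugate_commutatorElement, a2]; exact comm_congr a1 rfl
    _ = w⁻¹ * ⁅u, w⁆⁻¹ * w := by simp only [commutatorElement_def]; group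
    _ = _ := by rw [sc_central (z := ⁅u, w⁆⁻¹) (by rw [map_inv, b1, inv_one])]; simp
  obtain ⟨k, hk⟩ := hs_cent hc hf hu a3 hw (commutatorElement_eq_one_iff_mul_comm.1 (e23 (by
    rw [sq, mul_eq_one_iff_eq_inv]; exact b2) (sc_cube (congrArg Units.val (show GeneralLinearGroup.det ⁅u, w⁆ = 1 by
      rw [map_commutatorElement, commutatorElement_eq_one_iff_mul_comm, mul_comm])) b1)))
  refine a4 (e23 ?_ (hs_cube hc (mem_bar hw)))
  rw [sq, mul_eq_one_iff_eq_inv, ← map_inv, ← a2, map_mul, map_mul, map_inv, hk, ← conj_pow, ← map_inv, ← map_mul,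
    ← map_mul, a1]

theorem hs_dih {t y : G3 F} (ht : t ∈ M) (h2 : pr t ^ 2 = 1) (h1 : pr t ≠ 1) (hy : y ∈ M)
    (h : t * y * t⁻¹ = y⁻¹) : pr (y ^ 2) ∈ bar R := hs_mem hc hf fun r hr => by
  have h3 := hs_neg hc hf hn ht h2 h1 (hn y hy r hr)
  have h4 := hs_neg hc hf hn ht h2 h1 hr
  have h5 := congrArg pr h
  simp only [map_mul, map_inv, sq] at h3 h5 ⊢
  generalize pr t = t, pr y = y, pr r = r at *
  have : y⁻¹ * r⁻¹ * y = y * r⁻¹ * y⁻¹ := calc
    _ = (t * y * t⁻¹) * (t * r * t⁻¹) * (t * y * t⁻¹)⁻¹ := by rw [h5, h4, inv_inv]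
    _ = t * (y * r * y⁻¹) * t⁻¹ := by group
    _ = _ := by rw [h3]; group
  calc _ = r * y * (y⁻¹ * r⁻¹ * y) * y * r := by group
    _ = _ := by rw [this]; group

theorem hs_four {s t : G3 F} (hs : s ∈ M) (ht : t ∈ M) (h1 : pr s ^ 2 = 1) (h2 : pr t ^ 2 = 1)
    (h3 : pr (s * t) ^ 2 = 1) (h4 : pr s ≠ 1) (h5 : pr t ≠ 1) (h6 : pr (s * t) ≠ 1) : False :=
  hc.not_le fun x hx => by
    have a1 := hs_neg hc hf hn hs h1 h4 (inv_mem hx)
    have a2 := hs_neg hc hf hn ht h2 h5 hx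
    have a3 := hs_neg hc hf hn (mul_mem hs ht) h3 h6 hx
    have a4 := hs_cube hc (mem_bar hx)
    rw [map_mul, show pr s * pr t * pr x * (pr s * pr t)⁻¹ = pr s * (pr t * pr x * (pr t)⁻¹) * (pr s)⁻¹ by group, a2,
      ← map_inv pr x, a1, map_inv, inv_inv, ← mul_eq_one_iff_eq_inv] at a3
    rwa [pow_three', a3, one_mul, pr_eq_one] at a4

theorem hs_big {y : G3 F} (hy : y ∈ M) {s : ℕ} (hs : s.Prime) (h5 : 5 ≤ s) (h : pr y ^ s = 1) : pr y = 1 := by
  by_contra h1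
  obtain ⟨k, k1, k2, k3, -⟩ := H2.El.nec hc hf (g := 1) (x := y) (by
    rw [inv_one, one_mul, mul_one]; exact hn.le_normalizer hy)
    (mt pr_eq_one.2 h1) hs (by omega) (pr_eq_one.1 (by rw [map_pow, h]))
  rw [Fintype.card_fin] at k1 k2 k3
  have k4 := (Nat.modEq_iff_dvd' k2.le).1 k3.symm
  have := Nat.le_of_dvd (by omega) k4
  interval_cases k <;> interval_cases s <;> simp_all (config := {decide := true})

end Hess

section Singer
variable {K : Subalgebra F (M3 F)} (hK : Geo.IsFieldSubalgebra 3 K)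
include hK

omit [Fintype F] in
theorem sg_surj {v : Fin 3 → F} (hv : v ≠ 0) (w : Fin 3 → F) : ∃ k ∈ K, k *ᵥ v = w := by
  let f : K →ₗ[F] (Fin 3 → F) := (Matrix.mulVecBilin F F).flip v ∘ₗ K.val.toLinearMap
  obtain ⟨k, hk⟩ := (LinearMap.injective_iff_surjective_of_finrank_eq_finrank (f := f) (by
    rw [hK.finrank_eq]; simp)).1 ((injective_iff_map_eq_zero f).2 fun k hk => by
      by_contra h
      obtain ⟨y, hy, e⟩ := hK.inv k k.2 fun e => h (Subtype.ext e)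
      have : k.1 *ᵥ v = 0 := hk
      exact hv (by rw [← one_mulVec v, ← e, hK.comm _ k.2 _ hy, ← mulVec_mulVec, this, mulVec_zero])) w
  exact ⟨k, k.2, hk⟩

omit [Fintype F] in
theorem sg_zero {Z : M3 F} (h : ∀ k ∈ K, Z * k = k * Z) (hd : Z.det = 0) : Z = 0 := by
  obtain ⟨v, hv, e⟩ := exists_mulVec_eq_zero_iff.2 hd
  refine mat_ext fun w => ?_
  obtain ⟨k, hk, rfl⟩ := sg_surj hK hv w
  rw [mulVec_mulVec, h k hk, ← mulVec_mulVec, e]; simp

omit [Fintype F] in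
theorem sg_cent {Z : M3 F} (h : ∀ k ∈ K, Z * k = k * Z) : Z ∈ K := by
  have hv : (Pi.single 0 1 : Fin 3 → F) ≠ 0 := by simp
  obtain ⟨k, hk, e⟩ := sg_surj hK hv (Z *ᵥ Pi.single 0 1)
  rwa [sub_eq_zero.1 (sg_zero hK (Z := Z - k) (fun y hy => by rw [sub_mul, mul_sub, h y hy, hK.comm k hk y hy])
    (exists_mulVec_eq_zero_iff.1 ⟨_, hv, by rw [sub_mulVec, e, sub_self]⟩))]

theorem sg_sub {C : Subalgebra F (M3 F)} {x : M3 F} (hx : x ∈ K) (hC : x ∈ C) (h : ¬ IsSc x) : K ≤ C := by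
  have h1 := dvd_card_of_field (K := K ⊓ C) ⟨fun a ha b hb => hK.comm a ha.1 b hb.1, fun a ha h0 => by
    obtain ⟨y, hy, e⟩ := hK.inv a ha.1 h0
    obtain ⟨z, hz⟩ := Finite.injective_iff_surjective.1 (show Function.Injective fun z : ↥(K ⊓ C) => ⟨a, ha⟩ * z from
      fun b c h => Subtype.ext (by
        have := congrArg (y * ·.1) h
        simpa [← mul_assoc, hK.comm y hy a ha.1, e] using this)) 1
    exact ⟨z, z.2, congrArg Subtype.val hz⟩, rfl⟩
  rcases (Nat.dvd_prime Nat.prime_three).1 (by simpa using h1) with e | e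
  · obtain ⟨c, hc⟩ := (finrank_eq_one_iff_of_nonzero' (1 : ↥(K ⊓ C)) one_ne_zero).1 e ⟨x, hx, hC⟩
    exact (h ⟨c, (congrArg Subtype.val hc).symm⟩).elim
  · exact (Subalgebra.eq_of_le_of_finrank_eq inf_le_left (e.trans hK.finrank_eq.symm)).ge.trans inf_le_right

theorem sg_cube {g : G3 F} (hg : g ∈ Geo.subalgebraNormalizer K) : (g ^ 3).val ∈ K := sg_cent hK fun k hk => by
  let := fieldOf K hK.comm hK.inv
  let τ : K ≃ₐ[F] K := AlgEquiv.ofBijective (((cj g).toAlgHom.comp K.val).codRestrict K fun x => (hg _).1 x.2)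
    (Finite.injective_iff_bijective.1 fun a b e => Subtype.ext ((cj g).injective (congrArg Subtype.val e)))
  have h1 : τ ^ 3 = 1 := by
    have := pow_card_eq_one' (x := τ)
    rwa [IsGalois.card_aut_eq_finrank, hK.finrank_eq] at this
  rw [← cj_eq_iff, pow_three', cj_mul, cj_mul]
  exact congrArg (fun σ : K ≃ₐ[F] K => (σ ⟨k, hk⟩).1) (pow_three' τ ▸ h1)

theorem sg_irr {k : G3 F} (hk : k.val ∈ K) (h : pr k ≠ 1) (hM : k ∈ M) : Irr M := fun W hW => by
  let C : Subalgebra F (M3 F) :=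
    { carrier := {y | ∀ v ∈ W, y *ᵥ v ∈ W}
      mul_mem' := fun ha hb v hv => by rw [← mulVec_mulVec]; exact ha _ (hb v hv)
      add_mem' := fun ha hb v hv => by rw [add_mulVec]; exact add_mem (ha v hv) (hb v hv)
      algebraMap_mem' := fun c v hv => by
        rw [Algebra.algebraMap_eq_smul_one, smul_mulVec, one_mulVec]; exact W.smul_mem c hv }
  refine or_iff_not_imp_left.2 fun h0 => eq_top_iff.2 fun w _ => ?_
  obtain ⟨v, hv, h1⟩ := (Submodule.ne_bot_iff W).1 h0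
  obtain ⟨y, hy, rfl⟩ := sg_surj hK h1 w
  exact sg_sub hK (C := C) hk (hW k hM) (mt pr_eq_one'.2 h) hy v hv

theorem sg_eig {k : G3 F} (hk : k.val ∈ K) {c : F} (h : (k.val - c • 1).det = 0) : k.val = c • 1 :=
  sub_eq_zero.1 (sg_zero hK (fun y hy => hK.comm _ (sub_mem hk (K.smul_mem K.one_mem c)) y hy) h)

theorem sg_root (p : ℕ) [Fact p.Prime] [CharP F p] {k x : G3 F} (hk : k.val ∈ K) (hx : x.val ∈ K)
    (dk : k.val.det = 1) (dx : x.val.det = 1) (h0 : k ^ Fintype.card F ≠ k) (β : ℕ) (h1 : T x ^ p ^ β = T k)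
    (h2 : T x⁻¹ ^ p ^ β = T k⁻¹) : ∃ i < 3, x ^ p ^ β = k ^ Fintype.card F ^ i := by
  let := fieldOf K hK.comm hK.inv
  have : CharP K p := charP_of_injective_algebraMap (algebraMap F K).injective p
  have key : ∀ {x : G3 F} (hx : x.val ∈ K), x.val.det = 1 → ∀ β, ((⟨_, hx⟩ : K) ^ p ^ β) ^ 3 =
      algebraMap F K (T x ^ p ^ β) * (⟨_, hx⟩ ^ p ^ β) ^ 2 - algebraMap F K (T x⁻¹ ^ p ^ β) * ⟨_, hx⟩ ^ p ^ β + 1 :=
    fun {x} hx dx β => by
    have : (⟨_, hx⟩ : K) ^ 3 = algebraMap F K (T x) * ⟨_, hx⟩ ^ 2 - algebraMap F K (T x⁻¹) * ⟨_, hx⟩ + 1 := by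
      simp only [← Algebra.smul_def]; exact Subtype.ext (ch dx)
    have := congrArg (iterateFrobenius K p β) this
    simp only [map_add, map_sub, map_mul, map_pow, map_one] at this
    simpa only [iterateFrobenius_def, map_pow] using this
  obtain ⟨α, hq⟩ : ∃ α : ℕ, Fintype.card F = p ^ α := ⟨_, (FiniteField.card F p).choose_spec.2⟩
  have hT : ∀ (a : F) i, a ^ p ^ (α * i) = a := fun a i => by rw [pow_mul, ← hq, FiniteField.pow_card_pow]
  have a0 := key hk dk (α * 0)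
  have a1 := key hk dk (α * 1)
  have a2 := key hk dk (α * 2)
  have a3 := key hx dx β
  simp only [hT] at a0 a1 a2
  simp only [pow_mul, ← hq] at a0 a1 a2
  rw [h1, h2] at a3
  have b3 : ((⟨_, hk⟩ : K) ^ Fintype.card F ^ 2) ^ Fintype.card F = ⟨_, hk⟩ := by
    have := Fintype.ofFinite K
    have h := Module.card_eq_pow_finrank (K := F) (V := K)
    rw [hK.finrank_eq] at h
    rw [← pow_mul, ← pow_succ, ← h, FiniteField.pow_card]
  have c1 : (⟨_, hk⟩ : K) ^ Fintype.card F ^ 1 ≠ ⟨_, hk⟩ ^ Fintype.card F ^ 0 := fun e => h0 (Units.ext (by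
    simpa using congrArg Subtype.val e))
  have c2 : (⟨_, hk⟩ : K) ^ Fintype.card F ^ 2 ≠ ⟨_, hk⟩ ^ Fintype.card F ^ 0 := fun e => c1 (by
    rw [e] at b3; simpa using b3)
  have c3 : (⟨_, hk⟩ : K) ^ Fintype.card F ^ 2 ≠ ⟨_, hk⟩ ^ Fintype.card F ^ 1 := fun e => c2 (by
    rw [e, ← pow_mul, ← pow_succ] at b3; simpa using b3)
  by_contra h
  push Not at h
  have d : ∀ i < 3, (⟨_, hx⟩ : K) ^ p ^ β ≠ ⟨_, hk⟩ ^ Fintype.card F ^ i := fun i hi e => h i hi (Units.ext (by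
    simpa using congrArg Subtype.val e))
  have d0 := d 0 (by omega)
  have d1 := d 1 (by omega)
  have d2 := d 2 (by omega)
  generalize (⟨_, hx⟩ : K) ^ p ^ β = y, (⟨_, hk⟩ : K) ^ Fintype.card F ^ 0 = a, (⟨_, hk⟩ : K) ^ Fintype.card F ^ 1 = b,
    (⟨_, hk⟩ : K) ^ Fintype.card F ^ 2 = c, algebraMap F K (T k) = s, algebraMap F K (T k⁻¹) = t at *
  have e : ∀ {u : K}, u ≠ a → u ^ 3 = s * u ^ 2 - t * u + 1 → u ^ 2 + u * a + a ^ 2 = s * (u + a) - t := fun h h' =>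
    mul_left_cancel₀ (sub_ne_zero.2 h) (by linear_combination h' - a0)
  have e' : ∀ {u : K}, u ≠ a → u ≠ b → u ^ 3 = s * u ^ 2 - t * u + 1 → u + a + b = s := fun h h' h'' =>
    mul_left_cancel₀ (sub_ne_zero.2 h') (by linear_combination e h h'' - e c1 a1)
  exact d2 (by linear_combination e' d0 d1 a3 - e' c2 c3 a2)

end Singer

end Cfsg.Agent.H5.X
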