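import Cfsg.Agent.MH.Main
import Cfsg.Agent.H5.MH10
import Cfsg.Agent.H5.X3

/-!
Three transvections in dimension three, characteristic two.
-/

set_option autoImplicit false

namespace Cfsg.Agent.H5.TA

open Cfsg Matrix Cfsg.Agent.Asch Cfsg.Agent.H5.MH Module

universe u

variable {K : Type u} [Field K]

/-- commuting involutions are equal -/
def One {G : Type*} [Group G] (P : Subgroup G) : Prop :=
  ∀ g ∈ P, ∀ g' ∈ P, g * g = 1 → g' * g' = 1 → g ≠ 1 → g' ≠ 1 → g * g' = g' * g → g = g'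

theorem One.conj {G : Type*} [Group G] {P : Subgroup G} (h : One P) (Q : G) {a b : G} (ha : Q * a * Q⁻¹ ∈ P)
    (hb : Q * b * Q⁻¹ ∈ P) (h1 : a * a = 1) (h2 : b * b = 1) (h3 : a ≠ 1) (h4 : b ≠ 1) (h5 : a * b = b * a) : a = b :=
  conj_injective (h (Q * a * Q⁻¹) ha (Q * b * Q⁻¹) hb (by rw [conj_mul, h1]; simp) (by rw [conj_mul, h2]; simp)
    (by simpa using h3) (by simpa using h4) (by rw [conj_mul, conj_mul, h5]))

theorem One.lift (h2 : (2 : K) = 0) {P : Subgroup (G3 K)} (h : One P) (hd : ∀ x ∈ P, x.val.det = 1) {G : Type*} [Group G]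
    {A : Subgroup G} (π : bar P ≃* A) {a b : G} (ha : a ∈ A) (hb : b ∈ A) (h1 : a ^ 2 = 1) (h3 : b ^ 2 = 1) (h4 : a ≠ 1)
    (h5 : b ≠ 1) (h6 : a * b = b * a) : a = b := by
  obtain ⟨x, hx⟩ := Rp.ex π ha
  obtain ⟨y, hy⟩ := Rp.ex π hb
  obtain ⟨x, hx, -, -, -, -, -, -, e1⟩ := hx.lift hd h1 (by decide)
  obtain ⟨y, hy, -, -, -, -, -, -, e2⟩ := hy.lift hd h3 (by decide)
  obtain ⟨c, hc⟩ := pr_eq_iff.1 (((hx.mul hy).eq_iff (hy.mul hx)).1 h6)
  rw [sq] at e1 e2
  have e3 : (x * (x * y)).val = (c * c) • (y * (x * x)).val := by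
    rw [Units.val_mul, hc, mul_smul_comm, Units.val_mul, ← mul_assoc, ← Units.val_mul, hc, smul_mul_assoc, smul_smul]
    simp [mul_assoc]
  rw [← mul_assoc, e1, one_mul, mul_one] at e3
  have e4 : c * c = 1 := by
    have := congrArg (· * (y⁻¹).val) e3
    simp only [smul_mul_assoc, Units.mul_inv] at this
    simpa using (congrFun (congrFun this 0) 0).symm
  have e5 : c = 1 := by
    have : (c - 1) ^ 2 = 0 := by linear_combination e4 + (1 - c) * h2
    exact sub_eq_zero.1 (pow_eq_zero_iff two_ne_zero |>.1 this)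
  rw [e5, one_smul] at hc
  exact (hx.eq_iff hy).2 (congrArg pr (h _ hx.mem _ hy.mem e1 e2 (fun e => h4 (hx.eq_one_iff.2 (by simp [e])))
    (fun e => h5 (hy.eq_one_iff.2 (by simp [e]))) (Units.ext hc)))

theorem over3 {E : Subfield K} {a b c d e f g h i : K} (ha : a ∈ E) (hb : b ∈ E) (hc : c ∈ E) (hd : d ∈ E) (he : e ∈ E)
    (hf : f ∈ E) (hg : g ∈ E) (hh : h ∈ E) (hi : i ∈ E) : Over E !![a, b, c; d, e, f; g, h, i] := fun k l => by
  fin_cases k <;> fin_cases l <;> assumption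

theorem no_perfect [Finite K] (h2 : (2 : K) = 0) {P : Subgroup (G3 K)} (hp : ⁅P, P⁆ = P)
    (hi : Full (Geo.matrixSet P)) (h : One P) : False := by
  have hd : ∀ x ∈ P, x.val.det = 1 := fun x => det_eq_one_of_perfect hp
  have hc : ∀ Q a : G3 K, cj Q⁻¹ (Q * a * Q⁻¹).val = a.val := fun Q a =>
    (cj_coe _ _).trans (congrArg Units.val (by group))
  have h11 : (1 : K) + 1 = 0 := by linear_combination h2
  rcases mainF Cfsg.Agent.MH.main hp hi with ⟨E, Q, -, e⟩ | ⟨E, q, Q, hq, hE, e⟩ | ⟨e, -⟩ | e | ⟨⟨e⟩⟩ | ⟨e, -⟩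
  · have h1 : ∀ a ∈ E, ∀ b ∈ E, Q * up a b 0 * Q⁻¹ ∈ P := fun a ha b hb => (e (Q * up a b 0 * Q⁻¹)).2 ⟨det_conj Q (up_det a b 0), by
      rw [hc, up_val]
      exact over3 E.one_mem ha hb E.zero_mem E.one_mem E.zero_mem E.zero_mem E.zero_mem E.one_mem⟩
    have := h.conj Q (h1 1 E.one_mem 0 E.zero_mem) (h1 0 E.zero_mem 1 E.one_mem)
      (Units.ext (by simp [up_val, h11, one_fin_three])) (Units.ext (by simp [up_val, h11, one_fin_three]))
      (fun e => by simpa [up_val] using congrArg (fun g : G3 K => g.val 0 1) e)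
      (fun e => by simpa [up_val] using congrArg (fun g : G3 K => g.val 0 2) e) (Units.ext (by simp [up_val]))
    simpa [up_val] using congrArg (fun g : G3 K => g.val 0 1) this
  · have := Fintype.ofFinite E
    have hF : Fintype.card E = q ^ 2 := by rw [← Nat.card_eq_fintype_card, hE]
    obtain ⟨a, a1, a2, a3⟩ := H6.SU.exists_real hF hq
    let u : K → G3 K := fun c => mk1 !![1 + c, c, 0; c, 1 + c, 0; 0, 0, 1] (by
      simp [det_fin_three]; linear_combination c * h2)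
    have hu : ∀ c, (u c).val = !![1 + c, c, 0; c, 1 + c, 0; 0, 0, 1] := fun c => rfl
    have h1 : ∀ c : E, Form.frobQ hF c = c → Q * u c * Q⁻¹ ∈ P := fun c hc' => (e (Q * u c * Q⁻¹)).2 ⟨det_conj Q (g := u c) (by
      simp [hu, det_fin_three]; linear_combination c * h2), by
        rw [hc, hu]
        exact over3 (1 + c).2 c.2 E.zero_mem c.2 (1 + c).2 E.zero_mem E.zero_mem E.zero_mem E.one_mem, by
        have e1 : (c : K) ^ q = c := by simpa using congrArg (fun x : E => (x : K)) hc'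
        have e2 : (1 + c : K) ^ q = 1 + c := by
          simpa using congrArg (fun x : E => (x : K)) (show Form.frobQ hF (1 + c) = 1 + c by rw [map_add, map_one, hc'])
        have e3 : q ≠ 0 := by omega
        rw [hc, hu]
        ext i j
        fin_cases i <;> fin_cases j <;> simp [mul_apply, Fin.sum_univ_three, e1, e2, e3] <;> grind⟩
    have h3 : ∀ c d, u c * u d = u (c + d) := fun c d => Units.ext (by
      rw [Units.val_mul, hu, hu, hu]
      ext i j
      fin_cases i <;> fin_cases j <;> simp [mul_apply, Fin.sum_univ_three] <;> grind)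
    have h4 : ∀ c, u c * u c = 1 := fun c => by
      rw [h3, ← two_mul, h2, zero_mul]; exact Units.ext (by simp [hu, one_fin_three])
    have h5 : ∀ c d, u c = u d → c = d := fun c d e => by simpa [hu] using congrArg (fun g : G3 K => g.val 0 1) e
    have h6 : ∀ c, c ≠ 0 → u c ≠ 1 := fun c h0 e => h0 (by simpa [hu] using congrArg (fun g : G3 K => g.val 0 1) e)
    exact a3 (Subtype.ext (h5 _ _ (h.conj Q (h1 a a1) (h1 1 (map_one _)) (h4 _) (h4 _) (h6 _ (by simpa using a2))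
      (h6 _ (by simp)) (by rw [h3, h3, add_comm]))))
  · exact e h2
  · obtain ⟨π⟩ := exists_pi8 hp e
    have h1 : t8 * w8 * t8 ^ 2 ∈ X8 := mul_mem (mul_mem t8_mem w8_mem) (pow_mem t8_mem 2)
    exact absurd (h.lift h2 hd π w8_mem (mul_mem (mul_mem h1 w8_mem) (inv_mem h1)) (by decide) (by decide) (by decide)
      (by decide) (by decide)) (by decide)
  · obtain ⟨π⟩ := pi_of e
    exact absurd (h.lift h2 hd π (a := Equiv.swap 0 1 * Equiv.swap 2 3) (b := Equiv.swap 0 2 * Equiv.swap 1 3)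
      (by simp) (by simp) (by decide) (by decide) (by decide) (by decide) (by decide)) (by decide)
  · exact one_ne_zero (by linear_combination e - 2 * h2 : (1 : K) = 0)

theorem mono_type {ι : Type*} [DecidableEq ι] {v φ : ι → K} (h : ∀ i, ∃ j, ∃ a : K, ∀ l,
    (if i = l then 1 else 0) + φ i * v l = if j = l then a else 0) {i : ι} (h1 : φ i ≠ 0) (h2 : ∃ l, l ≠ i ∧ v l ≠ 0) :
    ∃ j, j ≠ i ∧ φ i * v i = -1 ∧ ∀ l, l ≠ i → l ≠ j → v l = 0 ∧ φ l = 0 := by
  have key : ∀ i, φ i ≠ 0 → (∃ l, l ≠ i ∧ v l ≠ 0) → ∃ j, j ≠ i ∧ φ i * v i = -1 ∧ ∀ l, l ≠ i → l ≠ j → v l = 0 :=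
    fun i h1 ⟨l, h2, h3⟩ => by
    obtain ⟨j, a, e⟩ := h i
    have h4 : ∀ l, l ≠ i → l ≠ j → v l = 0 := fun l a b => by simpa [a.symm, b.symm, h1] using e l
    have h5 : j ≠ i := by rintro rfl; exact h3 (h4 l h2 h2)
    exact ⟨j, h5, by have := e i; rw [if_pos rfl, if_neg h5] at this; linear_combination this, h4⟩
  obtain ⟨j, h3, h4, h5⟩ := key i h1 h2
  refine ⟨j, h3, h4, fun l a b => ⟨h5 l a b, of_not_not fun h6 => ?_⟩⟩
  obtain ⟨-, -, h7, -⟩ := key l h6 ⟨i, a.symm, fun e => by simp [e] at h4⟩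
  simp [h5 l a b] at h7

theorem tri3 [Finite K] (h2 : (2 : K) = 0) {L : Subgroup (G3 K)} (h : One L) {Γ : M3 K} (dg : ∀ i, Γ i i = 0)
    (ne : ∀ i j, i ≠ j → Γ i j ≠ 0) (nd : Γ.det ≠ 0) (t : Fin 3 → G3 K) (ht : ∀ i, t i ∈ L)
    (e : ∀ i, (t i).val = Cfsg.Agent.MH.T (Pi.single i 1) (Γ i)) : Γ 0 1 * Γ 1 0 = 1 ∨ Γ 0 2 * Γ 2 0 = 1 := by
  classical
  have := Fintype.ofFinite K
  have e1 : ∀ i w, (t i).val *ᵥ w = w + (Γ i ⬝ᵥ w) • Pi.single i 1 := fun i w => by rw [e, Cfsg.Agent.MH.T_mulVec]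
  have e2 : ∀ w, (∀ i, Γ i ⬝ᵥ w = 0) → w = 0 := fun w hw => eq_zero_of_mulVec_eq_zero nd (funext hw)
  have e3 : ∀ i, t i * t i = 1 := fun i => Units.ext (by
    rw [Units.val_mul, e, Cfsg.Agent.MH.T_mul_T, dotProduct_single_one, dg, zero_smul, add_zero, ← two_smul K, h2,
      zero_smul, Cfsg.Agent.MH.T_zero]; rfl)
  have e4 : ∀ i (c : K), (t i).val ≠ c • 1 := fun i c e' => by
    rcases Cfsg.Agent.MH.T_eq_scalar ((e i).symm.trans e') with h | h
    · simp at h
    · exact ne i (i + 1) (by fin_cases i <;> decide) (congrFun h _)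
  have hI : Irr L := fun W hW => or_iff_not_imp_left.2 fun h0 => by
    obtain ⟨w, hw, h1⟩ := (Submodule.ne_bot_iff W).1 h0
    have h3 : ∀ i, ∀ w ∈ W, Γ i ⬝ᵥ w ≠ 0 → Pi.single i (1 : K) ∈ W := fun i w hw h3 =>
      (W.smul_mem_iff h3).1 ((W.add_mem_iff_right hw).1 (e1 i w ▸ hW _ (ht i) w hw))
    obtain ⟨i, h4⟩ := not_forall.1 (mt (e2 w) h1)
    have h5 : ∀ j, Pi.single j (1 : K) ∈ W := fun j => by
      by_cases h6 : j = i
      · exact h6 ▸ h3 i w hw h4
      · exact h3 j _ (h3 i w hw h4) (by simpa using ne j i h6)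
    refine eq_top_iff.2 fun x _ => ?_
    rw [pi_eq_sum_univ' x]
    exact W.sum_mem fun j _ => W.smul_mem _ (h5 j)
  rcases X.struct hI with ⟨y, ψ, hy⟩ | ⟨F, hF, hn⟩ | ⟨R, hc, hf, hn⟩ | ⟨P, h1, h3, h4, -⟩
  · let v : Fin 3 → Fin 3 → K := fun i => y.repr (Pi.single i 1)
    let φ : Fin 3 → Fin 3 → K := fun i l => Γ i ⬝ᵥ y l
    have a1 : ∀ i j, Γ i j = φ i 0 * v j 0 + φ i 1 * v j 1 + φ i 2 * v j 2 := fun i j => by
      have := congrArg (Γ i ⬝ᵥ ·) (y.sum_repr (Pi.single j 1))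
      simp only [Fin.sum_univ_three, dotProduct_add, dotProduct_smul, dotProduct_single_one, smul_eq_mul] at this
      simp only [v, φ]
      linear_combination -this
    have a2 : ∀ i, ∃ k, v i k = 0 ∧ φ i k = 0 ∧ ∀ l, l ≠ k → φ i l * v i l = 1 := fun i => by
      have b1 := a1 i i
      have b2 := ne i (i + 1) (by fin_cases i <;> decide)
      have b3 := ne (i + 1) i (by fin_cases i <;> decide)
      rw [dg] at b1
      rw [a1] at b2 b3
      obtain ⟨m, hm⟩ : ∃ m, φ i m ≠ 0 := by by_contra! h; simp [h] at b2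
      obtain ⟨j, b4, b5, b6⟩ := mono_type (v := v i) (φ := φ i) (fun m => by
        obtain ⟨c, hc⟩ := hy ⟨_, ht i⟩ m
        rw [e1] at hc
        exact ⟨_, c, fun l => by simpa [Finsupp.single_apply, v, φ] using congrArg (y.repr · l) hc⟩) hm (by
          by_contra! h
          fin_cases m <;> simp [h] at b1 b3 <;> grind)
      fin_cases m <;> fin_cases j <;> simp at b4 b5 b6
      all_goals first
        | exact ⟨0, (b6 0 (by decide) (by decide)).1, (b6 0 (by decide) (by decide)).2, fun l => by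
            have := b6 0 (by decide) (by decide); fin_cases l <;> simp <;> grind⟩
        | exact ⟨1, (b6 1 (by decide) (by decide)).1, (b6 1 (by decide) (by decide)).2, fun l => by
            have := b6 1 (by decide) (by decide); fin_cases l <;> simp <;> grind⟩
        | exact ⟨2, (b6 2 (by decide) (by decide)).1, (b6 2 (by decide) (by decide)).2, fun l => by
            have := b6 2 (by decide) (by decide); fin_cases l <;> simp <;> grind⟩
    choose k b1 b2 b3 using a2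
    have a3 : ∀ i j, k i ≠ k j → Γ i j * Γ j i = 1 := fun i j hij => by
      rw [a1, a1]
      have c1 := b1 i; have c2 := b2 i; have c3 := b3 i; have c4 := b1 j; have c5 := b2 j; have c6 := b3 j
      generalize k i = a at *
      generalize k j = b at *
      have := c3 0; have := c3 1; have := c3 2; have := c6 0; have := c6 1; have := c6 2
      fin_cases a <;> fin_cases b <;> simp at * <;> grind
    by_cases h01 : k 0 = k 1
    · refine Or.inr (a3 0 2 fun h02 => y.ne_zero (k 0) (e2 _ fun i => ?_))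
      fin_cases i
      exacts [b2 0, h01 ▸ b2 1, h02 ▸ b2 2]
    · exact Or.inl (a3 0 1 h01)
  · have h1 := X.sg_cube hF (hn (ht 0))
    rw [pow_three', e3, one_mul] at h1
    refine (e4 0 1 (X.sg_eig hF h1 (exists_mulVec_eq_zero_iff.1 ⟨Pi.single 0 1, by simp, ?_⟩))).elim
    rw [sub_mulVec, e1, one_smul, one_mulVec]; simp [dg]
  · have a1 : ∀ i, ∀ x ∈ R, pr (t i) * pr x * (pr (t i))⁻¹ = (pr x)⁻¹ := fun i x hx => X.hs_neg hc hf hn (ht i)
      (by rw [← map_pow, sq, e3, map_one]) (fun h => by obtain ⟨c, h⟩ := pr_eq_one'.1 h; exact e4 i c h) hx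
    have a2 : T (t 0 * t 1) = 1 + Γ 0 1 * Γ 1 0 := by
      simp [T, e, Cfsg.Agent.MH.T, mul_add, add_mul, vecMulVec_mul_vecMulVec, dg]
      linear_combination h2
    left
    by_contra h1
    obtain ⟨c, h3⟩ := hf.isSc (Z := (t 0 * t 1).val) (by
      rintro _ ⟨x, hx, rfl⟩
      obtain ⟨c, h3⟩ := pr_eq_iff.1 (show pr (x * (t 0 * t 1) * x⁻¹) = pr (t 0 * t 1) by
        have b1 := a1 0 _ (inv_mem hx)
        have b2 := a1 1 _ hx
        simp only [map_mul, map_inv] at b1 ⊢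
        have b3 : pr (t 0) * (pr (t 1) * pr x * (pr (t 1))⁻¹) * (pr (t 0))⁻¹ = pr x := by rw [b2, b1, inv_inv]
        generalize pr (t 0) = a at *
        generalize pr (t 1) = b at *
        generalize pr x = z at *
        calc z * (a * b) * z⁻¹ = (a * (b * z * b⁻¹) * a⁻¹) * (a * b) * z⁻¹ := by rw [b3]
          _ = a * b := by group)
      have h4 := T_of_smul h3
      rw [T_conj, eq_comm, mul_eq_right₀ (fun e => h1 (by linear_combination e - a2 - h2))] at h4
      rw [h4, one_smul, Units.val_inj, mul_inv_eq_iff_eq_mul] at h3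
      exact congrArg Units.val h3.symm)
    have h4 : (t 0).val = c • (t 1).val := by
      rw [← mul_one (t 0), ← e3 1, ← mul_assoc, Units.val_mul, h3, smul_mul_assoc, one_mul]
    rw [e, e] at h4
    rw [T, h3, Cfsg.Agent.MH.T_eq_smul h4] at a2
    simp at a2
    exact (mul_ne_zero (ne 0 1 (by decide)) (ne 1 0 (by decide)) (by linear_combination h2 - a2)).elim
  · exact (no_perfect h2 h3 h4 fun g hg g' hg' => h g (h1 hg) g' (h1 hg')).elim

end Cfsg.Agent.H5.TA
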