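import Cfsg.Agent.H5.TA2a
import Cfsg.Agent.H5.TA1

/-!
Transvection groups in characteristic two with root groups of order two: triangles.
-/

set_option autoImplicit false

namespace Cfsg.Agent.H5.TA

open Module Cfsg.Agent.H7 Matrix

variable {K V : Type*} [Field K] [AddCommGroup V] [Module K V] {M : Subgroup (V ≃ₗ[K] V)} {φ ψ χ : Dual K V} {u v w : V}

/-- the elements of `M` supported on a three-dimensional summand -/
def lift (M : Subgroup (V ≃ₗ[K] V)) (ι : (Fin 3 → K) →ₗ[K] V) (π : V →ₗ[K] (Fin 3 → K)) (h : ∀ c, π (ι c) = c) :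
    Subgroup (GL (Fin 3) K) where
  carrier := {g | ∃ m ∈ M, ∀ z, m z = z + ι (g.val *ᵥ π z - π z)}
  one_mem' := ⟨1, one_mem _, fun z => by simp⟩
  mul_mem' := by
    rintro a b ⟨m, hm, e⟩ ⟨m', hm', e'⟩
    refine ⟨m * m', mul_mem hm hm', fun z => ?_⟩
    rw [LinearEquiv.mul_apply, e', e, map_add, h, add_assoc, ← map_add]
    simp
  inv_mem' := by
    rintro a ⟨m, hm, e⟩
    refine ⟨m⁻¹, inv_mem hm, fun z => m.symm_apply_eq.2 ?_⟩
    rw [e, map_add, h, add_assoc, ← map_add]
    simp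

theorem lift_iff {ι : (Fin 3 → K) →ₗ[K] V} {π : V →ₗ[K] (Fin 3 → K)} (h : ∀ c, π (ι c) = c) {g : GL (Fin 3) K} {a b : Fin 3 → K}
    (e : g.val = Agent.MH.T a b) (hφ : ∀ z, φ z = b ⬝ᵥ π z) : g ∈ lift M ι π h ↔ Has M φ (ι a) :=
  exists_congr fun m => and_congr_right fun _ => forall_congr' fun z => by rw [e, Agent.MH.T_mulVec, hφ]; simp

/-- all root groups have two elements -/
def Q2 (M : Subgroup (V ≃ₗ[K] V)) : Prop := ∀ φ v, Tv M φ v → ∀ a : K, Has M (a • φ) v → a = 0 ∨ a = 1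

theorem Q2.eq (q : Q2 M) (uq : Uq M) (t : Tv M φ v) (s : Tv M ψ w) (h : (∃ c : K, w = c • v) ∨ ∃ c : K, ψ = c • φ) (z : V) :
    ψ z • w = φ z • v := by
  obtain ⟨c, d, rfl, rfl⟩ : ∃ c d : K, w = c • v ∧ ψ = d • φ := by
    rcases h with ⟨c, rfl⟩ | ⟨c, rfl⟩
    · have h0 : c ≠ 0 := by rintro rfl; simpa using s.v0
      obtain ⟨d, e⟩ := uq.axis t (ψ := c • ψ) (by simpa [h0] using s.smul (inv_ne_zero h0))
      exact ⟨c, c⁻¹ * d, rfl, by rw [mul_smul, ← e]; simp [h0]⟩
    · have h0 : c ≠ 0 := by rintro rfl; simpa using s.φ0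
      obtain ⟨d, e⟩ := uq.ctr t (w := c • w) (by simpa [h0] using s.smul h0)
      exact ⟨c⁻¹ * d, c, by rw [mul_smul, ← e]; simp [h0], rfl⟩
  rcases q φ v t (c * d) (s.has.congr fun z => by simp [smul_smul]; ring_nf) with e | e
  · rcases mul_eq_zero.1 e with rfl | rfl
    exacts [absurd (zero_smul _ _) s.v0, absurd (zero_smul _ _) s.φ0]
  · simp only [LinearMap.smul_apply, smul_smul, smul_eq_mul]
    congr 1; linear_combination φ z * e

theorem factF [Finite K] (h2 : (2 : K) = 0) (uq : Uq M) (q : Q2 M) (t1 : Tv M φ v) (t2 : Tv M ψ w) (t3 : Tv M χ u)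
    (ns : φ w * ψ u * χ v + φ u * χ w * ψ v ≠ 0) : φ w * ψ v = 1 ∨ φ u * χ v = 1 := by
  let f : Fin 3 → Dual K V := ![φ, ψ, χ]
  let x : Fin 3 → V := ![v, w, u]
  have t : ∀ i, Tv M (f i) (x i) := fun i => by fin_cases i <;> assumption
  let Γ : Matrix (Fin 3) (Fin 3) K := Matrix.of fun i j => f i (x j)
  have nd : Γ.det ≠ 0 := by
    convert ns using 1
    simp [Γ, f, x, det_fin_three, t1.zero, t2.zero, t3.zero]; ring
  let ι := Fintype.linearCombination K x
  let π : V →ₗ[K] (Fin 3 → K) := Γ⁻¹.mulVecLin ∘ₗ LinearMap.pi f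
  have hπ : ∀ z, Γ *ᵥ π z = fun i => f i z := fun z => by
    simp [π, mul_nonsing_inv _ nd.isUnit]; rfl
  have h : ∀ c, π (ι c) = c := fun c => mulVec_injective_of_isUnit ((isUnit_iff_isUnit_det _).2 nd.isUnit) (by
    rw [hπ]; ext i; simp [ι, Fintype.linearCombination_apply, mulVec, dotProduct, Γ, mul_comm])
  refine tri3 h2 (L := lift M ι π h) (Γ := Γ) ?_ (fun i => (t i).zero) (fun i j hij e => ns ?_) nd
    (fun i => GeneralLinearGroup.mkOfDetNeZero (Agent.MH.T (Pi.single i 1) (Γ i)) (by simp [Agent.MH.det_T, Γ, (t i).zero]))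
    (fun i => (lift_iff (φ := f i) h rfl fun z => (congrFun (hπ z) i).symm).2 (by simpa [ι] using (t i).has)) fun i => rfl
  · have k : ∀ g ∈ lift M ι π h, g * g = 1 → g ≠ 1 → ∃ a b, g.val = Agent.MH.T a b ∧ a ≠ 0 ∧ b ≠ 0 ∧ b ⬝ᵥ a = 0 ∧
        Tv M (dotProductBilin K K b ∘ₗ π) (ι a) := fun g hg e1 e2 => by
      have e3 : (g.val - 1) * (g.val - 1) = 0 := by
        have : g.val * g.val = 1 := by rw [← Units.val_mul, e1]; rfl
        rw [sub_mul, mul_sub, this]
        simp only [mul_one, one_mul]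
        linear_combination (norm := module) h2 • (1 - g.val)
      have e4 : g.val - 1 ≠ 0 := fun e => e2 (Units.ext (sub_eq_zero.1 e))
      have e5 := Agent.MH.cayley (g.val - 1)
      have e6 : (g.val - 1).det = 0 := by simpa using congrArg det e3
      have e7 : (g.val - 1).trace = 0 := (isNilpotent_trace_of_isNilpotent ⟨2, by rw [sq, e3]⟩).eq_zero
      simp only [e3, e6, zero_mul, smul_zero, zero_smul, add_zero, zero_sub, zero_eq_neg, smul_eq_zero, e4, or_false] at e5
      obtain ⟨a, b, e⟩ := Agent.MH.rank_one (M := g.val - 1) (by simp only [e3, e5, e7]; simp)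
      have e8 : g.val = Agent.MH.T a b := by rw [Agent.MH.T, ← e]; simp
      rw [e] at e4 e7
      have a0 : a ≠ 0 := by rintro rfl; simp at e4
      have b0 : b ≠ 0 := by rintro rfl; simp at e4
      rw [trace_vecMulVec, dotProduct_comm] at e7
      refine ⟨a, b, e8, a0, b0, e7, (lift_iff h e8 fun z => rfl).1 hg, by simp [h, e7], fun e => b0 (funext fun j => ?_),
        fun e => a0 (by rw [← h a, e, map_zero])⟩
      simpa [h] using LinearMap.congr_fun e (ι (Pi.single j 1))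
    intro g hg g' hg' e1 e2 e3 e4 e5
    obtain ⟨a, b, e, a0, b0, c, s⟩ := k g hg e1 e3
    obtain ⟨a', b', e', a0', b0', c', s'⟩ := k g' hg' e2 e4
    have e6 : b ⬝ᵥ a' = 0 := by
      by_contra e6
      have e7 : b' ⬝ᵥ a ≠ 0 := fun e => e6 (by simpa [h] using uq.ns s s' (by simpa [h] using e))
      have e8 := congrArg (fun g : GL (Fin 3) K => g.val *ᵥ a) e5
      simp only [Units.val_mul, ← mulVec_mulVec, e, e', Agent.MH.T_mulVec, c, dotProduct_add, dotProduct_smul, zero_smul,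
        add_zero, zero_add] at e8
      simp [e6, e7, a0] at e8
    have e7 : b' ⬝ᵥ a = 0 := by simpa [h] using uq.ns s' s (by simpa [h] using e6)
    have := q.eq uq s s' ((Agent.MH.ind_or a0 a').symm.imp (fun ⟨c, e⟩ => ⟨c, by simp [e]⟩) fun i => by
      obtain ⟨d, rfl⟩ := i.eq_smul b0 e7 c' c e6
      exact ⟨d, by ext; simp⟩)
    refine Units.ext (Matrix.ext_of_mulVec_single fun j => ?_)
    rw [e, e', Agent.MH.T_mulVec, Agent.MH.T_mulVec]
    simpa [h] using congrArg π (this (ι (Pi.single j 1))).symm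
  · have e' := uq.ns (t j) (t i) e
    fin_cases i <;> fin_cases j <;> simp [Γ, f, x] at e e' hij <;> simp [e, e']

theorem Hy.not_mono [Finite K] (h : Hy M) {O : Dual K V → V → Prop} (c : Cls M O) (b : Basis (Fin 4) K V)
    (m : ∀ φ v, O φ v → ∀ i, ∃ j, ∃ a : K, b i + φ (b i) • v = a • b j) : False := by
  have := FiniteDimensional.of_finrank_pos (K := K) (V := V) (by rw [h.dim]; decide)
  have : Finite V := Module.finite_of_finite K
  have : Finite (V ≃ₗ[K] V) := Finite.of_injective (fun g : V ≃ₗ[K] V => (g : V → V)) DFunLike.coe_injective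
  let S : Set (Submodule K V) := Set.range fun i => K ∙ b i
  let N : Subgroup (V ≃ₗ[K] V) := H9.Mi.toSub
    { carrier := {g | ∀ i, ∃ j, ∃ a : K, g (b i) = a • b j}
      one_mem' := fun i => ⟨i, 1, by simp⟩
      mul_mem' := fun {g g'} hg hg' i => by
        obtain ⟨j, a, e⟩ := hg' i
        obtain ⟨k, a', e'⟩ := hg j
        exact ⟨k, a * a', by rw [LinearEquiv.mul_apply, e, map_smul, e', mul_smul]⟩ }
  obtain ⟨φ, v, o⟩ := c.ex
  have hN : M ≤ N := h.gen φ v (c.tv o) N fun g hg => by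
    obtain ⟨t, -, e⟩ := (c.tv (c.map o hg)).has
    exact ⟨t, fun i => by rw [e]; exact m _ _ (c.map o hg) i, e⟩
  have hp : commutator M = ⊤ := by
    apply Subgroup.map_injective M.subtype_injective
    rw [Subgroup.map_subtype_commutator, h.perf, ← MonoidHom.range_eq_map, Subgroup.range_subtype]
  open Pointwise in
  have := Agent.MH.fix_of_ncard_le hp (X := Submodule K V) (S := S) (Set.finite_range _)
    (by simpa [S] using Set.ncard_image_le (s := Set.univ) (f := fun i => K ∙ b i)) (x := K ∙ b 0) fun g => by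
      obtain ⟨j, a, e⟩ := hN g.2 0
      have h0 : a ≠ 0 := by rintro rfl; simp [b.ne_zero] at e
      refine ⟨j, ?_⟩
      change _ = (K ∙ b 0).map (g.1 : V →ₗ[K] V)
      rw [Submodule.map_span, Set.image_singleton, LinearEquiv.coe_coe, e, Submodule.span_singleton_smul_eq h0.isUnit]
  rcases h.irr (K ∙ b 0) (fun g hg x hx => this ⟨g, hg⟩ ▸ Submodule.mem_map_of_mem (f := (g : V →ₗ[K] V)) hx) with e | e
  · exact b.ne_zero 0 (Submodule.span_singleton_eq_bot.1 e)
  · have := finrank_span_singleton_le (F := K) (b 0)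
    rw [e, finrank_top, h.dim] at this
    omega

end Cfsg.Agent.H5.TA
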