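import Cfsg.Agent.H5.TA2b

/-!
Transvection groups in characteristic two with root groups of order two: the monomial case.
-/

set_option autoImplicit false

namespace Cfsg.Agent.H5.TA

open Module Cfsg.Agent.H7 Matrix Polynomial

variable {K V : Type*} [Field K] [AddCommGroup V] [Module K V] {M : Subgroup (V ≃ₗ[K] V)} {φ ψ χ : Dual K V} {u v w : V}
  {b : Basis (Fin 4) K V} {x y x' y' x'' y'' : Fin 4 → K} {i j k : Fin 4} {κ μ l : K}

theorem five (h2 : (2 : K) = 0) (h0 : l ≠ 0) (h1 : l ≠ 1) (h3 : l ^ 2 + l + 1 ≠ 0) {a b c d e f : K}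
    (h : ∀ n : ℕ, (a * (l ^ n) ^ 2 + b * l ^ n + c) * (d * (l ^ n) ^ 2 + e * l ^ n + f) = 0) :
    (a = 0 ∧ b = 0) ∨ d = 0 := by
  have : CharP K 2 := (CharP.charP_iff_prime_eq_zero Nat.prime_two).2 (by exact_mod_cast h2)
  have := eq_zero_of_natDegree_lt_card_of_eval_eq_zero ((C a * X ^ 2 + C b * X + C c) * (C d * X ^ 2 + C e * X + C f))
    (f := fun n : Fin 5 => l ^ (n : ℕ)) (fun m n e => by fin_cases m <;> fin_cases n <;> simp at e ⊢ <;> grind)
    (fun n => by simpa using h n) (lt_of_le_of_lt (by compute_degree) (by simp : 4 < _))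
  rcases mul_eq_zero.1 this with e | e
  · exact Or.inl ⟨by simpa [coeff_X, coeff_C] using congrArg (coeff · 2) e,
      by simpa [coeff_X, coeff_C] using congrArg (coeff · 1) e⟩
  · exact Or.inr (by simpa [coeff_X, coeff_C] using congrArg (coeff · 2) e)

theorem alg5 (h2 : (2 : K) = 0) (h0 : l ≠ 0) (h1 : l ≠ 1) (h3 : l ^ 2 + l + 1 ≠ 0) {x0 x1 x2 y0 y1 y2 : K}
    (h : ∀ m n : ℕ, (y0 + y1 * l ^ m) * (x0 + x2 * (l ^ n)⁻¹) + (y0 + y2 * l ^ n) * (x0 + x1 * (l ^ m)⁻¹) = 0 ∨
      (y0 + y1 * l ^ m) * (x0 + x1 * (l ^ m)⁻¹) = 1 ∨ (y0 + y2 * l ^ n) * (x0 + x2 * (l ^ n)⁻¹) = 1) :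
    x0 = 0 ∨ y1 = 0 ∨ y2 = 0 := by
  by_contra! e
  have := five h2 h0 h1 h3 (a := 0) (b := x0) (c := x1) (d := y1 * x0) (e := y0 * x0 + y1 * x1 - 1) (f := y0 * x1) fun m => by
    by_contra c
    have c1 := mul_inv_cancel₀ (pow_ne_zero m h0)
    have := five h2 h0 h1 h3 (a := y2 * (x0 + x1 * (l ^ m)⁻¹)) (b := (y0 + y1 * l ^ m) * x0 + y0 * (x0 + x1 * (l ^ m)⁻¹))
      (c := (y0 + y1 * l ^ m) * x2) (d := y2 * x0) (e := y0 * x0 + y2 * x2 - 1) (f := y0 * x2) fun n => by
        have c2 := mul_inv_cancel₀ (pow_ne_zero n h0)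
        rcases h m n with a | a | a
        · exact mul_eq_zero_of_left (by linear_combination l ^ n * a - (y0 + y1 * l ^ m) * x2 * c2) _
        · exact (c (mul_eq_zero_of_right _ (by linear_combination l ^ m * a - (y0 + y1 * l ^ m) * x1 * c1))).elim
        · exact mul_eq_zero_of_right _ (by linear_combination l ^ n * a - (y0 + y2 * l ^ n) * x2 * c2)
    simp only [mul_eq_zero, e, false_or, or_false] at this
    exact c (mul_eq_zero_of_left (by linear_combination l ^ m * this.1 - x1 * c1) _)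
  simp [e] at this

/-- transvections in coordinates -/
def W (M : Subgroup (V ≃ₗ[K] V)) (b : Basis (Fin 4) K V) (x y : Fin 4 → K) : Prop :=
  Tv M (b.constr K y) (b.equivFun.symm x)

theorem ev (b : Basis (Fin 4) K V) (x y : Fin 4 → K) : b.constr K y (b.equivFun.symm x) = y ⬝ᵥ x := by
  simp [dotProduct, mul_comm]

theorem W.conj (h : W M b x y) (h' : W M b x' y') : W M b (x + (y' ⬝ᵥ x) • x') (y - (y ⬝ᵥ x') • y') := by
  simpa only [W, ev, map_add, map_sub, map_smul] using Tv.conj h h'.has h'.zero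

theorem W.smul (h : W M b x y) (h0 : κ ≠ 0) : W M b (κ • x) (κ⁻¹ • y) := by
  simpa only [W, map_smul] using Tv.smul h h0

theorem W.congr (h : W M b x y) (e : ∀ i, x' i = x i) (e' : ∀ i, y' i = y i) : W M b x' y' := by
  rwa [funext e, funext e']

theorem W.eq (q : Q2 M) (uq : Uq M) (h : W M b x y) (h' : W M b x' y') (e : (∃ c : K, x' = c • x) ∨ ∃ c : K, y' = c • y)
    (i j : Fin 4) : y' i * x' j = y i * x j := by
  simpa only [map_smul, LinearEquiv.apply_symm_apply, Basis.constr_basis, Pi.smul_apply, smul_eq_mul] using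
    congrArg (b.equivFun · j) (q.eq uq h h'
    (e.imp (fun ⟨c, e⟩ => ⟨c, by rw [e, map_smul]⟩) fun ⟨c, e⟩ => ⟨c, by rw [e, map_smul]⟩) (b i))

/-- a vector of weight two -/
def rx (i j : Fin 4) (κ : K) : Fin 4 → K := Pi.single i 1 + Pi.single j κ

@[simp] theorem dot_rx (y : Fin 4 → K) (i j : Fin 4) (κ : K) : y ⬝ᵥ rx i j κ = y i + y j * κ := by simp [rx]

@[simp] theorem rx_dot (y : Fin 4 → K) (i j : Fin 4) (κ : K) : rx i j κ ⬝ᵥ y = y i + y j * κ := by
  rw [dotProduct_comm, dot_rx]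

theorem rx_apply (i j k : Fin 4) (κ : K) : rx i j κ k = (if k = i then 1 else 0) + if k = j then κ else 0 := by
  simp [rx, Pi.single_apply]

/-- monomial transvections -/
def R (M : Subgroup (V ≃ₗ[K] V)) (b : Basis (Fin 4) K V) (i j : Fin 4) (κ : K) : Prop :=
  κ ≠ 0 ∧ W M b (rx i j κ) (rx i j κ⁻¹)

theorem R.symm (h : R M b i j κ) : R M b j i κ⁻¹ := by
  have := h.1
  exact ⟨inv_ne_zero h.1, (h.2.smul (inv_ne_zero h.1)).congr (fun k => by simp only [rx_apply, Pi.smul_apply, smul_eq_mul]; grind)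
    fun k => by simp only [rx_apply, Pi.smul_apply, smul_eq_mul]; grind⟩

theorem R.div (h2 : (2 : K) = 0) (h : R M b i j κ) (h' : R M b i k μ) (a1 : i ≠ j) (a2 : i ≠ k) (a3 : j ≠ k) :
    R M b j k (μ / κ) := by
  have := h.1
  have := h'.1
  refine ⟨div_ne_zero h'.1 h.1, ((h.2.conj h'.2).smul (inv_ne_zero h.1)).congr (fun k => ?_) fun k => ?_⟩ <;>
    simp only [rx_apply, rx_dot, Pi.smul_apply, Pi.add_apply, Pi.sub_apply, smul_eq_mul] <;> grind

/-- all monomial transvections on the first three coordinates -/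
def P (M : Subgroup (V ≃ₗ[K] V)) (b : Basis (Fin 4) K V) (κ : K) : Prop := ∀ i j, i ≠ 3 → j ≠ 3 → i ≠ j → R M b i j κ

theorem P.of (h2 : (2 : K) = 0) (h1 : P M b 1) (h : R M b 1 2 κ) : P M b κ := by
  have k : ∀ {i j} (k : Fin 4), R M b i j κ → i ≠ 3 → k ≠ 3 → i ≠ j → i ≠ k → j ≠ k → R M b k j κ := fun k h a b c d e => by
    simpa using (h1 _ _ a b d).div h2 h d c e.symm
  have k' : ∀ {i j} (k : Fin 4), R M b i j κ → j ≠ 3 → k ≠ 3 → i ≠ j → i ≠ k → j ≠ k → R M b i k κ := fun k h a b c d e => by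
    simpa using h.symm.div h2 (h1 _ _ a b e) c.symm e d
  have a1 := k 0 h (by decide) (by decide) (by decide) (by decide) (by decide)
  have a2 := k' 0 h (by decide) (by decide) (by decide) (by decide) (by decide)
  have a3 := k' 1 a1 (by decide) (by decide) (by decide) (by decide) (by decide)
  have a4 := k 2 a2 (by decide) (by decide) (by decide) (by decide) (by decide)
  have a5 := k 2 a3 (by decide) (by decide) (by decide) (by decide) (by decide)
  intro i j a b c
  fin_cases i <;> fin_cases j <;> first | assumption | contradiction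

theorem P.div (h2 : (2 : K) = 0) (h1 : P M b 1) (h : P M b κ) (h' : P M b μ) : P M b (μ / κ) :=
  h1.of h2 ((h 0 1 (by decide) (by decide) (by decide)).div h2 (h' 0 2 (by decide) (by decide) (by decide)) (by decide)
    (by decide) (by decide))

theorem W.F [Finite K] (h2 : (2 : K) = 0) (uq : Uq M) (q : Q2 M) (h : W M b x y) (h' : W M b x' y') (h'' : W M b x'' y'')
    (ns : y ⬝ᵥ x' * y' ⬝ᵥ x'' * y'' ⬝ᵥ x + y ⬝ᵥ x'' * y'' ⬝ᵥ x' * y' ⬝ᵥ x ≠ 0) :
    y ⬝ᵥ x' * y' ⬝ᵥ x = 1 ∨ y ⬝ᵥ x'' * y'' ⬝ᵥ x = 1 := by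
  simpa only [ev] using factF h2 uq q h h' h'' (by simpa only [ev])

theorem frame_false [Finite K] (h2 : (2 : K) = 0) (h : Hy M) (uq : Uq M) (q : Q2 M) (p1 : P M b 1) (pl : P M b l)
    (h1 : l ≠ 1) (h3 : l ^ 2 + l + 1 ≠ 0) (t : Tv M φ v) : False := by
  have : CharP K 2 := (CharP.charP_iff_prime_eq_zero Nat.prime_two).2 (by exact_mod_cast h2)
  have h0 : l ≠ 0 := (pl 0 1 (by decide) (by decide) (by decide)).1
  have pi : P M b l⁻¹ := by simpa using p1.div h2 pl p1
  have pn : ∀ n : ℕ, P M b (l ^ n) := fun n => by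
    induction n with
    | zero => simpa using p1
    | succ n ih => simpa [pow_succ] using p1.div h2 pi ih
  refine h.not_mono (cls_tv t) b fun φ v t => ?_
  obtain ⟨x, rfl⟩ := b.equivFun.symm.surjective v
  obtain ⟨y, rfl⟩ := (b.constr K).surjective φ
  change W M b x y at t
  suffices ∃ i j, i ≠ j ∧ y i * x i = 1 ∧ y j * x j = 1 ∧ ∀ k, k ≠ i → k ≠ j → x k = 0 ∧ y k = 0 by
    obtain ⟨i, j, a1, a2, a3, a4⟩ := this
    have k : ∀ m n (a : K), (∀ r, (if m = r then 1 else 0) + y m * x r = if n = r then a else 0) →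
        b m + b.constr K y (b m) • b.equivFun.symm x = a • b n := fun m n a e => b.equivFun.injective (funext fun r => by
      simpa [Finsupp.single_apply] using e r)
    intro m
    by_cases c1 : m = i
    · exact ⟨j, y i * x j, k _ _ _ fun r => by have := a4 r; grind⟩
    by_cases c2 : m = j
    · exact ⟨i, y j * x i, k _ _ _ fun r => by have := a4 r; grind⟩
    · exact ⟨m, 1, k _ _ _ fun r => by have := a4 m; grind⟩
  have z : y 0 * x 0 + y 1 * x 1 + y 2 * x 2 + y 3 * x 3 = 0 := by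
    simpa [dotProduct, Fin.sum_univ_four] using (ev b x y).symm.trans t.zero
  have pr : ∀ i j, i ≠ 3 → j ≠ 3 → i ≠ j → y i * x i = y j * x j ∨ (x j = 0 ∧ y j = 0 ∧ y i * x i = 1) ∨
      (x i = 0 ∧ y i = 0 ∧ y j * x j = 1) := fun i j a1 a2 a3 => or_iff_not_imp_left.2 fun e => by
    have k : ∀ κ μ, P M b κ → P M b μ → μ = l * κ ∨ κ = l * μ → (x i + x j * κ⁻¹) * (y i + y j * κ) = 1 :=
      fun κ μ pκ pμ e' => by
      have c1 := (pκ i j a1 a2 a3).1
      have c2 := (pμ i j a1 a2 a3).1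
      have := W.F h2 uq q (pκ i j a1 a2 a3).2 (pμ i j a1 a2 a3).2 t
      simp only [rx_dot, dot_rx, rx_apply, if_pos, if_neg a3, if_neg a3.symm] at this
      rcases e' with rfl | rfl <;> exact (this (by grind)).resolve_left (by grind)
    have k1 := k 1 l p1 pl (by simp)
    have k2 := k l 1 pl p1 (by simp)
    have k3 := k l⁻¹ 1 pi p1 (by simp [h0])
    have k4 : x i * y j = 0 ∧ x j * y i = 0 := by grind
    grind
  have key : ∀ i j k, i ≠ 3 → j ≠ 3 → k ≠ 3 → i ≠ j → i ≠ k → j ≠ k → x j = 0 → y j = 0 → y i * x i = 1 →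
      ∃ i j, i ≠ j ∧ y i * x i = 1 ∧ y j * x j = 1 ∧ ∀ k, k ≠ i → k ≠ j → x k = 0 ∧ y k = 0 :=
    fun i j k a1 a2 a3 a4 a5 a6 c1 c2 c3 => by
    have d1 : ∀ r, r = i ∨ r = j ∨ r = k ∨ r = 3 := by clear c1 c2 c3; revert i j k; decide
    have d2 : y i * x i + y j * x j + y k * x k + y 3 * x 3 = 0 := by
      clear d1 c1 c2 c3
      fin_cases i <;> fin_cases j <;> fin_cases k <;> first | contradiction | (simp only [Fin.zero_eta, Fin.mk_one, Fin.reduceFinMk]; linear_combination z)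
    rcases pr i k a1 a3 a5 with e | e | e
    · have sc : ∀ {x y} (i : Fin 4), i ≠ 3 → i ≠ j → W M b x y → x j = 0 → y j = 0 →
          W M b (x + Pi.single i ((l + 1) * x i)) (y + Pi.single i ((l⁻¹ + 1) * y i)) := fun i a a' t e e' => by
        refine ((t.conj (pl i j a a2 a').2).conj (p1 i j a a2 a').2).congr (fun r => ?_) fun r => ?_ <;>
          simp only [rx_apply, rx_dot, dot_rx, Pi.smul_apply, Pi.add_apply, Pi.sub_apply, smul_eq_mul, Pi.single_apply] <;> grind
      have k := t.eq q uq (sc k a3 a6.symm (sc i a1 a4 t c1 c2) (by simp [c1, a4]) (by simp [c2, a4])) (by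
        rcases mul_eq_zero.1 (show y 3 * x 3 = 0 by grind) with e | e
        · exact Or.inr ⟨l⁻¹, funext fun r => by
            have := d1 r
            simp only [Pi.smul_apply, Pi.add_apply, smul_eq_mul, Pi.single_apply]; grind⟩
        · exact Or.inl ⟨l, funext fun r => by
            have := d1 r
            simp only [Pi.smul_apply, Pi.add_apply, smul_eq_mul, Pi.single_apply]; grind⟩)
      have k1 := k i 3
      have k2 := k 3 i
      simp only [Pi.add_apply, Pi.single_apply] at k1 k2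
      exact ⟨i, _, a5, c3, e ▸ c3, fun r => by have := d1 r; grind⟩
    · exact ⟨i, 3, a1, c3, by grind, fun r => by have := d1 r; grind⟩
    · grind
  rcases pr 0 1 (by decide) (by decide) (by decide) with e1 | e | e
  rotate_left
  · exact key 0 1 2 (by decide) (by decide) (by decide) (by decide) (by decide) (by decide) e.1 e.2.1 e.2.2
  · exact key 1 0 2 (by decide) (by decide) (by decide) (by decide) (by decide) (by decide) e.1 e.2.1 e.2.2
  rcases pr 0 2 (by decide) (by decide) (by decide) with e2 | e | e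
  rotate_left
  · exact key 0 2 1 (by decide) (by decide) (by decide) (by decide) (by decide) (by decide) e.1 e.2.1 e.2.2
  · exact key 2 0 1 (by decide) (by decide) (by decide) (by decide) (by decide) (by decide) e.1 e.2.1 e.2.2
  exfalso
  by_cases e : y 0 * x 0 = 0
  · have ns : ∀ κ, P M b κ → ∀ i j, i ≠ 3 → j ≠ 3 → i ≠ j → (x i + x j * κ⁻¹ = 0 ↔ y i + y j * κ = 0) :=
      fun κ p i j a1 a2 a3 => ⟨fun e => by simpa only [ev, dot_rx] using uq.ns t (p i j a1 a2 a3).2 (by rw [ev, rx_dot, e]),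
        fun e => by simpa only [ev, rx_dot] using uq.ns (p i j a1 a2 a3).2 t (by rw [ev, dot_rx, e])⟩
    have n1 := ns 1 p1 0 1 (by decide) (by decide) (by decide)
    have n2 := ns 1 p1 0 2 (by decide) (by decide) (by decide)
    have n3 := ns 1 p1 1 2 (by decide) (by decide) (by decide)
    have n4 := ns l pl 0 1 (by decide) (by decide) (by decide)
    have n5 := ns l pl 0 2 (by decide) (by decide) (by decide)
    have n6 := ns l pl 1 2 (by decide) (by decide) (by decide)
    have : x 0 = 0 ∧ x 1 = 0 ∧ x 2 = 0 ∧ y 0 = 0 ∧ y 1 = 0 ∧ y 2 = 0 := by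
      rcases mul_eq_zero.1 e with a | a <;> rcases mul_eq_zero.1 (e1 ▸ e) with a | a <;>
        rcases mul_eq_zero.1 (e2 ▸ e) with a | a <;> grind
    rcases mul_eq_zero.1 (show y 3 * x 3 = 0 by grind) with e | e
    · exact t.φ0 (by rw [show y = 0 from funext fun r => by fin_cases r <;> simp [*], map_zero])
    · exact t.v0 (by rw [show x = 0 from funext fun r => by fin_cases r <;> simp [*], map_zero])
  · have := alg5 h2 h0 h1 h3 (x0 := x 0) (x1 := x 1) (x2 := x 2) (y0 := y 0) (y1 := y 1) (y2 := y 2) fun m n =>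
      or_iff_not_imp_left.2 fun e => by
        simpa [rx_apply] using W.F h2 uq q t (pn m 0 1 (by decide) (by decide) (by decide)).2
          (pn n 0 2 (by decide) (by decide) (by decide)).2 (by simpa [rx_apply] using e)
    have := left_ne_zero_of_mul (e1 ▸ e)
    have := left_ne_zero_of_mul (e2 ▸ e)
    have := right_ne_zero_of_mul e
    simp_all

theorem exists_basis (hd : finrank K V = 4) (e0 e1 e2 : V) (φ ψ χ : Dual K V) (ind : ∀ a b c : K,
    φ (a • e0 + b • e1 + c • e2) = 0 → ψ (a • e0 + b • e1 + c • e2) = 0 → χ (a • e0 + b • e1 + c • e2) = 0 → a = 0 ∧ b = 0 ∧ c = 0) :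
    ∃ b : Basis (Fin 4) K V, b 0 = e0 ∧ b 1 = e1 ∧ b 2 = e2 ∧ φ (b 3) = 0 ∧ ψ (b 3) = 0 ∧ χ (b 3) = 0 := by
  have := FiniteDimensional.of_finrank_pos (K := K) (V := V) (by rw [hd]; decide)
  obtain ⟨n, hn, h0⟩ := (Submodule.ne_bot_iff _).1 (LinearMap.ker_ne_bot_of_finrank_lt (f := LinearMap.pi ![φ, ψ, χ])
    (by simp [hd]))
  have a1 : φ n = 0 := congrFun hn 0
  have a2 : ψ n = 0 := congrFun hn 1
  have a3 : χ n = 0 := congrFun hn 2
  have li : LinearIndependent K ![e0, e1, e2, n] := Fintype.linearIndependent_iff.2 fun g e => by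
    simp only [Fin.sum_univ_four, cons_val] at e
    obtain ⟨c1, c2, c3⟩ := ind (g 0) (g 1) (g 2) (by simpa [a1] using congrArg φ e) (by simpa [a2] using congrArg ψ e)
      (by simpa [a3] using congrArg χ e)
    have c4 : g 3 = 0 := by simpa [c1, c2, c3, h0] using e
    intro i; fin_cases i <;> assumption
  exact ⟨basisOfLinearIndependentOfCardEqFinrank li (by simp [hd]), by simp [a1, a2, a3]⟩

theorem tri_one [Finite K] (h2 : (2 : K) = 0) (h : Hy M) (uq : Uq M) (q : Q2 M) (t1 : Tv M φ v) (t2 : Tv M ψ w) (t3 : Tv M χ u)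
    (ns : φ w * ψ u * χ v + φ u * χ w * ψ v ≠ 0) : φ w * ψ v = 1 := by
  have : CharP K 2 := (CharP.charP_iff_prime_eq_zero Nat.prime_two).2 (by exact_mod_cast h2)
  by_contra c
  have c1 := (factF h2 uq q t1 t2 t3 ns).resolve_left c
  have c2 := (factF h2 uq q t2 t1 t3 (by grind)).resolve_left (by grind)
  have c3 := factF h2 uq q (t1.conj t2.has t2.zero) t2 t3
  simp only [LinearMap.sub_apply, LinearMap.smul_apply, map_add, map_smul, smul_eq_mul, t1.zero, t2.zero] at c3
  replace c3 := (c3 (by grind)).resolve_left (by grind)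
  wlog n : φ u = 1 ∧ χ w = 1 generalizing ψ w χ u
  · have a1 : φ u ≠ 0 := by grind
    have a2 : χ w ≠ 0 := by grind
    have a3 := mul_ne_zero a1 a2
    refine this (t2.smul (s := (φ u * χ w)⁻¹) (by simp [a1, a2])) (t3.smul (inv_ne_zero a1)) ?_ ?_ ?_ ?_ ?_ ?_ <;>
      simp only [LinearMap.smul_apply, map_smul, smul_eq_mul] <;> grind
  obtain ⟨n1, n2⟩ := n
  have n3 : χ v = 1 := by grind
  have n4 : ψ u = 1 := by grind
  obtain ⟨x, hx⟩ : ∃ x, φ w = x := ⟨_, rfl⟩
  obtain ⟨y, hy⟩ : ∃ y, ψ v = y := ⟨_, rfl⟩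
  simp only [n1, n2, n3, n4, hx, hy] at ns c c3
  have x0 : x ≠ 0 := by grind
  have xy : (x + 1)⁻¹ = y + 1 := by grind
  obtain ⟨b, b0, b1, b2, b3, b4, b5⟩ := exists_basis h.dim (v + x⁻¹ • (v + w)) (x⁻¹ • (v + w)) (u + (v + x⁻¹ • (v + w))) φ ψ χ
    fun a b c => by
      simp only [map_add, map_smul, smul_eq_mul, n1, n2, n3, n4, hx, hy, t1.zero, t2.zero, t3.zero]
      grind
  have k : ∀ {φ v i j} (κ : K), κ ≠ 0 → Tv M φ v → (∀ r, φ (b r) = rx i j κ⁻¹ r) → v = b i + κ • b j → R M b i j κ :=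
    fun {φ v i j} κ h0 t e e' => ⟨h0, by
      unfold W
      convert t using 1
      · exact b.ext fun r => by simp [e]
      · simp [rx, e', add_smul, Finset.sum_add_distrib, Pi.single_apply]⟩
  have r1 := k (i := 0) (j := 1) 1 one_ne_zero t1 (fun r => by
    fin_cases r <;> simp [rx_apply, b0, b1, b2, b3, n1, hx, t1.zero, x0, CharTwo.add_self_eq_zero]) (by
      rw [b0, b1]; linear_combination (norm := module) (-h2 * x⁻¹) • (v + w))
  have r2 := k (i := 0) (j := 1) (x + 1) (by grind) t2 (fun r => by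
    fin_cases r <;> simp [rx_apply, b0, b1, b2, b4, n4, hy, t2.zero, xy] <;> grind) (by
      rw [b0, b1]; match_scalars <;> grind)
  have r3 := k (i := 0) (j := 2) 1 one_ne_zero t3 (fun r => by
    fin_cases r <;> simp [rx_apply, b0, b1, b2, b5, n2, n3, t3.zero, CharTwo.add_self_eq_zero]) (by
      rw [b0, b2]; match_scalars <;> grind)
  have r4 : R M b 1 2 1 := by simpa using r1.div h2 r3 (by decide) (by decide) (by decide)
  have p1 : P M b 1 := fun i j a1 a2 a3 => by
    have := inv_one (G := K) ▸ r1.symm; have := inv_one (G := K) ▸ r3.symm; have := inv_one (G := K) ▸ r4.symm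
    fin_cases i <;> fin_cases j <;> first | contradiction | assumption
  exact frame_false h2 h uq q p1 (l := y + 1) (p1.of h2 (by
    simpa only [xy, one_div] using r2.div h2 r3 (by decide) (by decide) (by decide))) (by grind) (by grind) t1

theorem rat_two [Finite K] (h2 : (2 : K) = 0) (h : Hy M) (uq : Uq M) (q : Q2 M) : Sym (Tv M) ∨ Rat M := by
  have : CharP K 2 := (CharP.charP_iff_prime_eq_zero Nat.prime_two).2 (by exact_mod_cast h2)
  refine or_iff_not_imp_left.2 fun hs => ?_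
  simp only [Sym, not_forall] at hs
  obtain ⟨φ, v, ψ, w, χ, u, t1, t2, t3, ns⟩ := hs
  let E : Subfield K :=
    { carrier := {x | x = 0 ∨ x = 1}
      mul_mem' := by grind
      one_mem' := by simp
      add_mem' := by grind
      zero_mem' := by simp
      neg_mem' := by grind
      inv_mem' := by rintro x (rfl | rfl) <;> simp }
  refine rat_orb t1 E (fun θ z s => or_iff_not_imp_right.2 fun c => ?_) fun a ha => ?_
  · have k : ∀ {ψ w}, Tv M ψ w → φ z * θ w * ψ v + φ w * ψ z * θ v = 0 := fun t =>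
      of_not_not fun e => c (tri_one h2 h uq q t1 s t e)
    have c1 := tri_one h2 h uq q t1 t2 t3 ns
    have c2 := tri_one h2 h uq q t1 t3 t2 (by grind)
    have c3 := tri_one h2 h uq q t2 t3 t1 (by grind)
    have c4 := tri_one h2 h uq q (t1.conj t2.has t2.zero) t3 t2
    have k1 := k t2
    have k2 := k t3
    have k3 := k (t3.conj t2.has t2.zero)
    have k4 := k ((t3.conj t1.has t1.zero).conj t2.has t2.zero)
    simp only [LinearMap.sub_apply, LinearMap.smul_apply, map_add, map_smul, smul_eq_mul, t1.zero, t2.zero] at c4 k3 k4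
    replace c4 := c4 (by grind)
    grind
  · rcases ha with rfl | rfl
    exacts [by simpa using has_zero_left v, by simpa using t1.has]

end Cfsg.Agent.H5.TA
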