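import Cfsg.Agent.H6.SU4D

/-!
The monomial subgroup is maximal in `SU₅(q)`.
-/

set_option autoImplicit false
set_option linter.unusedSectionVars false
set_option linter.unusedVariables false

namespace Cfsg.Agent.H6.SU

open Module Cfsg.Agent.Form Cfsg.Agent.H7
open scoped MatrixGroups

section abstract

variable {F : Type*} [Field F] {σ : F →+* F} {hσ : ∀ a, σ (σ a) = a}
  {V : Type*} [AddCommGroup V] [Module F V] {S : PQ (FP.unit σ hσ) V} {M : Subgroup (V ≃ₗ[F] V)}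
  {ι : Type*} [Fintype ι] [DecidableEq ι] {e : ι → V} [FiniteDimensional F V] [Finite F]

/-- the case `q = 2` -/
structure TW5 (S : PQ (FP.unit σ hσ) V) (M : Subgroup (V ≃ₗ[F] V)) (e : ι → V) : Prop
    extends MS S M e where
  ne : ∃ a, σ a ≠ a
  real : ∀ a : F, σ a = a → a ≠ 0 → a = 1
  five : Fintype.card ι = 5

theorem TW5.two (h : TW5 S M e) : (2 : F) = 0 := by
  by_contra h2
  exact one_ne_zero (α := F) (by linear_combination h.real 2 (map_ofNat σ 2) h2)

theorem TW5.norm (h : TW5 S M e) {a : F} (ha : a ≠ 0) : a * σ a = 1 :=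
  h.real _ (by rw [map_mul, hσ, mul_comm]) (mul_ne_zero ha (σ_ne ha))

theorem TW5.out (h : TW5 S M e) (l : List ι) (hl : l.length ≤ 4 := by simp) : ∃ x, x ∉ l :=
  exists_notMem_list l (by have := h.five; omega)

theorem TW5.exists_omega (h : TW5 S M e) : ∃ δ : F, δ * σ δ = 1 ∧ δ + σ δ = 1 ∧ δ ≠ 1 ∧ σ δ ≠ 1 := by
  obtain ⟨δ, d1, d2⟩ := exists_norm_one_ne h.ne hσ
  exact ⟨δ, d1, h.real _ (by rw [map_add, hσ, add_comm]) fun h0 => d2 (by
    linear_combination h0 - δ * h.two), by rintro rfl; simp at d2,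
    fun h0 => d2 (by rw [← hσ δ, h0]; simp)⟩

theorem TW5.ctr_pair (h : TW5 S M e) {k l : ι} (hkl : k ≠ l) {α : F} (hα : α * σ α = 1) :
    Ctr S M (e k + α • e l) := by
  obtain ⟨h1, h2⟩ := h.ht_pair h.two hkl hα
  refine ctr_iff.2 ⟨h1, fun c hc => ?_⟩
  by_cases h0 : c = 0
  · rw [h0]; exact ht_zero _
  · rwa [h.real c (by linear_combination hc - c * h.two) h0]

theorem TW5.exists_fourth (h : TW5 S M e) {w : V} (hw : S.B w w = 0) {a b c : ι} (hab : a ≠ b)
    (hac : a ≠ c) (hbc : b ≠ c) (ha : S.B w (e a) ≠ 0) (hb : S.B w (e b) ≠ 0) (hc : S.B w (e c) ≠ 0) :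
    ∃ d, d ∉ ({a, b, c} : Finset ι) ∧ S.B w (e d) ≠ 0 := by
  by_contra hcon
  push Not at hcon
  rw [h.on.B_cs (s := {a, b, c}) hcon, Finset.sum_insert (by simp [hab, hac]), Finset.sum_pair hbc,
    h.norm ha, h.norm hb, h.norm hc] at hw
  exact one_ne_zero (α := F) (by linear_combination hw - h.two)

theorem TW5.top_of_four (h : TW5 S M e) {w : V} (hw : Ctr S M w) {a b c d m : ι} (hab : a ≠ b)
    (hac : a ≠ c) (had : a ≠ d) (hbc : b ≠ c) (hbd : b ≠ d) (hcd : c ≠ d) (ha : S.B w (e a) ≠ 0)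
    (hb : S.B w (e b) ≠ 0) (hc : S.B w (e c) ≠ 0) (hd : S.B w (e d) ≠ 0) (hm : S.B w (e m) = 0) :
    sisom S ≤ M := by
  obtain ⟨δ, d1, d2, d3, d4⟩ := h.exists_omega
  have dg : ∀ t : ι → F, (∀ i, t i * σ (t i) = 1) → ∀ z y, Ctr S M z → S.B z (e m) = 0 →
      (∀ i, S.B y (e i) = t i * S.B z (e i)) → Ctr S M y := fun t ht z y hz h0 hy => by
    obtain ⟨g, hg, hg', e1⟩ := h.on.exists_dg t ht
    rw [h.on.ext (x := y) (y := g z) fun i => by rw [hy, e1]]
    exact h.ctr_map hg hg' hz h0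
  set z := ((δ - 1) * S.B w (e a)) • e a + ((δ - 1) * S.B w (e b)) • e b +
    ((δ - 1) * S.B w (e c)) • e c + ((σ δ - 1) * S.B w (e d)) • e d with hz
  have z1 : S.B z w = 1 := by
    simp only [hz, PQ.B_add_left, PQ.B_smul_left, ← Bs S w (e _), mul_assoc, h.norm ha, h.norm hb,
      h.norm hc, h.norm hd]
    linear_combination d2 + (δ - 2) * h.two
  have z2 : ∀ i, S.B z (e i) =
      ((if i = d then σ δ else if i ∈ ({a, b, c} : Finset ι) then δ else 1) - 1) * S.B w (e i) := by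
    intro i
    by_cases i1 : i = a
    · simp [hz, i1, h.on.B_e, had, hab.symm, hac.symm, had.symm]
    by_cases i2 : i = b
    · simp [hz, i2, h.on.B_e, hbd, hab, hbc.symm, hbd.symm]
    by_cases i3 : i = c
    · simp [hz, i3, h.on.B_e, hcd, hac, hbc, hcd.symm]
    by_cases i4 : i = d
    · simp [hz, i4, h.on.B_e, had, hbd, hcd]
    · simp [hz, h.on.B_e, i1, i2, i3, i4, Ne.symm i1, Ne.symm i2, Ne.symm i3, Ne.symm i4]
  have c1 := dg (fun i => if i = d then σ δ else if i ∈ ({a, b, c} : Finset ι) then δ else 1)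
    (fun i => by split_ifs <;> simp [d1, hσ, mul_comm]) w (w + z) hw hm
    (fun i => by rw [PQ.B_add_left, z2]; ring)
  have c2 : Ctr S M z := by
    have e1 : S.B w z = 1 := by rw [← Bs, z1, map_one]
    have e2 : w + z + w = z := by rw [add_right_comm, ← two_smul F, h.two]; simp
    have e3 := c1.1.B_self
    simp only [PQ.B_add_left, PQ.B_add_right, z1, e1, hw.1.B_self] at e3
    have := Ctr.add1 c1 hw (by simp [z1, hw.1.B_self]) (by rw [e2]; linear_combination e3 - h.two)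
    rwa [e2] at this
  have z3 : ∀ i ∈ ({a, b, c, d} : Finset ι), S.B z (e i) ≠ 0 := by
    intro i hi
    simp only [Finset.mem_insert, Finset.mem_singleton] at hi
    rw [z2]
    clear hz
    rcases hi with rfl | rfl | rfl | rfl <;> simp [sub_eq_zero, *]
  have hms : m ∉ ({a, b, c, d} : Finset ι) := fun hi => z3 m hi (by rw [z2, hm, mul_zero])
  have h7 := h.five
  have hcard : ({a, b, c, d} : Finset ι).card = 4 := by
    rw [Finset.card_insert_of_notMem (by simp [hab, hac, had]), Finset.card_eq_three.2 ⟨b, c, d, hbc, hbd,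
      hcd, rfl⟩]
  refine h.top_of_ef h.ne (by omega) (s := {a, b, c, d}) (by omega)
    (Full.ef4 h.ne (h.on.cs_nd _) (by rw [h.on.cs_finrank, hcard]) fun y hy hyy => ?_)
  by_cases hy' : ∀ i ∈ ({a, b, c, d} : Finset ι), S.B y (e i) ≠ 0
  · refine dg (fun i => if i ∈ ({a, b, c, d} : Finset ι) then S.B y (e i) / S.B z (e i) else 1)
      (fun i => ?_) z y c2 (by rw [z2, hm, mul_zero]) fun i => ?_
    · split_ifs with hi
      · exact h.norm (div_ne_zero (hy' i hi) (z3 i hi))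
      · simp
    · split_ifs with hi
      · rw [div_mul_cancel₀ _ (z3 i hi)]
      · rw [hy i hi]
        simp only [Finset.mem_insert, Finset.mem_singleton, not_or] at hi
        simp [z2, hi]
  push Not at hy'
  obtain ⟨i, hi, hi'⟩ := hy'
  obtain ⟨k, l, j, a1, a2, a3, e1⟩ := Finset.card_eq_three.1
    (show (({a, b, c, d} : Finset ι).erase i).card = 3 by rw [Finset.card_erase_of_mem hi, hcard])
  refine h.full_of_ctr h.ne a1 a2 a3 (m := i) (by rw [← e1]; simp) (h.ctr_pair a1 (α := 1) (by simp))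
    (add_mem (h.on.e_mem (by simp)) (Submodule.smul_mem _ _ (h.on.e_mem (by simp))))
    (by simp [h.on.B_e, a1.symm]) (by simp [h.on.B_e, a1]) y (fun x hx => ?_) hyy
  by_cases hxi : x = i
  · rw [hxi, hi']
  · exact hy x fun hm => hx (e1 ▸ Finset.mem_erase.2 ⟨hxi, hm⟩)

theorem TW5.top_of_three (h : TW5 S M e) {w : V} (hw : Ctr S M w) {a b c : ι} (hab : a ≠ b)
    (hac : a ≠ c) (hbc : b ≠ c) (ha : S.B w (e a) ≠ 0) (hb : S.B w (e b) ≠ 0) (hc : S.B w (e c) ≠ 0) :
    sisom S ≤ M := by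
  obtain ⟨d, hd', hd⟩ := h.exists_fourth hw.1.B_self hab hac hbc ha hb hc
  simp only [Finset.mem_insert, Finset.mem_singleton, not_or] at hd'
  by_cases h0 : ∃ m, S.B w (e m) = 0
  · obtain ⟨m, hm⟩ := h0
    exact h.top_of_four hw hab hac (Ne.symm hd'.1) hbc (Ne.symm hd'.2.1) (Ne.symm hd'.2.2) ha hb hc hd hm
  push Not at h0
  have := hw.1.B_self
  rw [h.on.B_sum, Finset.sum_congr rfl fun i _ => h.norm (h0 i), Finset.sum_const, Finset.card_univ,
    h.five] at this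
  exact (one_ne_zero (α := F) (by
    simp only [nsmul_eq_mul, Nat.cast_ofNat, mul_one] at this
    linear_combination this - 2 * h.two)).elim

theorem TW5.max (h : TW5 S M e) : (∀ g ∈ M, Mono e g) ∨ sisom S ≤ M := by
  classical
  by_cases hc : ∃ w, Ctr S M w ∧ ∃ a b c, a ≠ b ∧ a ≠ c ∧ b ≠ c ∧ S.B w (e a) ≠ 0 ∧ S.B w (e b) ≠ 0 ∧
      S.B w (e c) ≠ 0
  · obtain ⟨w, hw, a, b, c, a1, a2, a3, a4, a5, a6⟩ := hc
    exact Or.inr (h.top_of_three hw a1 a2 a3 a4 a5 a6)
  refine Or.inl fun g hg k => ?_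
  have hgi := (h.le hg).1
  obtain ⟨δ, d1, d2, d3, d4⟩ := h.exists_omega
  have key : ∀ l, k ≠ l → ∀ s : Finset ι, (∀ i ∈ s, S.B (g (e k)) (e i) ≠ 0 ∨ S.B (g (e l)) (e i) ≠ 0) →
      s.card ≤ 3 := by
    intro l hkl s hs
    let Z : F → Finset ι := fun α => s.filter fun i => S.B (g (e k)) (e i) + α * S.B (g (e l)) (e i) = 0
    have z1 : ∀ α : F, α * σ α = 1 → s.card ≤ (Z α).card + 2 := by
      intro α hα
      rw [← Finset.card_filter_add_card_filter_not (s := s)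
        (fun i => S.B (g (e k)) (e i) + α * S.B (g (e l)) (e i) = 0)]
      refine Nat.add_le_add_left (not_lt.1 fun hlt => hc ⟨_, (h.ctr_pair hkl hα).map hg hgi, ?_⟩) _
      obtain ⟨a, b, c, ha, hb, hc, a1, a2, a3⟩ := Finset.two_lt_card_iff.1 hlt
      exact ⟨a, b, c, a1, a2, a3, by simpa using (Finset.mem_filter.1 ha).2,
        by simpa using (Finset.mem_filter.1 hb).2, by simpa using (Finset.mem_filter.1 hc).2⟩
    have z2 : ∀ α β : F, α ≠ β → Disjoint (Z α) (Z β) := by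
      intro α β hαβ
      rw [Finset.disjoint_left]
      intro i h1 h2
      obtain ⟨h3, h4⟩ := Finset.mem_filter.1 h1
      have h5 := (Finset.mem_filter.1 h2).2
      have h6 : S.B (g (e l)) (e i) = 0 := mul_left_cancel₀ (sub_ne_zero.2 hαβ) (by
        linear_combination h4 - h5)
      rw [h6, mul_zero, add_zero] at h4
      exact (hs i h3).elim (· h4) (· h6)
    have d5 : δ ≠ σ δ := fun h0 => one_ne_zero (α := F) (by linear_combination -d2 - h0 + δ * h.two)
    have := Finset.card_le_card (show Z 1 ∪ Z δ ∪ Z (σ δ) ⊆ s from Finset.union_subset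
      (Finset.union_subset (Finset.filter_subset _ _) (Finset.filter_subset _ _)) (Finset.filter_subset _ _))
    rw [Finset.card_union_of_disjoint (Finset.disjoint_union_left.2 ⟨z2 _ _ d4.symm, z2 _ _ d5⟩),
      Finset.card_union_of_disjoint (z2 _ _ d3.symm)] at this
    have := z1 1 (by simp)
    have := z1 δ d1
    have := z1 (σ δ) (by rw [hσ, mul_comm, d1])
    omega
  by_contra hE
  obtain ⟨a, b, hab, ha, hb⟩ := h.on.two_of_not_isE (by simpa using h.on.e_ne k) hE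
  obtain ⟨c, hc', hc''⟩ : ∃ c, c ∉ ({a, b} : Finset ι) ∧ S.B (g (e k)) (e c) ≠ 0 := by
    by_contra hcon
    push Not at hcon
    have := PQ.B_isom hgi (e k) (e k)
    rw [h.on.B_cs (s := {a, b}) hcon, Finset.sum_pair hab, h.norm ha, h.norm hb, h.on.self] at this
    exact one_ne_zero (α := F) (by linear_combination this)
  simp only [Finset.mem_insert, Finset.mem_singleton, not_or] at hc'
  obtain ⟨d, hd⟩ := h.out [a, b, c]
  simp only [List.mem_cons, List.not_mem_nil, or_false, not_or] at hd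
  have hcard : ({d, c, a, b} : Finset ι).card = 4 := by
    rw [Finset.card_insert_of_notMem (by simp [hd]), Finset.card_eq_three.2 ⟨c, a, b, hc'.1, hc'.2,
      hab, rfl⟩]
  obtain ⟨l, hl⟩ := h.on.exists_ne (v := g.symm (e d)) (by simpa using h.on.e_ne d)
  rw [← PQ.B_isom hgi, LinearEquiv.apply_symm_apply] at hl
  by_cases hkl : k = l
  · obtain ⟨l', hl'⟩ := h.out [k]
    have := key l' (by rintro rfl; simp at hl') {d, c, a, b} (by
      simp only [Finset.mem_insert, Finset.mem_singleton]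
      rintro i (rfl | rfl | rfl | rfl)
      exacts [Or.inl (hkl ▸ ne_swap hl), Or.inl hc'', Or.inl ha, Or.inl hb])
    omega
  · have := key l hkl {d, c, a, b} (by
      simp only [Finset.mem_insert, Finset.mem_singleton]
      rintro i (rfl | rfl | rfl | rfl)
      exacts [Or.inr (ne_swap hl), Or.inl hc'', Or.inl ha, Or.inl hb])
    omega

/-- the rigid situation in dimension five -/
structure R5 (S : PQ (FP.unit σ hσ) V) (M : Subgroup (V ≃ₗ[F] V)) (e : ι → V) : Prop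
    extends MS S M e where
  ne : ∃ a, σ a ≠ a
  three : ∃ a : F, σ a = a ∧ a ≠ 0 ∧ a ≠ 1
  rig : Rigid M e
  five : Fintype.card ι = 5

theorem R5.out (h : R5 S M e) (l : List ι) (hl : l.length ≤ 4 := by simp) : ∃ x, x ∉ l :=
  exists_notMem_list l (by have := h.five; omega)

theorem R5.mono_of_zeros (h : R5 S M e) {g : V ≃ₗ[F] V} (hg : g ∈ M) {j k l : ι} (hkl : k ≠ l)
    (hk : S.B (g (e j)) (e k) = 0) (hl : S.B (g (e j)) (e l) = 0) : Mono e g := by
  by_contra hM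
  have aux := fun {j k l : ι} => h.two_zeros_aux h.ne h.three h.rig hg (j := j) (k := k) (l := l)
  have key : ∀ {j k l : ι}, k ≠ l → S.B (g (e j)) (e k) = 0 → S.B (g (e j)) (e l) = 0 →
      ∃ i, ∀ m, m ≠ k → m ≠ l → S.B (g (e i)) (e m) = 0 := by
    intro j k l hkl hk hl
    obtain ⟨i, hi⟩ := h.on.exists_ne (v := g.symm (e k)) (by simpa using h.on.e_ne k)
    refine ⟨i, (aux hkl hk hl i).resolve_right fun h' => hi ?_⟩
    rw [← PQ.B_isom (h.le hg).1, LinearEquiv.apply_symm_apply]; exact S.B_comm_zero h'.1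
  obtain ⟨i, hi⟩ := key hkl hk hl
  obtain ⟨k', h1⟩ := h.out [k, l]
  obtain ⟨l', h2⟩ := h.out [k, l, k']
  obtain ⟨m', h3⟩ := h.out [k, l, k', l']
  simp only [List.mem_cons, List.not_mem_nil, or_false, not_or] at h1 h2 h3
  obtain ⟨i2, hi2⟩ := key (Ne.symm h2.2.2) (hi k' h1.1 h1.2) (hi l' h2.1 h2.2.1)
  obtain ⟨x, y, hxy, hx, hy⟩ := h.on.two_of_not_isE (v := g (e i2)) (by simpa using h.on.e_ne i2)
    (fun h' => hM (h.rig g hg i2 h'))
  have b1 : x = k' ∨ x = l' := by by_contra h; push Not at h; exact hx (hi2 x h.1 h.2)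
  have b2 : y = k' ∨ y = l' := by by_contra h; push Not at h; exact hy (hi2 y h.1 h.2)
  have b3 : S.B (g (e i2)) (e k') ≠ 0 ∧ S.B (g (e i2)) (e l') ≠ 0 := by
    rcases b1 with rfl | rfl <;> rcases b2 with rfl | rfl
    exacts [(hxy rfl).elim, ⟨hx, hy⟩, ⟨hy, hx⟩, (hxy rfl).elim]
  rcases aux (Ne.symm h3.2.2.1) (hi k' h1.1 h1.2) (hi m' h3.1 h3.2.1) i2 with h | h
  · exact b3.2 (h l' h2.2.2 (Ne.symm h3.2.2.2))
  · exact b3.1 h.1

theorem R5.not_full_aux (h : R5 S M e) (h2 : (2 : F) = 0) {w : V} (hw : S.B w w = 0) (h1 : HT S M w 1)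
    (h0 : ∀ i, S.B w (e i) ≠ 0) {k l k' l' : ι} (a1 : k ≠ l) (a2 : k ≠ k') (a3 : k ≠ l') (a4 : l ≠ k')
    (a5 : l ≠ l') (a6 : k' ≠ l') {n : ι → F} (hn : ∀ i, n i = S.B w (e i) * σ (S.B w (e i)))
    (hc : (n k = n l ∧ n k' = n l') ∨ (n k ≠ n l ∧ n k' ≠ n l')) : False := by
  have nr : ∀ i, σ (n i) = n i := fun i => by rw [hn, map_mul, hσ, mul_comm]
  have n0 : ∀ i, n i ≠ 0 := fun i => by rw [hn]; exact mul_ne_zero (h0 i) (σ_ne (h0 i))
  obtain ⟨a, b, ha, hb, ha1, hb1, e1, e2⟩ : ∃ a b : F, a * σ a = 1 ∧ b * σ b = 1 ∧ a ≠ 1 ∧ b ≠ 1 ∧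
      (n k + n l) * (a + σ a) = (n k' + n l') * (b + σ b) ∧
      (a - 1) * n k + (σ a - 1) * n l + (b - 1) * n k' + (σ b - 1) * n l' ≠ 0 := by
    rcases hc with ⟨c1, c2⟩ | ⟨c1, c2⟩
    · obtain ⟨a, b, c, ha, hb, hc, ha1, hb1, hc1, hab, hac, hbc⟩ := exists_three_norm_one hσ h.ne h.three
      by_contra hcon
      push Not at hcon
      have key : ∀ b, b * σ b = 1 → b ≠ 1 → (a + σ a) * n k + (b + σ b) * n k' = 0 := fun b hb hb1 => by
        have := hcon a b ha hb ha1 hb1 (by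
          rw [← c1, ← c2]; linear_combination (n k * (a + σ a) - n k' * (b + σ b)) * h2)
        rw [← c1, ← c2] at this
        linear_combination this + (n k + n k') * h2
      have key2 : ∀ b, b * σ b = 1 → b ≠ 1 → b ≠ a → b = σ a := fun b hb hb1 hba => by
        have := mul_right_cancel₀ (n0 k') (show (b + σ b) * n k' = (a + σ a) * n k' by
          linear_combination key b hb hb1 - key a ha ha1)
        exact sub_eq_zero.1 (mul_left_cancel₀ (sub_ne_zero.2 hba) (by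
          linear_combination b * this - hb + ha))
      exact hbc ((key2 b hb hb1 hab.symm).trans (key2 c hc hc1 hac.symm).symm)
    · have d1 : n k + n l ≠ 0 := fun h0 => c1 (by linear_combination h0 - n l * h2)
      have d2 : n k' + n l' ≠ 0 := fun h0 => c2 (by linear_combination h0 - n l' * h2)
      obtain ⟨a, b, ha, hb, ha1, hb1, e1⟩ := exists_norm_match hσ h.ne (α := n k + n l)
        (β := n k' + n l') (by rw [map_add, nr, nr]) (by rw [map_add, nr, nr]) d1 d2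
      have e2 : (n k + n l) * (a + σ a) = (n k' + n l') * (b + σ b) := by
        linear_combination -e1 + (n k + n l - n k' - n l') * h2
      by_cases e3 : (a - 1) * n k + (σ a - 1) * n l + (b - 1) * n k' + (σ b - 1) * n l' = 0
      · refine ⟨σ a, b, by rw [hσ, mul_comm, ha], hb, fun h0 => ha1 (by rw [← hσ a, h0]; simp), hb1,
          by rw [hσ, add_comm (σ a), e2], fun e4 => ha1 ?_⟩
        rw [hσ] at e4
        have e5 : a + σ a = 0 := mul_left_cancel₀ d1 (by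
          linear_combination e3 - e4 + (σ a * n k + a * n l) * h2)
        have e6 : (a - 1) ^ 2 = 0 := by linear_combination a * e5 - ha - a * h2
        exact sub_eq_zero.1 (pow_eq_zero_iff two_ne_zero |>.1 e6)
      · exact ⟨a, b, ha, hb, ha1, hb1, e2, e3⟩
  obtain ⟨t, ht, ht', -, et⟩ := h.exists_tor a1 ha
  obtain ⟨s, hs, hs', -, es⟩ := h.exists_tor a6 hb
  have e3 : s (t w) = w + (((a - 1) * S.B w (e k)) • e k + ((σ a - 1) * S.B w (e l)) • e l +
      ((b - 1) * S.B w (e k')) • e k' + ((σ b - 1) * S.B w (e l')) • e l') := by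
    rw [es, et]
    simp only [PQ.B_add_left, PQ.B_smul_left, h.on.ne a2, h.on.ne a3, h.on.ne a4, h.on.ne a5]
    module
  have e4 : S.B (s (t w)) w =
      (a - 1) * n k + (σ a - 1) * n l + (b - 1) * n k' + (σ b - 1) * n l' := by
    rw [e3]; simp only [PQ.B_add_left, PQ.B_smul_left, hw, hn, ← Bs S w (e _)]; ring
  obtain ⟨u, γ, hu, e5⟩ := exists_ht_add h.le h2 hw (w' := s (t w))
    (by rw [PQ.B_isom hs', PQ.B_isom ht', hw]) h1 ((h1.conj ht ht').conj hs hs') (by
      rw [← Bs, e4]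
      simp only [map_add, map_mul, map_sub, map_one, nr, hσ]
      linear_combination e1 + (-(a * n k) - σ a * n l + σ b * n k' + b * n l') * h2) (e4 ▸ e2)
  rw [e3, ← add_assoc, ← two_smul F, h2, zero_smul, zero_add] at e5
  have p := fun i => congrArg (fun x => S.B x (e i)) e5
  have b1 : σ a - 1 ≠ 0 := fun h0 => ha1 (by rw [← hσ a, sub_eq_zero.1 h0, map_one])
  have p1 := p k
  have p2 := p l
  have p3 := p k'
  obtain ⟨m, hm⟩ := h.out [k, l, k', l']
  simp only [List.mem_cons, List.not_mem_nil, or_false, not_or] at hm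
  have p4 := p m
  simp only [PQ.B_add_left, PQ.B_smul_left, h.on.B_e, a1, a2, a3, a4, a5, a6, a1.symm, a2.symm, a3.symm,
    a4.symm, a5.symm, a6.symm, if_true, if_false, mul_zero, mul_one, add_zero, zero_add, Ne.symm hm.1,
    Ne.symm hm.2.1, Ne.symm hm.2.2.1, Ne.symm hm.2.2.2] at p1 p2 p3 p4
  have q1 := p1 ▸ mul_ne_zero (sub_ne_zero.2 ha1) (h0 k)
  have q2 := p2 ▸ mul_ne_zero b1 (h0 l)
  have q3 := p3 ▸ mul_ne_zero (sub_ne_zero.2 hb1) (h0 k')
  obtain ⟨x, y, hxy⟩ := h.cs_of_zero h.rig hu (m := m)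
    ((mul_eq_zero.1 p4.symm).resolve_left (left_ne_zero_of_mul q1))
  have r : ∀ i, γ * S.B u (e i) ≠ 0 → i = x ∨ i = y := fun i hi => by
    by_contra hc; push Not at hc; exact hi (by rw [hxy i hc.1 hc.2, mul_zero])
  rcases r k q1 with rfl | rfl <;> rcases r l q2 with h5 | h5 <;> rcases r k' q3 with h6 | h6 <;>
    simp_all

theorem R5.not_full (h : R5 S M e) (h2 : (2 : F) = 0) {w : V} (hw : S.B w w = 0) (h1 : HT S M w 1) :
    ∃ i, S.B w (e i) = 0 := by
  by_contra h0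
  push Not at h0
  obtain ⟨n, hn⟩ : ∃ n : ι → F, ∀ i, n i = S.B w (e i) * σ (S.B w (e i)) := ⟨_, fun _ => rfl⟩
  have key := fun {k l k' l'} a1 a2 a3 a4 a5 a6 => h.not_full_aux h2 hw h1 h0 (k := k) (l := l) (k' := k')
    (l' := l') a1 a2 a3 a4 a5 a6 hn
  have main : ∀ a b c d, a ≠ b → a ≠ c → a ≠ d → b ≠ c → b ≠ d → c ≠ d → n a = n b → n c ≠ n d →
      n a = n c → False := by
    intro a b c d a1 a2 a3 a4 a5 a6 e1 e2 e3
    obtain ⟨m, hm⟩ := h.out [a, b, c, d]
    simp only [List.mem_cons, List.not_mem_nil, or_false, not_or] at hm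
    by_cases e4 : n m = n a
    · exact key a1 a2 (Ne.symm hm.1) a4 (Ne.symm hm.2.1) (Ne.symm hm.2.2.1) (Or.inl ⟨e1, by rw [e4, e3]⟩)
    · exact key a3 a1 (Ne.symm hm.1) a5.symm (Ne.symm hm.2.2.2) (Ne.symm hm.2.1)
        (Or.inr ⟨by rwa [e3], by rw [← e1]; exact Ne.symm e4⟩)
  have main2 : ∀ a b c d, a ≠ b → a ≠ c → a ≠ d → b ≠ c → b ≠ d → c ≠ d → n a = n b → n c ≠ n d →
      False := by
    intro a b c d a1 a2 a3 a4 a5 a6 e1 e2
    by_cases e3 : n a = n c
    · exact main a b c d a1 a2 a3 a4 a5 a6 e1 e2 e3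
    by_cases e4 : n a = n d
    · exact main a b d c a1 a3 a2 a5 a4 a6.symm e1 e2.symm e4
    · exact key a2 a1 a3 a4.symm a6 a5 (Or.inr ⟨e3, by rwa [← e1]⟩)
  obtain ⟨a, -⟩ := h.out []
  obtain ⟨b, hb⟩ := h.out [a]
  obtain ⟨c, hc⟩ := h.out [a, b]
  obtain ⟨d, hd⟩ := h.out [a, b, c]
  simp only [List.mem_cons, List.not_mem_nil, or_false, not_or] at hb hc hd
  have a1 := Ne.symm hb
  have a2 := Ne.symm hc.1
  have a3 := Ne.symm hd.1
  have a4 := Ne.symm hc.2
  have a5 := Ne.symm hd.2.1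
  have a6 := Ne.symm hd.2.2
  by_cases e1 : n a = n b <;> by_cases e2 : n c = n d
  · exact key a1 a2 a3 a4 a5 a6 (Or.inl ⟨e1, e2⟩)
  · exact main2 a b c d a1 a2 a3 a4 a5 a6 e1 e2
  · exact main2 c d a b a6 a2.symm a4.symm a3.symm a5.symm a1 e2 e1
  · exact key a1 a2 a3 a4 a5 a6 (Or.inr ⟨e1, e2⟩)

theorem R5.mono_even (h : R5 S M e) (h2 : (2 : F) = 0) {g : V ≃ₗ[F] V} (hg : g ∈ M) : Mono e g := by
  have hgi := (h.le hg).1
  obtain ⟨k, -⟩ := h.out []
  obtain ⟨l, hl⟩ := h.out [k]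
  have hkl : k ≠ l := by rintro rfl; simp at hl
  classical
  let Z : F → Finset ι := fun α =>
    Finset.univ.filter fun i => S.B (g (e k)) (e i) + α * S.B (g (e l)) (e i) = 0
  have key : ∀ α : F, α * σ α = 1 → 3 ≤ (Z α).card := by
    intro α hα
    obtain ⟨h1, h3⟩ := h.ht_pair h2 hkl hα
    obtain ⟨m, hm⟩ := h.not_full h2 (by rw [PQ.B_isom hgi, h1]) (h3.conj hg hgi)
    obtain ⟨a, b, hab⟩ := h.cs_of_zero h.rig (h3.conj hg hgi) hm
    have h4 := Finset.card_le_card (show Finset.univ ⊆ insert a (insert b (Z α)) from fun i _ => by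
      by_cases a1 : i = a
      · simp [a1]
      by_cases a2 : i = b
      · simp [a2]
      · simpa [Z, a1, a2] using hab i a1 a2)
    have h5 := Finset.card_insert_le a (insert b (Z α))
    have h6 := Finset.card_insert_le b (Z α)
    rw [Finset.card_univ, h.five] at h4
    omega
  obtain ⟨a, b, c, a1, b1, c1, -, -, -, hab, hac, hbc⟩ := exists_three_norm_one hσ h.ne h.three
  let Y : Finset ι := Finset.univ.filter fun i => S.B (g (e l)) (e i) = 0
  have z2 : ∀ α β : F, α ≠ β → Z α ∩ Z β ⊆ Y := fun α β hαβ i hi => by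
    simp only [Z, Y, Finset.mem_inter, Finset.mem_filter, Finset.mem_univ, true_and] at hi ⊢
    exact mul_left_cancel₀ (sub_ne_zero.2 hαβ) (by linear_combination hi.1 - hi.2)
  have hY : 1 < Y.card := by
    by_contra hY
    have k1 := key a a1
    have k2 := key b b1
    have k3 := key c c1
    have e1 := Finset.card_union_add_card_inter (Z a) (Z b)
    have e2 := Finset.card_union_add_card_inter (Z a ∪ Z b) (Z c)
    have e3 := Finset.card_le_card (z2 a b hab)
    have e4 := Finset.card_le_card (show (Z a ∪ Z b) ∩ Z c ⊆ Y by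
      rw [Finset.union_inter_distrib_right]
      exact Finset.union_subset (z2 a c hac) (z2 b c hbc))
    have e5 := Finset.card_le_univ (Z a ∪ Z b ∪ Z c)
    rw [h.five] at e5
    omega
  obtain ⟨i, hi, j, hj, hij⟩ := Finset.one_lt_card.1 hY
  exact h.mono_of_zeros hg hij (Finset.mem_filter.1 hi).2 (Finset.mem_filter.1 hj).2

/-- `M` contains a scalar multiple of the homology along `v` -/
def HR5 (S : PQ (FP.unit σ hσ) V) (M : Subgroup (V ≃ₗ[F] V)) (v : V) (a : F) : Prop :=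
  ∃ k ∈ M, ∀ x, k x = σ a • (x + ((a ^ 5 - 1) * S.B x v) • v)

theorem HR5.conj {v : V} {a : F} (h : HR5 S M v a) {g : V ≃ₗ[F] V} (hg : g ∈ M) (hg' : g ∈ S.isom) :
    HR5 S M (g v) a := by
  obtain ⟨k, hk, e1⟩ := h
  refine ⟨g * k * g⁻¹, M.mul_mem (M.mul_mem hg hk) (M.inv_mem hg), fun x => ?_⟩
  have : S.B x (g v) = S.B (g.symm x) v := by rw [← PQ.B_isom hg' (g.symm x) v]; simp
  simp [LinearEquiv.mul_apply, e1, this]

theorem R5.hr (h : R5 S M e) (i : ι) {a : F} (ha : a * σ a = 1) : HR5 S M (e i) a := by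
  obtain ⟨g, g1, -, g3⟩ := h.exists_diag (fun j => if j = i then a ^ 4 else σ a) (fun j => by
    split_ifs
    · rw [map_pow, ← mul_pow, ha, one_pow]
    · rw [hσ, mul_comm, ha]) (by
    rw [← Finset.mul_prod_erase _ _ (Finset.mem_univ i), if_pos rfl,
      Finset.prod_congr rfl (fun j hj => if_neg (Finset.ne_of_mem_erase hj)), Finset.prod_const,
      Finset.card_erase_of_mem (Finset.mem_univ i), Finset.card_univ, h.five, ← mul_pow, ha, one_pow])
  refine ⟨g, g1, fun x => h.on.ext fun j => ?_⟩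
  rw [g3]
  split_ifs with hj
  · simp only [hj, PQ.B_smul_left, PQ.B_add_left, h.on.self]
    linear_combination (-a ^ 4 * S.B x (e i)) * ha
  · simp [h.on.ne (Ne.symm hj)]

theorem R5.entry_ne (h : R5 S M e) {a : F} (ha : a * σ a = 1) (ha5 : a ^ 5 ≠ 1) {g : V ≃ₗ[F] V}
    (hg : g ∈ M) (hM : ¬ Mono e g) (j m : ι) : S.B (g (e j)) (e m) ≠ 0 := by
  intro h0
  have hgi := (h.le hg).1
  have ha0 : σ a ≠ 0 := right_ne_zero_of_mul_eq_one ha
  have hδ := sub_ne_zero.2 ha5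
  obtain ⟨k, hk, ek⟩ := (h.hr j ha).conj hg hgi
  have km := h.rig k hk m ⟨m, σ a, by simp [ek, S.B_comm_zero h0]⟩
  obtain ⟨i, b, hib, hi, hb⟩ := h.on.two_of_not_isE (v := g (e j)) (by simpa using h.on.e_ne j)
    fun h' => hM (h.rig g hg j h')
  have z1 : ∀ c, c ≠ i → c ≠ b → S.B (g (e j)) (e c) = 0 := by
    obtain ⟨l, c', e1⟩ := km i
    have p := fun c => congrArg (fun x => S.B x (e c)) e1
    simp only [ek, PQ.B_smul_left, PQ.B_add_left] at p
    have hl : l = b := by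
      by_contra hl
      have := p b
      simp [h.on.ne hl, h.on.ne hib, ha0, hδ, hb, ne_swap hi] at this
    subst hl
    intro c c1 c2
    have := p c
    simpa [h.on.ne c1.symm, h.on.ne c2.symm, ha0, hδ, ne_swap hi] using this
  obtain ⟨k', hk'⟩ := h.out [i, b]
  obtain ⟨l', hl'⟩ := h.out [i, b, k']
  simp only [List.mem_cons, List.not_mem_nil, or_false, not_or] at hk' hl'
  exact hM (h.mono_of_zeros hg (Ne.symm hl'.2.2) (z1 k' hk'.1 hk'.2) (z1 l' hl'.1 hl'.2.1))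

theorem R5.eq_one (h : R5 S M e) {v : V} (hv : ∀ i, S.B v (e i) ≠ 0) {i : ι} {k : V ≃ₗ[F] V}
    (hk : k ∈ M) (hfix : ∀ x, S.B x (e i) = 0 → S.B x v = 0 → k x = x) {c : F}
    (hc : k (e i) = c • e i) : k = 1 := by
  have km := h.rig k hk i ⟨i, c, hc⟩
  have key : ∀ b d, b ≠ i → d ≠ i → b ≠ d → k (e b) = e b ∨ ∃ μ : F, k (e b) = μ • e d := by
    intro b d h1 h2 h3
    obtain ⟨l, μ, e1⟩ := km b
    obtain ⟨l', μ', e2⟩ := km d
    by_cases hl : l = d
    · exact Or.inr ⟨μ, hl ▸ e1⟩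
    left
    have := hfix (S.B (e d) v • e b - S.B (e b) v • e d) (by simp [h.on.ne h1, h.on.ne h2])
      (by simp [mul_comm])
    rw [map_sub, map_smul, map_smul, e2] at this
    have p := congrArg (fun x => S.B x (e d)) this
    simp only [e1, PQ.B_sub_left, PQ.B_smul_left, h.on.ne hl, h.on.ne h3, h.on.self] at p
    have q1 : μ' * S.B (e l') (e d) = 1 := mul_left_cancel₀ (ne_swap (hv b)) (by linear_combination -p)
    have q2 : l' = d := by
      by_contra h4
      simp [h.on.ne h4] at q1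
    rw [q2, h.on.self, mul_one] at q1
    rw [q1, q2, one_smul, sub_left_inj] at this
    exact smul_right_injective V (ne_swap (hv d)) this
  have fix : ∀ b, b ≠ i → k (e b) = e b := by
    intro b hb
    obtain ⟨d, hd⟩ := h.out [i, b]
    obtain ⟨d', hd'⟩ := h.out [i, b, d]
    simp only [List.mem_cons, List.not_mem_nil, or_false, not_or] at hd hd'
    refine (key b d hb hd.1 (Ne.symm hd.2)).elim id fun ⟨μ, e1⟩ =>
      (key b d' hb hd'.1 (Ne.symm hd'.2.1)).elim id fun ⟨μ', e2⟩ => ?_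
    have := congrArg (fun x => S.B x (e d)) (e1.symm.trans e2)
    simp [h.on.self, h.on.ne hd'.2.2, h.on.coeff_ne e1] at this
  have e1 : ∀ x, k x = x + ((c - 1) • S.lin (e i)) x • e i := fun x => by
    change _ = (LinearMap.id + ((c - 1) • S.lin (e i)).smulRight (e i) : V →ₗ[F] V) x
    rw [← h.on.sum x, map_sum, map_sum]
    refine Finset.sum_congr rfl fun b _ => ?_
    rw [map_smul, map_smul]
    congr 1
    by_cases hb : b = i
    · simp [hb, hc, h.on.self, sub_smul]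
    · simp [fix b hb, h.on.ne hb]
  have e2 := det_of_rank_one e1
  rw [(mem_sisom.1 (h.le hk)).2] at e2
  have e3 : 1 = c := by simpa [h.on.self] using e2
  ext x
  rw [e1, ← e3]; simp

theorem R5.not_gen (h : R5 S M e) {a : F} (ha : a * σ a = 1) (ha8 : a ^ 10 ≠ 1) {v : V}
    (hv : ∀ i, S.B v (e i) ≠ 0) (hr : HR5 S M v a) : False := by
  have : Finite V := Module.finite_of_finite F
  have : Finite (V ≃ₗ[F] V) := Finite.of_injective _ DFunLike.coe_injective
  have ha0 : σ a ≠ 0 := right_ne_zero_of_mul_eq_one ha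
  have ha4 : a ^ 5 - 1 ≠ 0 := fun h0 => ha8 (by linear_combination (a ^ 5 + 1) * h0)
  obtain ⟨i, -⟩ := h.out []
  obtain ⟨b, hb⟩ := h.out [i]
  have hbi : b ≠ i := by simpa using hb
  obtain ⟨ρ, hρ, eρ⟩ := h.hr i ha
  obtain ⟨τ, hτ, eτ⟩ := hr
  let K := M ⊓ fixAll {x | S.B x (e i) = 0 ∧ S.B x v = 0}
  have e2 : ∀ x, (ρ * ρ) x = σ a ^ 2 • (x + ((a ^ 10 - 1) * S.B x (e i)) • e i) := fun x => by
    rw [LinearEquiv.mul_apply, eρ, eρ]
    simp only [PQ.B_smul_left, PQ.B_add_left, h.on.self]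
    module
  have sc : ∀ (p r : V ≃ₗ[F] V) (s : F) x, s ≠ 0 → p x = s • x → r x = s • x → (p * r⁻¹) x = x := by
    intro p r s x hs h1 h2
    have : r⁻¹ x = s⁻¹ • x := r.symm_apply_eq.2 (by
      rw [map_smul, h2, smul_smul, inv_mul_cancel₀ hs, one_smul])
    rw [LinearEquiv.mul_apply, this, map_smul, h1, smul_smul, inv_mul_cancel₀ hs, one_smul]
  let f : K → K := fun k => ⟨k * (ρ * ρ) * (k : V ≃ₗ[F] V)⁻¹ * (ρ * ρ)⁻¹,
    M.mul_mem (M.mul_mem (M.mul_mem k.2.1 (M.mul_mem hρ hρ)) (M.inv_mem k.2.1))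
      (M.inv_mem (M.mul_mem hρ hρ)), fun x hx => sc _ _ (σ a ^ 2) x (pow_ne_zero _ ha0) (by
        rw [LinearEquiv.mul_apply, LinearEquiv.mul_apply, (K.inv_mem k.2).2 x hx, e2, hx.1, map_smul]
        simp [k.2.2 x hx]) (by simp [-LinearEquiv.mul_apply, e2, hx.1])⟩
  have hinj : Function.Injective f := by
    intro k k' hkk
    have e3 := mul_right_cancel (congrArg Subtype.val hkk)
    have m := K.mul_mem (K.inv_mem k'.2) k.2
    have e4 : (k' : V ≃ₗ[F] V)⁻¹ * k * (ρ * ρ) = (ρ * ρ) * ((k' : V ≃ₗ[F] V)⁻¹ * k) := by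
      calc _ = (k' : V ≃ₗ[F] V)⁻¹ * (k * (ρ * ρ) * (k : V ≃ₗ[F] V)⁻¹) * k := by group
        _ = _ := by rw [e3]; group
    refine Subtype.ext (inv_mul_eq_one.1 ?_).symm
    generalize (k' : V ≃ₗ[F] V)⁻¹ * k = p at m e4
    refine h.eq_one hv m.1 (i := i) (fun x h1 h2 => m.2 x ⟨h1, h2⟩) (c := S.B (p (e i)) (e i)) ?_
    have e5 := LinearEquiv.congr_fun e4 (e i)
    rw [LinearEquiv.mul_apply p, LinearEquiv.mul_apply _ p, e2, e2, h.on.self, map_smul, map_add,
      map_smul] at e5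
    have e6 := add_left_cancel (smul_right_injective V (pow_ne_zero 2 ha0) e5)
    rw [mul_one, mul_smul] at e6
    exact smul_right_injective V (sub_ne_zero.2 ha8) e6
  obtain ⟨k, hk⟩ := Finite.injective_iff_surjective.1 hinj ⟨τ * ρ⁻¹, M.mul_mem hτ (M.inv_mem hρ),
    fun x hx => sc _ _ (σ a) x ha0 (by simp [eτ, hx.2]) (by simp [eρ, hx.1])⟩
  have e3 : (k : V ≃ₗ[F] V) * (ρ * ρ) * (k : V ≃ₗ[F] V)⁻¹ = τ * ρ := by
    have := congrArg Subtype.val hk
    simp only [f] at this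
    rw [mul_inv_eq_iff_eq_mul.1 this]; group
  have e4 : ∀ x, ∃ c : F, τ (ρ x) = σ a ^ 2 • (x + c • (k : V ≃ₗ[F] V) (e i)) := fun x =>
    ⟨_, by rw [← LinearEquiv.mul_apply, ← e3, LinearEquiv.mul_apply, LinearEquiv.mul_apply, e2]; simp; rfl⟩
  obtain ⟨c, p1⟩ := e4 (e b)
  obtain ⟨c', p2⟩ := e4 (e i)
  generalize (k : V ≃ₗ[F] V) (e i) = u at p1 p2
  rw [eτ, eρ] at p1 p2
  have q1 := congrArg (fun x => S.B x (e b)) p1
  have q2 := congrArg (fun x => S.B x (e i)) p1
  have q3 := congrArg (fun x => S.B x (e b)) p2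
  have q4 := congrArg (fun x => S.B x (e i)) p2
  simp only [PQ.B_smul_left, PQ.B_add_left, h.on.self, h.on.ne hbi, h.on.ne hbi.symm] at q1 q2 q3 q4
  have r1 := mul_ne_zero (mul_ne_zero (pow_ne_zero 2 ha0) (pow_ne_zero 2 ha4))
    (mul_ne_zero (ne_swap (hv b)) (hv b))
  have r2 : σ a ^ 2 * (σ a ^ 2 * (a ^ 5 - 1) ^ 2 * (S.B (e b) v * S.B v (e b))) = 0 := by
    linear_combination (σ a ^ 2 * c' * S.B u (e i)) * q1 - (σ a ^ 2 * c' * S.B u (e b)) * q2
      + (σ a ^ 2 * (a ^ 5 - 1) * S.B (e b) v * S.B v (e b)) * q4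
      - (σ a ^ 2 * (a ^ 5 - 1) * S.B (e b) v * S.B v (e i)) * q3
  exact mul_ne_zero (pow_ne_zero 2 ha0) r1 r2

theorem R5.norm_nine (h : R5 S M e) (h3 : (3 : F) = 0) (hr9 : ∀ x, σ x = x → x ^ 9 = x) {v : V}
    (hv : ∀ i, S.B v (e i) ≠ 0) (hvv : S.B v v = 1) (hr : HR5 S M v (-1)) (i : ι) :
    S.B v (e i) * σ (S.B v (e i)) = 1 ∨ (S.B v (e i) * σ (S.B v (e i))) ^ 2 = -1 := by
  obtain ⟨ρ, hρ, eρ⟩ := h.hr i (a := -1) (by simp)
  obtain ⟨τ, hτ, eτ⟩ := hr
  have ey : ∀ x, (τ * ρ⁻¹) x = x - (2 * S.B x (e i)) • e i -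
      (2 * S.B (x - (2 * S.B x (e i)) • e i) v) • v := fun x => by
    have : ρ⁻¹ x = (-1 : F) • (x - (2 * S.B x (e i)) • e i) := ρ.symm_apply_eq.2 (by
      simp only [eρ, PQ.B_smul_left, PQ.B_sub_left, h.on.self, map_neg, map_one]
      match_scalars <;> ring)
    rw [LinearEquiv.mul_apply, this, map_smul, eτ, map_neg, map_one]; module
  have hy := M.mul_mem hτ (M.inv_mem hρ)
  generalize τ * ρ⁻¹ = y at ey hy
  have fx : ∀ (m : ℕ) x, S.B x (e i) = 0 → S.B x v = 0 → (y ^ m) x = x := by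
    intro m x h1 h2
    induction m with
    | zero => rfl
    | succ m ih => rw [pow_succ', LinearEquiv.mul_apply, ih, ey]; simp [h1, h2]
  have no : ∀ m : ℕ, (y ^ m) (e i) ≠ (-1 : F) • e i := fun m hm => by
    have := h.eq_one hv (M.pow_mem hy m) (fx m) hm
    rw [this] at hm
    have := congrArg (fun x => S.B x (e i)) hm
    simp only [LinearEquiv.coe_one, id, PQ.B_smul_left, h.on.self] at this
    exact one_ne_zero (α := F) (by linear_combination -this + h3)
  have n0 := mul_ne_zero (hv i) (σ_ne (σ := σ) (hv i))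
  have n1 := hr9 (S.B v (e i) * σ (S.B v (e i))) (by rw [map_mul, hσ, mul_comm])
  have y2 : y (y (e i)) = (4 * (S.B v (e i) * σ (S.B v (e i))) - 2) • y (e i) - e i := by
    simp only [ey, PQ.B_sub_left, PQ.B_smul_left, h.on.self, hvv, Bs]
    module
  generalize S.B v (e i) * σ (S.B v (e i)) = n at n0 n1 y2
  obtain ⟨t, ht⟩ : ∃ t, t = 4 * n - 2 := ⟨_, rfl⟩
  rw [← ht] at y2
  have p2 : (y ^ 2) (e i) = t • y (e i) - e i := y2
  have p3 : (y ^ 3) (e i) = (t ^ 2 - 1) • y (e i) - t • e i := by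
    rw [pow_succ', LinearEquiv.mul_apply, p2, map_sub, map_smul, y2]; module
  have p4 : (y ^ 4) (e i) = (t ^ 3 - 2 * t) • y (e i) - (t ^ 2 - 1) • e i := by
    rw [pow_succ', LinearEquiv.mul_apply, p3, map_sub, map_smul, map_smul, y2]; module
  have p5 : (y ^ 5) (e i) = (t ^ 4 - 3 * t ^ 2 + 1) • y (e i) - (t ^ 3 - 2 * t) • e i := by
    rw [pow_succ', LinearEquiv.mul_apply, p4, map_sub, map_smul, map_smul, y2]; module
  have hn : n = t - 1 := by rw [ht]; linear_combination (1 - n) * h3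
  have n2 : (n - 1) * (n ^ 2 + 1) * t * (t ^ 2 - t - 1) * (t ^ 2 - 2) = 0 := by
    apply mul_left_cancel₀ n0
    rw [hn] at n1 ⊢
    linear_combination n1 + (8 * t ^ 2 - 32 * t ^ 3 + 54 * t ^ 4 - 50 * t ^ 5 + 27 * t ^ 6
      - 8 * t ^ 7 + t ^ 8) * h3
  simp only [mul_eq_zero] at n2
  rcases n2 with (((k | k) | k) | k) | k
  · exact Or.inl (sub_eq_zero.1 k)
  · exact Or.inr (by linear_combination k)
  · refine (no 2 ?_).elim
    rw [p2, k]; module
  · refine (no 5 ?_).elim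
    rw [p5]; match_scalars
    · linear_combination (t ^ 2 + t - 1) * k
    · linear_combination (-t - 1) * k
  · refine (no 4 ?_).elim
    rw [p4]; match_scalars
    · linear_combination t * k
    · linear_combination -k

theorem R5.mono_nine (h : R5 S M e) (h3 : (3 : F) = 0) (hr9 : ∀ x, σ x = x → x ^ 9 = x) {ω : F}
    (hω : ω * σ ω = 1) (hω5 : ω ^ 5 = 1) (hω1 : ω ≠ 1) {g : V ≃ₗ[F] V} (hg : g ∈ M) : Mono e g := by
  by_contra hM
  obtain ⟨j, -⟩ := h.out []
  have hgi := (h.le hg).1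
  have h2 : (2 : F) ≠ 0 := fun h0 => one_ne_zero (α := F) (by linear_combination h3 - h0)
  have m5 : (-1 : F) ^ 5 ≠ 1 := fun h0 => h2 (by linear_combination -h0)
  have key : ∀ g ∈ M, ¬ Mono e g → ∀ i, S.B (g (e j)) (e i) * σ (S.B (g (e j)) (e i)) = 1 ∨
      (S.B (g (e j)) (e i) * σ (S.B (g (e j)) (e i))) ^ 2 = -1 := fun g hg hM =>
    h.norm_nine h3 hr9 (h.entry_ne (a := -1) (by simp) m5 hg hM j)
      (by rw [PQ.B_isom (h.le hg).1, h.on.self]) ((h.hr j (by simp)).conj hg (h.le hg).1)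
  obtain ⟨n, hn⟩ : ∃ n : ι → F, ∀ i, n i = S.B (g (e j)) (e i) * σ (S.B (g (e j)) (e i)) :=
    ⟨_, fun _ => rfl⟩
  have k0 : ∀ i, n i = 1 ∨ n i ^ 2 = -1 := fun i => by rw [hn]; exact key g hg hM i
  obtain ⟨k, l, hkl, e0⟩ : ∃ k l, k ≠ l ∧ n k = n l := by
    by_contra hc
    push Not at hc
    obtain ⟨b, hb⟩ := h.out [j]
    obtain ⟨c, hc'⟩ := h.out [j, b]
    obtain ⟨d, hd⟩ := h.out [j, b, c]
    simp only [List.mem_cons, List.not_mem_nil, or_false, not_or] at hb hc' hd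
    have t3 : ∀ x y z, x ≠ y → x ≠ z → y ≠ z → n x ^ 2 = -1 → n y ^ 2 = -1 → n z ^ 2 = -1 → False := by
      intro x y z a1 a2 a3 b1 b2 b3
      have c1 : n x + n y = 0 := mul_left_cancel₀ (sub_ne_zero.2 (hc x y a1)) (by
        linear_combination b1 - b2)
      have c2 : n x + n z = 0 := mul_left_cancel₀ (sub_ne_zero.2 (hc x z a2)) (by
        linear_combination b1 - b3)
      exact hc y z a3 (by linear_combination c1 - c2)
    have t2 : ∀ x y, x ≠ y → n x = 1 → n y ^ 2 = -1 := fun x y a1 b1 =>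
      (k0 y).resolve_left fun b2 => hc x y a1 (b1.trans b2.symm)
    rcases k0 j with a1 | a1
    · exact t3 b c d (Ne.symm hc'.2) (Ne.symm hd.2.1) (Ne.symm hd.2.2) (t2 j b (Ne.symm hb) a1)
        (t2 j c (Ne.symm hc'.1) a1) (t2 j d (Ne.symm hd.1) a1)
    rcases k0 b with a2 | a2
    · exact t3 j c d (Ne.symm hc'.1) (Ne.symm hd.1) (Ne.symm hd.2.2) a1 (t2 b c (Ne.symm hc'.2) a2)
        (t2 b d (Ne.symm hd.2.1) a2)
    rcases k0 c with a3 | a3
    · exact t3 j b d (Ne.symm hb) (Ne.symm hd.1) (Ne.symm hd.2.1) a1 a2 (t2 c d (Ne.symm hd.2.2) a3)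
    · exact t3 j b c (Ne.symm hb) (Ne.symm hc'.1) (Ne.symm hc'.2) a1 a2 a3
  have w1 : (ω + σ ω) ^ 2 + (ω + σ ω) - 1 = 0 := by
    have ω0 : ω ≠ 0 := left_ne_zero_of_mul_eq_one hω
    apply mul_left_cancel₀ (mul_ne_zero (pow_ne_zero 2 ω0) (sub_ne_zero.2 hω1))
    linear_combination hω5 + (ω - 1) * (2 * ω ^ 2 + ω * σ ω + 1 + ω) * hω
  obtain ⟨s, hs, hs'⟩ : ∃ s : F, s * σ s = 1 ∧ (1 + n k * (s + σ s - 2)) ^ 2 = -1 := by
    rcases k0 k with a1 | a1
    · exact ⟨ω, hω, by rw [a1]; linear_combination w1 + (1 - ω - σ ω) * h3⟩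
    have : (ω + σ ω - 1 - n k) * (ω + σ ω - 1 + n k) = 0 := by
      linear_combination w1 - a1 + (1 - ω - σ ω) * h3
    rcases mul_eq_zero.1 this with a2 | a2
    · refine ⟨ω, hω, ?_⟩
      rw [show ω + σ ω = 1 + n k by linear_combination a2]
      linear_combination (n k ^ 2 - 2 * n k + 2) * a1
    · refine ⟨ω ^ 2, by rw [map_pow, ← mul_pow, hω, one_pow], ?_⟩
      rw [show ω ^ 2 + σ (ω ^ 2) = 1 + n k by
        rw [map_pow]; linear_combination w1 - a2 - 2 * hω - h3]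
      linear_combination (n k ^ 2 - 2 * n k + 2) * a1
  obtain ⟨t, ht, -, -, et⟩ := h.exists_tor hkl hs
  have hG := M.mul_mem (M.mul_mem (M.inv_mem hg) ht) hg
  have e1 : S.B ((g⁻¹ * t * g) (e j)) (e j) = 1 + n k * (s + σ s - 2) := by
    rw [← PQ.B_isom hgi]
    have k1 := hn k
    have k2 := hn l
    simp only [LinearEquiv.mul_apply, LinearEquiv.coe_inv, LinearEquiv.apply_symm_apply, et,
      PQ.B_add_left, PQ.B_smul_left, PQ.B_isom hgi, h.on.self, ← Bs S (g (e j)) (e _)]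
    linear_combination -(s - 1) * k1 - (σ s - 1) * k2 - (σ s - 1) * e0
  have e2 : σ (1 + n k * (s + σ s - 2)) = 1 + n k * (s + σ s - 2) := by
    rw [hn]; simp only [map_add, map_mul, map_sub, map_one, map_ofNat, hσ]; ring
  generalize 1 + n k * (s + σ s - 2) = β at e1 e2 hs'
  by_cases hm : Mono e (g⁻¹ * t * g)
  · obtain ⟨l, c, e4⟩ := hm j
    have e3 := PQ.B_isom (h.le hG).1 (e j) (e j)
    rw [e4] at e1 e3
    by_cases hl : l = j
    · simp only [hl, PQ.B_smul_left, Bsr, h.on.self, mul_one] at e1 e3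
      rw [e1, e2] at e3
      exact h2 (by linear_combination hs' - e3)
    · rw [PQ.B_smul_left, h.on.ne hl, mul_zero] at e1
      rw [← e1] at hs'
      exact one_ne_zero (α := F) (by linear_combination hs')
  · have := key _ hG hm j
    rw [e1, e2, ← sq, hs'] at this
    rcases this with a | a
    · exact h2 (by linear_combination -a)
    · exact h2 (by linear_combination a)

theorem R5.mono_gen (h : R5 S M e) {a : F} (ha : a * σ a = 1) (ha10 : a ^ 10 ≠ 1) {g : V ≃ₗ[F] V}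
    (hg : g ∈ M) : Mono e g := by
  by_contra hM
  obtain ⟨j, -⟩ := h.out []
  exact h.not_gen ha ha10 (h.entry_ne ha (fun h0 => ha10 (by linear_combination (a ^ 5 + 1) * h0)) hg hM j)
    ((h.hr j ha).conj hg (h.le hg).1)

end abstract

variable {F : Type*} [Field F] [Fintype F] {q : ℕ} (hF : Fintype.card F = q ^ 2)

include hF in
theorem geo_mono5 (D : Fin 5 → Submodule F (Fin 5 → F))
    (hD : Geo.IsNondegenerateMDecomposition (hermForm 5 F q) 1 D) :
    Geo.IsMaximalIn (GU 5 F q ⊓ Geo.specialLinear (Fin 5) F)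
      (Geo.decompositionStabilizer D ⊓ (GU 5 F q ⊓ Geo.specialLinear (Fin 5) F)) := by
  obtain ⟨π, h⟩ := exists_od hF hD
  choose b b1 b2 b3 b4 using fun i =>
    exists_orthonormal_unit (std_ne hF) (std hF 5) 1 (D i) (h.nd i) (h.dim i)
  have hon : ON (std hF 5) (fun i => b i 0) := ⟨fun i j => by
    split_ifs with hij
    · rw [hij, b2]
    · exact h.orth i j hij _ (b1 i 0) _ (b1 j 0), fun x => by
    conv_rhs => rw [← h.pr.sum x]
    refine Finset.sum_congr rfl fun i _ => ?_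
    rw [h.B_eq x (b1 i 0)]
    simpa using (b4 i _ (h.pr.mem i x)).symm⟩
  refine max_of hF (Mono fun i => b i 0) (fun g => ?_)
    (SU_not_le_decompositionStabilizer hF (by omega) (by omega) hD.decomp)
    fun M h1 h3 => ?_
  · rw [mem_decomp_iff hD.decomp]
    refine forall_congr' fun i => exists_congr fun j => ⟨fun h' => ⟨_, by
      simpa using b4 j _ (h' _ (b1 i 0))⟩, fun ⟨c, hc⟩ x hx => ?_⟩
    rw [b4 i x hx, Fin.sum_univ_one, map_smul, hc]
    exact Submodule.smul_mem _ _ (Submodule.smul_mem _ _ (b1 j 0))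
  have h5 : Fintype.card (Fin 5) = 5 := Fintype.card_fin 5
  have h2 := two_le_of_card_sq hF
  by_cases hq2 : q = 2
  · refine TW5.max ⟨⟨hon, h1, h3⟩, std_ne hF, fun a ha h0 => mul_left_cancel₀ h0 ?_, h5⟩
    subst hq2
    change a ^ 2 = a at ha
    linear_combination ha
  have hM : MS (std hF 5) M fun i => b i 0 := ⟨hon, h1, h3⟩
  have hr := exists_real hF (by omega)
  obtain ⟨a, a1, a2⟩ := exists_norm_one_ord hF
  refine (hM.rigid_or (std_ne hF) hr (by omega)).imp_left fun hR g hg => ?_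
  have hR5 : R5 (std hF 5) M fun i => b i 0 := ⟨hM, std_ne hF, hr, hR, h5⟩
  have hc := FiniteField.cast_card_eq_zero F
  rw [hF, Nat.cast_pow] at hc
  have hc' : (q : F) = 0 := pow_eq_zero_iff two_ne_zero |>.1 hc
  by_cases hq4 : q = 4
  · subst hq4
    exact hR5.mono_even (pow_eq_zero_iff two_ne_zero |>.1 (by
      push_cast at hc'; linear_combination hc')) hg
  by_cases hq9 : q = 9
  · subst hq9
    refine hR5.mono_nine (ω := a ^ 2) (pow_eq_zero_iff two_ne_zero |>.1 (by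
      push_cast at hc'; linear_combination hc')) (fun x hx => hx)
      (by rw [map_pow, ← mul_pow, a1, one_pow]) (by rw [← pow_mul]; exact (a2 _).2 (by norm_num))
      (fun h0 => by have := (a2 2).1 h0; omega) hg
  refine hR5.mono_gen a1 (fun h6 => ?_) hg
  have h7 := (a2 10).1 h6
  have := Nat.le_of_dvd (by omega) h7
  obtain ⟨k, rfl⟩ : ∃ k, q = k + 3 := ⟨q - 3, by omega⟩
  have : k = 0 ∨ k = 2 ∨ k = 3 ∨ k = 4 ∨ k = 5 := by omega
  rcases this with rfl | rfl | rfl | rfl | rfl <;> simp at h7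

end Cfsg.Agent.H6.SU
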