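import Cfsg.Agent.H6.SU4C

/-!
Maximality of the normaliser of `SO_n(q)` in `SU_n(q)`, `q` odd, `n ≥ 5`.
-/

set_option autoImplicit false
set_option linter.unusedSectionVars false
set_option linter.unusedVariables false

namespace Cfsg.Agent.H6.SU

open Module Cfsg.Agent.Form Cfsg.Agent.H7
open scoped MatrixGroups Matrix

section abstract

variable {E : Type*} [Field E] {W : Type*} [AddCommGroup W] [Module E W]
  {T : PQ (FP.orth E) W} [FiniteDimensional E W]
  {F : Type*} [Field F] {σ : F →+* F} {hσ : ∀ a, σ (σ a) = a}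
  {V : Type*} [AddCommGroup V] [Module F V] {S : PQ (FP.unit σ hσ) V} {M : Subgroup (V ≃ₗ[F] V)}
  [Algebra E F] {φ : W →+ V} [FiniteDimensional F V] [Finite F] [Finite E]

theorem OR4.D_rat5 (h : OR4 S M T φ) {u : W} (hu : T.Sing u) (hu0 : u ≠ 0) (hc : ¬ Ctr S M (φ u))
    {v z : V} {q : F} (hE : HE S M v z q) (h1 : S.B (φ u) v = 0) (h2 : S.B (φ u) z = 0) {y : W}
    (hy : T.B y u = 0) : ∃ (w : W) (t : F),
      (S.B (φ y) z - q * S.B (φ y) v) • v - S.B (φ y) v • z = φ w + t • φ u := by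
  obtain ⟨k, hk, hk', e⟩ := hE.exists
  have a1 := (h.he hu hy).ei
  have a2 := a1.conj hk hk'
  rw [e, e, h1, h2] at a2
  simp only [mul_zero, sub_zero, zero_smul, add_zero] at a2
  exact h.rat_of_ei hu hu0 hc ((a2.sub a1).congr (by abel))

theorem OR4.mem_span5 (h : OR4 S M T φ) {u : W} (hu : T.Sing u) (hu0 : u ≠ 0) (hc : ¬ Ctr S M (φ u))
    {v z : V} {q : F} (hE : HE S M v z q) (hq : σ q = q) (h1 : S.B (φ u) v = 0)
    (h2 : S.B (φ u) z = 0) (hirr : ∀ (b : F) w (t : F), b ≠ 0 → b • v ≠ φ w + t • φ u) :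
    z ∈ (F ∙ v) ⊔ F ∙ φ u := by
  obtain ⟨y1, hy1, hl⟩ : ∃ y, T.B y u = 0 ∧ S.B (φ y) v ≠ 0 := by
    by_contra hc
    push Not at hc
    obtain ⟨w, t, e⟩ := h.rs.rat_mod hu.B_self hu0 (v := v) fun y hy => ⟨0, by simp [hc y hy]⟩
    exact hirr 1 w t one_ne_zero (by simpa using e)
  set b := σ (S.B (φ y1) v)⁻¹ with hb
  have hb0 : b ≠ 0 := σ_ne (inv_ne_zero hl)
  have hσb : σ b = (S.B (φ y1) v)⁻¹ := hσ _
  have hE' : HE S M (b • v) ((σ b)⁻¹ • z) (q / (b * σ b)) := by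
    refine HE.smul_left' (hE.congr rfl ?_ ?_) (by simp [hE.wd]) ?_
    · rw [smul_smul, mul_inv_cancel₀ (σ_ne hb0), one_smul]
    · have := σ_ne (σ := σ) hb0; field_simp
    · have := σ_ne (σ := σ) hb0
      have e := hE.tr
      simp only [map_div₀, map_mul, hσ, PQ.B_smul_left, Bsr, map_inv₀, ← e]
      field_simp
  have hq' : σ (q / (b * σ b)) = q / (b * σ b) := by rw [map_div₀, map_mul, hσ, hq, mul_comm]
  have hirr' : ∀ w (t : F), b • v ≠ φ w + t • φ u := fun w t => hirr b w t hb0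
  have a1 : S.B (φ y1) (b • v) = 1 := by rw [Bsr, hσb, inv_mul_cancel₀ hl]
  have a2 : S.B (φ u) (b • v) = 0 := by simp [h1]
  have a3 : S.B (φ u) ((σ b)⁻¹ • z) = 0 := by simp [h2]
  suffices (σ b)⁻¹ • z ∈ (F ∙ b • v) ⊔ F ∙ φ u by
    rw [Submodule.span_singleton_smul_eq hb0.isUnit] at this
    have := Submodule.smul_mem _ (σ b) this
    rwa [smul_smul, mul_inv_cancel₀ (σ_ne hb0), one_smul] at this
  generalize b • v = v' at hE' hirr' a1 a2
  generalize (σ b)⁻¹ • z = z' at hE' a3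
  generalize q / (b * σ b) = q' at hE' hq'
  obtain ⟨y2, hy2, hl2⟩ : ∃ y, T.B y u = 0 ∧ σ (S.B (φ y) v') ≠ S.B (φ y) v' := by
    by_contra hc
    push Not at hc
    obtain ⟨w, t, e⟩ := h.rs.rat_mod hu.B_self hu0 (v := v') fun y hy => by
      simpa using h.real _ (hc y hy)
    exact hirr' w t e
  have C : ∀ y y', T.B y u = 0 → T.B y' u = 0 →
      σ ((S.B (φ y) z' - q' * S.B (φ y) v') * σ (S.B (φ y') v') - S.B (φ y) v' * σ (S.B (φ y') z')) =
      (S.B (φ y) z' - q' * S.B (φ y) v') * σ (S.B (φ y') v') - S.B (φ y) v' * σ (S.B (φ y') z') := by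
    intro y y' hy hy'
    obtain ⟨w, t, e⟩ := h.D_rat5 hu hu0 hc hE' a2 a3 hy
    have := congrArg (fun x => S.B x (φ y')) e
    simp only [PQ.B_sub_left, PQ.B_add_left, PQ.B_smul_left, h.rs.B0 (T.B_comm_zero hy'), h.B_eq,
      mul_zero, add_zero] at this
    rw [Bs, Bs, this, h.σ_eq]
  have K : ∀ y, T.B y u = 0 → σ (S.B (φ y) v') ≠ S.B (φ y) v' →
      S.B (φ y) z' = S.B (φ y1) z' * S.B (φ y) v' := fun y hy hn =>
    real_aux hσ h.two hq' hn (by simpa [a1] using C y1 y1 hy1 hy1) (C y y hy hy)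
      (by simpa [a1] using C y1 y hy1 hy) (by simpa [a1] using C y y1 hy hy1)
  have K' : ∀ y, T.B y u = 0 → S.B (φ y) z' = S.B (φ y1) z' * S.B (φ y) v' := by
    intro y hy
    by_cases hn : σ (S.B (φ y) v') = S.B (φ y) v'
    · have e1 := K (y + y2) (by simp [hy, hy2]) (by simpa [hn] using hl2)
      have e2 := K y2 hy2 hl2
      simp only [map_add, PQ.B_add_left] at e1
      linear_combination e1 - e2
    · exact K y hy hn
  obtain ⟨p, hp⟩ := h.rs.ndT.exists_eq hu0 1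
  have := h.rs.eq_zero (v := z' - σ (S.B (φ y1) z') • v' -
      σ (S.B (φ p) (z' - σ (S.B (φ y1) z') • v')) • φ u) fun y => by
    have e1 := K' (y - T.B y u • p) (by simp [hp])
    simp only [map_sub, h.rs.smul, PQ.B_sub_left, PQ.B_smul_left] at e1
    simp only [PQ.B_sub_right, Bsr, hσ, h.B_eq y u]
    linear_combination e1
  rw [sub_sub, sub_eq_zero] at this
  rw [this]
  exact Submodule.add_mem_sup (Submodule.smul_mem _ _ (Submodule.mem_span_singleton_self _))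
    (Submodule.smul_mem _ _ (Submodule.mem_span_singleton_self _))

theorem OR4.not_le_plane5 (hne : ∃ a, σ a ≠ a) (h : OR4 S M T φ) (h5 : 5 ≤ finrank E W)
    {g : V ≃ₗ[F] V} (hg : g ∈ S.isom) (u : W) (p : V)
    (hZ : ∀ z, T.B z u = 0 → S.B p (g (φ z)) = 0 → g (φ z) ∈ (F ∙ g (φ u)) ⊔ F ∙ p) : False := by
  obtain ⟨θ, hθ⟩ := hne
  obtain ⟨p1, p2, e⟩ := h.rs.exists_comb h.real hθ (g.symm p)
  have hp : p = g (φ p1 + θ • φ p2) := by rw [← e]; simp
  have key : ∀ z ∈ T.perp (((E ∙ u) ⊔ E ∙ p1) ⊔ E ∙ p2), ∃ s t : F,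
      φ z = s • φ u + t • (φ p1 + θ • φ p2) := by
    intro z hz
    rw [T.perp_sup, T.perp_sup] at hz
    have := hZ z (T.mem_perp_span_singleton.1 hz.1.1) (by
      rw [hp, PQ.B_isom hg]
      simp [h.rs.B0 (T.B_comm_zero (T.mem_perp_span_singleton.1 hz.1.2)),
        h.rs.B0 (T.B_comm_zero (T.mem_perp_span_singleton.1 hz.2))])
    obtain ⟨_, hx, _, hy, e1⟩ := Submodule.mem_sup.1 this
    obtain ⟨s, rfl⟩ := Submodule.mem_span_singleton.1 hx
    obtain ⟨t, rfl⟩ := Submodule.mem_span_singleton.1 hy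
    exact ⟨s, t, g.injective (by rw [← e1, hp, map_add g (s • _), map_smul, map_smul])⟩
  have h2 := h.rs.ndT.finrank_perp (((E ∙ u) ⊔ E ∙ p1) ⊔ E ∙ p2)
  have h3 := finrank_sup_span_le ((E ∙ u) ⊔ E ∙ p1) p2
  have h4 := finrank_sup_span_le (E ∙ u) p1
  have h6 := finrank_span_singleton_le (F := E) u
  have h7 := finrank_span_singleton_le (F := F) (φ u)
  by_cases ht : ∃ z ∈ T.perp (((E ∙ u) ⊔ E ∙ p1) ⊔ E ∙ p2), ∃ s t : F, t ≠ 0 ∧
      φ z = s • φ u + t • (φ p1 + θ • φ p2)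
  · obtain ⟨z, -, s, t, ht, e1⟩ := ht
    have h1 := h.rs.finrank_le_span (T.perp (((E ∙ u) ⊔ E ∙ p1) ⊔ E ∙ p2))
      (N := (F ∙ φ u) ⊔ F ∙ (φ p1 + θ • φ p2)) (fun z hz => by
        obtain ⟨s, t, e⟩ := key z hz
        rw [e]
        exact Submodule.add_mem_sup (Submodule.smul_mem _ _ (Submodule.mem_span_singleton_self _))
          (Submodule.smul_mem _ _ (Submodule.mem_span_singleton_self _)))
    have h8 := finrank_sup_span_le (F ∙ φ u) (φ p1 + θ • φ p2)
    have h9 : T.perp ((E ∙ u) ⊔ E ∙ z) ≤ T.perp (((E ∙ u) ⊔ E ∙ p1) ⊔ E ∙ p2) := by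
      intro y hy
      rw [T.perp_sup] at hy
      have a1 := T.mem_perp_span_singleton.1 hy.1
      have a2 := congrArg (S.B (φ y)) e1
      rw [h.rs.B0 (T.mem_perp_span_singleton.1 hy.2), PQ.B_add_right, Bsr, Bsr, h.rs.B0 a1, mul_zero,
        zero_add, PQ.B_add_right, Bsr, h.B_eq, h.B_eq] at a2
      have a3 := (mul_eq_zero.1 a2.symm).resolve_left (σ_ne ht)
      have a4 := congrArg σ a3
      rw [map_add, map_mul, h.σ_eq, h.σ_eq, hσ, map_zero] at a4
      have a5 : algebraMap E F (T.B y p2) = 0 :=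
        mul_left_cancel₀ (sub_ne_zero.2 hθ) (by linear_combination a3 - a4)
      rw [a5, mul_zero, add_zero] at a3
      rw [T.perp_sup, T.perp_sup]
      exact ⟨⟨hy.1, T.mem_perp_span_singleton.2 ((map_eq_zero _).1 a3)⟩,
        T.mem_perp_span_singleton.2 ((map_eq_zero _).1 a5)⟩
    have h10 := Submodule.finrank_mono h9
    have h11 := h.rs.ndT.finrank_perp ((E ∙ u) ⊔ E ∙ z)
    have h12 := finrank_sup_span_le (E ∙ u) z
    omega
  · have h1 := h.rs.finrank_le_span (T.perp (((E ∙ u) ⊔ E ∙ p1) ⊔ E ∙ p2)) (N := F ∙ φ u)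
      (fun z hz => by
        obtain ⟨s, t, e⟩ := key z hz
        by_cases h0 : t = 0
        · rw [e, h0, zero_smul, add_zero]
          exact Submodule.smul_mem _ _ (Submodule.mem_span_singleton_self _)
        · exact (ht ⟨z, hz, s, t, h0, e⟩).elim)
    omega

theorem OR4.nd_case5 (hne : ∃ a, σ a ≠ a) (h : OR4 S M T φ) (h5 : 5 ≤ finrank E W)
    (hc : ∀ u, T.Sing u → u ≠ 0 → ¬ Ctr S M (φ u)) {g : V ≃ₗ[F] V} (hg : g ∈ M) {u₀ : W}
    (hu₀ : T.Sing u₀) {x b : W} (bb : T.B b b ≠ 0) {α β : F} (hαβ : α * σ β ≠ β * σ α)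
    (e : g (φ u₀) = α • φ x + β • φ b) : False := by
  have hgi := (h.le hg).1
  have hT := h.rs.ndT
  obtain ⟨a, β, ab, hαβ, e⟩ : ∃ (a : W) (β : F), T.B a b = 0 ∧ α * σ β ≠ β * σ α ∧
      g (φ u₀) = α • φ a + β • φ b := by
    refine ⟨x - (T.B x b / T.B b b) • b, β + α * algebraMap E F (T.B x b / T.B b b), by simp [bb],
      fun k => hαβ ?_, by rw [e, map_sub, h.rs.smul]; module⟩
    rw [map_add, map_mul, h.σ_eq] at k
    linear_combination k
  have ba := T.B_comm_zero ab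
  have hα : α ≠ 0 := by rintro rfl; simp at hαβ
  have hβ : β ≠ 0 := by rintro rfl; simp at hαβ
  have uu : S.B (g (φ u₀)) (g (φ u₀)) = 0 := by rw [PQ.B_isom hgi, h.rs.sing hu₀]
  have hB0 : algebraMap E F (T.B b b) ≠ 0 := (map_ne_zero _).2 bb
  have aa : T.B a a ≠ 0 := fun k => by
    simp only [e, PQ.B_add_left, PQ.B_add_right, PQ.B_smul_left, Bsr, h.B_eq, ab, ba, k] at uu
    simp [hβ, bb] at uu
  have hA0 : algebraMap E F (T.B a a) ≠ 0 := (map_ne_zero _).2 aa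
  have hcon : ∀ (c : F) w, g (φ u₀) ≠ c • φ w := fun c w e1 => hαβ (by
    have k1 := congrArg (fun x => S.B x (φ a)) (e.symm.trans e1)
    have k2 := congrArg (fun x => S.B x (φ b)) (e.symm.trans e1)
    simp only [PQ.B_add_left, PQ.B_smul_left, h.B_eq, ab, ba, map_zero, mul_zero, add_zero,
      zero_add] at k1 k2
    have k3 := congrArg σ k1
    have k4 := congrArg σ k2
    simp only [map_mul, h.σ_eq] at k3 k4
    apply mul_right_cancel₀ (mul_ne_zero hA0 hB0)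
    linear_combination (σ β * algebraMap E F (T.B b b)) * k1 + (c * algebraMap E F (T.B w a)) * k4
      - (σ α * algebraMap E F (T.B a a)) * k2 - (c * algebraMap E F (T.B w b)) * k3)
  obtain ⟨u, hu, hu0, hus⟩ := sp_orth T (T.perp ((E ∙ a) ⊔ E ∙ b)) (by
    have := hT.finrank_perp ((E ∙ a) ⊔ E ∙ b)
    have := finrank_sup_span_le (E ∙ a) b
    have := finrank_span_singleton_le (F := E) a
    omega)
  rw [T.perp_sup] at hu
  have ua := T.mem_perp_span_singleton.1 hu.1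
  have ub := T.mem_perp_span_singleton.1 hu.2
  have n3 : u ∉ (E ∙ a) ⊔ (E ∙ b) := fun hm => by
    obtain ⟨_, hx, _, hy, rfl⟩ := Submodule.mem_sup.1 hm
    obtain ⟨s, rfl⟩ := Submodule.mem_span_singleton.1 hx
    obtain ⟨t, rfl⟩ := Submodule.mem_span_singleton.1 hy
    simp [ab, ba, aa, bb] at ua ub
    simp [ua, ub] at hu0
  have c1 : S.B (φ u) (g (φ u₀)) = 0 := by simp [e, h.rs.B0 ua, h.rs.B0 ub]
  refine h.not_le_plane5 hne h5 hgi u₀ (φ u) fun z hz hz' =>
    h.mem_span5 hus hu0 (hc u hus hu0) ((h.he hu₀ hz).conj hg hgi) (h.σ_eq _) c1 hz'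
      fun b w t hb e1 => ?_
  obtain ⟨p, hp, h1⟩ := hT.exists_perp_eq n3 1
  rw [T.perp_sup] at hp
  have k1 := congrArg (fun x => S.B x (φ p)) e1
  simp only [e, PQ.B_add_left, PQ.B_smul_left, h.B_eq, h1, map_one, mul_one,
    T.B_comm_zero (T.mem_perp_span_singleton.1 hp.1),
    T.B_comm_zero (T.mem_perp_span_singleton.1 hp.2), map_zero, mul_zero, add_zero] at k1
  refine hcon b⁻¹ (w - T.B w p • u) ?_
  rw [map_sub, h.rs.smul, eq_neg_of_add_eq_zero_left k1.symm, neg_smul, sub_neg_eq_add, ← e1,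
    smul_smul, inv_mul_cancel₀ hb, one_smul]

theorem OR4.orbit_rat5 (hne : ∃ a, σ a ≠ a) (h : OR4 S M T φ) (h5 : 5 ≤ finrank E W)
    (hc : ∀ u, T.Sing u → u ≠ 0 → ¬ Ctr S M (φ u)) {g : V ≃ₗ[F] V} (hg : g ∈ M) {u : W}
    (hu : T.Sing u) : ∃ (b : F) (w : W), g (φ u) = b • φ w := by
  by_cases hu0 : u = 0
  · exact ⟨0, 0, by simp [hu0]⟩
  have hgi := (h.le hg).1
  have h' := h.map hg
  have hc' : ∀ u, T.Sing u → u ≠ 0 → ¬ Ctr S M (((g : V →ₗ[F] V).toAddMonoidHom.comp φ) u) :=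
    fun u h1 h2 h3 => hc u h1 h2 (by simpa using h3.map (inv_mem hg) (inv_mem hgi))
  obtain ⟨θ, hθ⟩ := id hne
  obtain ⟨a, b, e⟩ := h.rs.exists_comb h.real hθ (g (φ u))
  by_cases bb : T.B b b = 0
  swap
  · exact (h.nd_case5 hne h5 hc hg hu bb (x := a) (α := 1) (β := θ) (by simpa using hθ)
      (by simpa using e)).elim
  by_cases aa : T.B a a = 0
  swap
  · exact (h.nd_case5 hne h5 hc hg hu aa (x := b) (α := θ) (β := 1) (by simpa using hθ.symm)
      (by simpa [add_comm] using e)).elim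
  by_cases ba : T.B b a = 0
  · exact h.ts_case hne h' hu hu0 (hc' u hu hu0) aa ba bb hθ e
  · refine (h.nd_case5 hne h5 hc hg hu (b := a + b) (x := b) (α := θ - 1) (β := 1) ?_
      (by simpa using hθ.symm) (by rw [e, map_add]; module)).elim
    simp only [PQ.B_add_left, PQ.B_add_right, aa, bb, T.orth_B_swap b a]
    simpa [← two_mul, h.two'] using ba

theorem OR4.max5 (hne : ∃ a, σ a ≠ a) (h3 : ∃ a : F, σ a = a ∧ a ≠ 0 ∧ a ≠ 1) (h : OR4 S M T φ)
    (h5 : 5 ≤ finrank E W) : (∀ g ∈ M, NR φ g) ∨ sisom S ≤ M := by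
  by_cases hc : ∀ u, T.Sing u → u ≠ 0 → ¬ Ctr S M (φ u)
  · exact Or.inl fun g hg => h.nr (h.le hg).1 fun y hy => h.orbit_rat5 hne h5 hc hg hy
  · push Not at hc
    obtain ⟨u, h1, h2, h4⟩ := hc
    exact Or.inr (h.top_of_ctr hne h3 h1 h2 h4)

end abstract

variable {F : Type*} [Field F] [Fintype F] {q : ℕ} (hF : Fintype.card F = q ^ 2) {n : ℕ}

include hF in
theorem geo_orth5' (hn : 5 ≤ n) (hodd : Odd q) (F₀ : Subfield F)
    (hcard : Fintype.card F = Nat.card F₀ ^ 2) (P : GL (Fin n) F)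
    (hP : Geo.IsFormRationalStructure (hermForm n F q) F₀ 1 P) :
    Geo.IsMaximalIn (GU n F q ⊓ Geo.specialLinear (Fin n) F)
      (Geo.subfieldSubgroup F₀ P ⊓ (GU n F q ⊓ Geo.specialLinear (Fin n) F)) := by
  have h2 : (2 : F) ≠ 0 := by
    intro h
    have h1 : ((q ^ 2 : ℕ) : F) = 0 := by rw [← hF]; exact FiniteField.cast_card_eq_zero F
    obtain ⟨k, rfl⟩ := hodd
    push_cast at h1
    rw [h] at h1
    simp at h1
  have h2' : (2 : F₀) ≠ 0 := fun h => h2 (by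
    rw [← map_ofNat (algebraMap F₀ F) 2, h, map_zero])
  let f : (Fin n → F₀) → (Fin n → F₀) → F₀ := fun x y =>
    ⟨(std hF n).B (ratMap F₀ P x) (ratMap F₀ P y), by
      have := hP _ _ (fun i => (x i).2) (fun i => (y i).2)
      rwa [one_mul] at this⟩
  have hf : ∀ x y, (f x y : F) = (std hF n).B (ratMap F₀ P x) (ratMap F₀ P y) := fun _ _ => rfl
  have a1 : ∀ x y v, f (x + y) v = f x v + f y v := fun x y v => Subtype.ext (by
    rw [AddMemClass.coe_add, hf, hf, hf, map_add, PQ.B_add_left])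
  have a2 : ∀ (c : F₀) x v, f (c • x) v = c * f x v := fun c x v => Subtype.ext (by
    rw [MulMemClass.coe_mul, hf, hf, ratMap_smul, PQ.B_smul_left]; rfl)
  have a3 : ∀ v w, f v w = f w v := fun v w => Subtype.ext (by
    have := frob_half hF hcard (f w v)
    change (frobQ hF : F →+* F) (f w v) = f w v at this
    rw [← this, hf, hf, Bs])
  let T : PQ (FP.orth F₀) (Fin n → F₀) :=
    { B := f
      B_add_left := a1
      B_smul_left := a2
      B_swap := fun x y => by simp [a3 y x]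
      Q := fun x => f x x / 2
      Q_add := fun x y => by
        rw [FP.orth_mem, a1, a3 x (x + y), a3 y (x + y), a1, a1, a3 y x]; field_simp; ring
      Q_smul := fun a x => by
        rw [FP.orth_mem, a2, a3 x, a2, FP.orth_σ]; field_simp; ring
      B_self := fun x => by simp only [FP.orth_ε, FP.orth_σ]; field_simp; ring }
  have h : RS (std hF n) T (ratMap F₀ P) 1 :=
    ⟨ratMap_smul F₀ P, fun x y => by rw [one_mul]; rfl, ratMap_span F₀ P, ratMap_inj F₀ P,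
      std_nondeg hF n, one_ne_zero, frob_half hF hcard⟩
  have hq := two_le_of_card_sq hF
  exact max_of hF _ (mem_subfield_iff F₀ P)
    (SU_not_le_subfieldSubgroup hF (by omega) (ne_top_of_card le_rfl hcard) P)
    fun M h1 h3 => OR4.max5 (std_ne hF) (exists_real hF (by obtain ⟨k, rfl⟩ := hodd; omega))
      ⟨h, real_half hF hcard, h2, by simpa using (by omega : 4 ≤ n), h1, h3⟩ (by simpa using hn)

include hF in
theorem geo_orth5 (hodd : Odd q) (F₀ : Subfield F) (P : Matrix.GeneralLinearGroup (Fin 5) F)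
    (hcard : Fintype.card F = Nat.card F₀ ^ 2)
    (hP : Geo.IsFormRationalStructure (hermForm 5 F q) F₀ 1 P) :
    Geo.IsMaximalIn (GU 5 F q ⊓ Geo.specialLinear (Fin 5) F)
      (Geo.subfieldSubgroup F₀ P ⊓ (GU 5 F q ⊓ Geo.specialLinear (Fin 5) F)) :=
  geo_orth5' hF le_rfl hodd F₀ hcard P hP

end Cfsg.Agent.H6.SU
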