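import Cfsg.Agent.H8.U5Defs

/-!
Shared definitions for the maximal subgroups of `SU₇(q)`.
-/

set_option autoImplicit false

namespace Cfsg.Agent.H5.U7

open Module Subgroup Cfsg.Agent.Form Cfsg.Agent.H7 Cfsg.Agent.H6.SU Cfsg.Agent.H5.Zas1 Cfsg.Agent.H4.CAG

/-- the order of `SU₇(q)` -/
def NU (q : ℕ) : ℕ := q ^ 21 * (q ^ 2 - 1) * (q ^ 3 + 1) * (q ^ 4 - 1) * (q ^ 5 + 1) * (q ^ 6 - 1) * (q ^ 7 + 1)

/-- `(q ^ 7 + 1) / (q + 1)` -/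
def tt (q : ℕ) : ℕ := (q ^ 7 + 1) / (q + 1)

theorem tt_mul (q : ℕ) : (q + 1) * tt q = q ^ 7 + 1 :=
  Nat.mul_div_cancel' (by simpa using Odd.nat_add_dvd_pow_add_pow q 1 (n := 7) (by decide))

theorem tt_eq (q : ℕ) : tt q + q ^ 5 + q ^ 3 + q = q ^ 6 + q ^ 4 + q ^ 2 + 1 :=
  Nat.eq_of_mul_eq_mul_left q.succ_pos (by
    have := tt_mul q
    rw [Nat.succ_eq_add_one]
    linarith)

theorem tt_int (q : ℕ) : (tt q : ℤ) = q ^ 6 - q ^ 5 + q ^ 4 - q ^ 3 + q ^ 2 - q + 1 := by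
  have := congrArg (Nat.cast : ℕ → ℤ) (tt_eq q)
  push_cast at this
  linarith

theorem w_cases (q : ℕ) : (Nat.gcd 7 (q + 1) = 1 ∧ q % 7 ≠ 6) ∨ (Nat.gcd 7 (q + 1) = 7 ∧ q % 7 = 6) := by
  rcases (Nat.dvd_prime (by norm_num : Nat.Prime 7)).1 (Nat.gcd_dvd_left 7 (q + 1)) with h | h
  · refine Or.inl ⟨h, fun e => ?_⟩
    rw [Nat.gcd_eq_left (by omega)] at h
    omega
  · have := h ▸ Nat.gcd_dvd_right 7 (q + 1)
    exact Or.inr ⟨h, by omega⟩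

variable {F : Type*} [Field F] {σ : F →+* F} {hσ : ∀ a, σ (σ a) = a}
  {V : Type*} [AddCommGroup V] [Module F V]

/-- a seven-dimensional unitary space over the field with `q ^ 2` elements -/
structure Un (S : PQ (FP.unit σ hσ) V) (q : ℕ) : Prop where
  card : Nat.card F = q ^ 2
  pow : ∀ a, σ a = a ^ q
  ne : ∃ a, σ a ≠ a
  nd : S.Nondeg
  dim : finrank F V = 7

/-- the data attached to a proper overgroup of the normaliser of a Singer cycle -/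
structure SgD (S : PQ (FP.unit σ hσ) V) (q : ℕ) (K T : Subgroup (V ≃ₗ[F] V)) {Γ : Type*} [Group Γ]
    (π : K →* Γ) (X : Subgroup Γ) : Prop where
  le : K ≤ sisom S
  surj : Function.Surjective π
  ker : ∀ g : K, π g = 1 ↔ ∃ c : F, ∀ v, g.1 v = c • v
  ca : CA X
  gen : ∀ L : Subgroup Γ, L.Normal → X ≤ L → L = ⊤
  ne : ∃ g, g ∉ Nm X
  wt : wt X = 1 ∨ wt X = 7
  card : Nat.gcd 7 (q + 1) * Nat.card X = tt q
  dvd : Nat.gcd 7 (q + 1) * Nat.card Γ ∣ NU q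
  cyc : IsCyclic T
  tle : T ≤ S.isom
  tcard : Nat.card T = q ^ 7 + 1
  free : ∀ x ∈ T, ∀ v, x v = v → x = 1 ∨ v = 0
  sc : ∀ x : V ≃ₗ[F] V, ∀ c : F, c * σ c = 1 → (∀ v, x v = c • v) → x ∈ T
  lift : ∀ x ∈ X, ∃ g : K, g.1 ∈ T ∧ π g = x ∧ g ^ Nat.card X = 1
  phi : ∃ φ ∈ S.isom, ∀ g ∈ T, φ * g * φ⁻¹ = g ^ q ^ 2
  irr : H8.U5.Irr2 K

end Cfsg.Agent.H5.U7
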