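import Cfsg.Agent.H6.SUGlue

set_option autoImplicit false

/-! Subspace stabilisers in `SU₃(q)`. -/

namespace Cfsg.Agent.H5.X
open Module Cfsg.Agent.Form Cfsg.Agent.H7 Cfsg.Agent.H6.SU
open scoped MatrixGroups

section
variable {F : Type*} [Field F] {σ : F →+* F} {hσ : ∀ a, σ (σ a) = a}
  {V : Type*} [AddCommGroup V] [Module F V] {S : PQ (FP.unit σ hσ) V} {M : Subgroup (V ≃ₗ[F] V)}
  [FiniteDimensional F V] [Finite F]

theorem ts_max3 (hne : ∃ a, σ a ≠ a) (h3 : ∃ a : F, σ a = a ∧ a ≠ 0 ∧ a ≠ 1) (hS : S.Nondeg) (h4 : finrank F V = 3)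
    {W : Submodule F V} (hW : S.TS W) (hM : M ≤ sisom S) (hH : ∀ g ∈ sisom S, (∀ w ∈ W, g w ∈ W) → g ∈ M) :
    (∀ g ∈ M, ∀ w ∈ W, g w ∈ W) ∨ sisom S ≤ M := by
  have hP : ∀ d ∈ W, Par S M d := fun d hd => ⟨hW.2 d hd d hd, fun w q hq =>
    ⟨hq, hH _ (eich_mem_sisom S _ _ _ hq) fun x hx => by
      rw [S.eich_apply_of_perp _ _ _ _ (hW.2 x hx d hd)]
      exact W.add_mem hx (W.smul_mem _ hd)⟩⟩
  by_cases h : ∃ d, Par S M d ∧ d ∉ W
  swap
  · push Not at h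
    exact Or.inl fun g hg w hw => h _ ((hP w hw).map hg (hM hg).1)
  right
  obtain ⟨d, hd, hdW⟩ := h
  refine Full.sisom_le_three hne h3 hS h4 ?_
  by_cases h1 : d ∈ S.perp W
  · obtain ⟨y, hy, hyy, hdy⟩ := hS.exists_hyperbolic_perp (sing hd.1) hdW h1
    obtain ⟨l, h0, hl⟩ := exists_tr_zero hne hσ
    have ht := tau_mem_sisom S hyy l (tauOK_of hyy.B_self hl)
    have htM := hH _ ht fun x hx => by
      rwa [S.tau_apply_of_perp _ _ _ (S.mem_perp'.1 hy x hx)]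
    refine full_of_par hne hS (by omega) hd (hd.map htM ht.1) ?_
    have hyd : S.B y d = 1 := by rw [← Bs, hdy, map_one]
    simpa [hd.1, hdy, hyd] using h0
  · rw [PQ.mem_perp'] at h1
    push Not at h1
    obtain ⟨w, hw, hwd⟩ := h1
    exact full_of_par hne hS (by omega) hd (hP w hw) hwd

theorem nondeg_max3 (hne : ∃ a, σ a ≠ a) (h3 : ∃ a : F, σ a = a ∧ a ≠ 0 ∧ a ≠ 1) (hS : S.Nondeg)
    (h4 : finrank F V = 3) {W : Submodule F V} (hW : S.NondegOn W) (hdim : 2 * finrank F W < 3) (hM : M ≤ sisom S)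
    (hH : ∀ g ∈ sisom S, (∀ w ∈ W, g w ∈ W) → g ∈ M) : (∀ g ∈ M, ∀ w ∈ W, g w ∈ W) ∨ sisom S ≤ M := by
  have hU := hW.perp hS
  have hd := hS.finrank_perp W
  have hC : ∀ d ∈ S.perp W, S.B d d = 0 → Ctr S M d := fun d hd h0 => ⟨sing h0, fun c hc =>
    hH _ (tau_mem_sisom S (sing h0) c hc) fun x hx => by rwa [S.tau_apply_of_perp _ _ _ (S.mem_perp'.1 hd x hx)]⟩
  by_cases h : ∀ g ∈ M, ∀ d ∈ S.perp W, S.B d d = 0 → g d ∈ S.perp W
  · refine .inl fun g hg w hw => ?_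
    have h1 := le_of_sing hne hU (by omega) (A := (S.perp W).comap (g⁻¹ : V ≃ₗ[F] V).toLinearMap)
      (h _ (inv_mem hg))
    rw [← hS.perp_perp W, S.mem_perp']
    intro x hx
    have h2 : S.B x (g w) = S.B (g⁻¹ x) w := by rw [← PQ.B_isom (hM hg).1 (g⁻¹ x)]; simp
    rw [h2]
    exact S.mem_perp.1 (h1 hx) w hw
  push Not at h
  obtain ⟨g, hg, d, h1, h2, h5⟩ := h
  obtain ⟨e, he, f, hf, a1, a2, a3⟩ := exists_hyp_on hne hU (by omega)
  refine .inr (Full.sisom_le_three hne h3 hS h4 (full_three hne (S.nondegOn_top.2 hS) (by simpa using h4)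
    trivial trivial trivial (hC e he a1) (hC f hf a2) ((hC d h1 h2).map hg (hM hg).1) (by simp [a3]) fun h6 => h5 ?_))
  exact (Submodule.span_le.2 (by rintro _ (rfl | rfl) <;> assumption)) h6

end

variable {F : Type*} [Field F] [Fintype F] {q : ℕ} (hF : Fintype.card F = q ^ 2)
include hF

theorem geo_ts3 (hq : 3 ≤ q) (W : Submodule F (Fin 3 → F)) (hW0 : W ≠ ⊥)
    (hW : Geo.IsTotallySingularFor (hermForm 3 F q) W) :
    Geo.IsMaximalIn (GU 3 F q ⊓ Geo.specialLinear (Fin 3) F)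
      (Geo.subspaceStabilizer W ⊓ (GU 3 F q ⊓ Geo.specialLinear (Fin 3) F)) := by
  have hW' : (std hF 3).TS W := ((std hF 3).unit_ts W).2 hW
  refine max_of hF _ (mem_stab_iff W) (SU_not_le_subspaceStabilizer hF (by omega) hW0 ?_)
    fun M h1 h2 => ts_max3 (std_ne hF) (exists_real hF hq) (std_nondeg hF 3) (by simp) hW' h1 h2
  intro h
  have := hW'.two_mul_finrank_le (std_nondeg hF 3)
  rw [h] at this
  simp at this

theorem geo_nondeg3 (hq : 3 ≤ q) (W : Submodule F (Fin 3 → F)) (hW0 : W ≠ ⊥)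
    (hW : Geo.IsNondegenerateOn (hermForm 3 F q) W) (hdim : 2 * finrank F W < 3) :
    Geo.IsMaximalIn (GU 3 F q ⊓ Geo.specialLinear (Fin 3) F)
      (Geo.subspaceStabilizer W ⊓ (GU 3 F q ⊓ Geo.specialLinear (Fin 3) F)) := by
  have hW' : (std hF 3).NondegOn W := ((std hF 3).nondegOn_iff_geo W).2 hW
  refine max_of hF _ (mem_stab_iff W) (SU_not_le_subspaceStabilizer hF (by omega) hW0 ?_)
    fun M h1 h2 => nondeg_max3 (std_ne hF) (exists_real hF hq) (std_nondeg hF 3) (by simp) hW' hdim h1 h2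
  intro h
  rw [h] at hdim
  simp at hdim

end Cfsg.Agent.H5.X
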