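import Cfsg.Agent.H5.X9
import Cfsg.Agent.H7.Contain

set_option autoImplicit false
set_option linter.unusedSectionVars false

/-! The geometric maximal subgroups of `SL₃(q)`. -/

namespace Cfsg.Agent.H5.X
open Cfsg Matrix Cfsg.Agent.Asch Cfsg.Agent.Form Cfsg.Agent.H5.MH Module
open scoped commutatorElement

theorem five_pow {p α : ℕ} (h : p = 5) (h1 : α ≠ 1) (h0 : 0 < α) : 25 ≤ p ^ α :=
  h ▸ Nat.pow_le_pow_right (n := 5) (i := 2) (by omega) (by omega)

theorem sq_le {p α β : ℕ} [Fact p.Prime] (h : 2 * β ≤ α) : p ^ β * p ^ β ≤ p ^ α := by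
  rw [← pow_add]; exact Nat.pow_le_pow_right (Fact.out : p.Prime).pos (by omega)

theorem cop_six {n : ℕ} (h : n % 6 = 1 ∨ n % 6 = 5) : n.Coprime 6 := by
  rw [Nat.Coprime, Nat.gcd_comm, Nat.gcd_rec]; rcases h with h | h <;> rw [h] <;> rfl

theorem exists_n (r : ℕ) : ∃ n, (n = (r + 1) ^ 2 + (r + 1) + 1 ∨ 3 * n = (r + 1) ^ 2 + (r + 1) + 1) ∧ n.Coprime 6 ∧
    n.Coprime r := by
  by_cases h : 3 ∣ r
  · obtain ⟨s, rfl⟩ := h
    obtain ⟨k, hk⟩ := Nat.even_mul_succ_self s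
    exact ⟨1 + 3 * s * (s + 1), .inr (by ring), cop_six (by rw [mul_assoc, hk]; omega), by simp⟩
  obtain ⟨k, hk⟩ := Nat.even_mul_succ_self r
  refine ⟨3 + r * (r + 3), .inl (by ring), cop_six ?_, by simpa using (Nat.prime_three.coprime_iff_not_dvd).2 h⟩
  have h1 : r * r % 3 = 1 := by
    have : r % 3 = 1 ∨ r % 3 = 2 := by omega
    rcases this with e | e <;> simp [Nat.mul_mod, e]
  simp only [mul_add] at hk ⊢
  omega

universe u
variable {F : Type u} [Field F] [Fintype F]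

theorem emb_one {E : Type*} [Field E] {φ : E →+* F} (x : G3 E) : emb φ 1 x = gm φ x := by simp [emb]

theorem gm_id (x : G3 F) : gm (RingHom.id F) x = x := Units.ext (Matrix.map_id _)

theorem sl_frame (h5 : 5 ≤ Fintype.card F) {D : Fin 3 → Submodule F (Fin 3 → F)} (hD : Geo.IsMDecomposition 1 D) :
    Mx (SL3 F) (Geo.decompositionStabilizer D) := by
  obtain ⟨p, hc, ⟨α, h0⟩, hp, hq⟩ := FiniteField.card' F
  have := Fact.mk hp
  replace hq : Fintype.card F = p ^ α := hq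
  obtain ⟨a, ha⟩ := exists_ord (E := F) dvd_rfl
  obtain ⟨b, hb⟩ := H7.exists_basis_of_isMDecomposition hD
  obtain ⟨Q, hQ⟩ : ∃ Q : G3 F, ∀ i, Q.val *ᵥ Pi.single i 1 = b i :=
    have := (Pi.basisFun F (Fin 3)).invertibleToMatrix b
    ⟨unitOfInvertible ((Pi.basisFun F (Fin 3)).toMatrix b), fun i => by ext j; simp [Basis.toMatrix_apply]⟩
  refine mx_frame hq le_rfl (a := a) (by omega) (mem_SL3.2 c3_det) (mem_SL3.2 t3_det) (mem_SL3.2 (dh_det a)) hD
    (Q := Q) (fun i => by rw [hQ, hb]) (sl_conj Q) (fun ⟨h1, h2, h3⟩ => ?_)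
    fun M _ β h1 h2 => (fin_SL hq h1).resolve_right fun ⟨h3, h4⟩ => ?_
  · have := five_pow h1 (α := α) (by rintro rfl; simp [h1] at h2) h0
    omega
  · have := sq_le (p := p) h4
    have := Nat.mul_le_mul_right (p ^ β) h3
    omega

theorem sl_singer (h4 : Fintype.card F ≠ 4) {K : Subalgebra F (M3 F)} (hK : Geo.IsFieldSubalgebra 3 K) :
    Mx (SL3 F) (Geo.subalgebraNormalizer K) := fun M h1 h2 => by
  obtain ⟨p, hc, ⟨α, h0⟩, hp, hq⟩ := FiniteField.card' F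
  have := Fact.mk hp
  replace hq : Fintype.card F = p ^ α := hq
  obtain ⟨r, hr⟩ : ∃ r, Fintype.card F = r + 1 := ⟨_, (Nat.sub_add_cancel Fintype.card_pos).symm⟩
  have r1 : 1 ≤ r := by have := Fintype.one_lt_card (α := F); omega
  obtain ⟨n, n1, n2, n3⟩ := exists_n r
  have n4 : (r + 1) ^ 2 + (r + 1) + 1 ≤ 3 * n := by omega
  have n5 : 7 ≤ n ∧ (n = 7 → r = 1) := by
    rcases r with _ | _ | _ | _ | r
    any_goals omega
    exact ⟨by nlinarith, fun e => by nlinarith⟩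
  obtain ⟨k, k1, rfl, k3, k4, k5⟩ := exists_sing hK (n := n) (by
    rw [hr, show (r + 1) ^ 3 - 1 = ((r + 1) ^ 2 + (r + 1) + 1) * r from Nat.sub_eq_of_eq_add (by ring)]
    exact Dvd.dvd.mul_right (n1.elim (· ▸ dvd_rfl) (· ▸ dvd_mul_left _ _)) _) (by simpa [hr] using n3) (by omega)
  rw [← hr, hq] at n4
  rcases score hq h2 hK k1 (h1 ⟨k4, k3⟩) n2 n5.1 k5 with h | ⟨β, h, h'⟩ | ⟨h, h'⟩ | ⟨h5, h6, h⟩
  · exact .inl h
  · refine .inr ((fin_SL hq h).resolve_right fun ⟨h3, h5⟩ => ?_)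
    have := sq_le (p := p) h5
    generalize p ^ β = x, p ^ α = y at *
    nlinarith [Nat.pow_le_pow_left this 2, Nat.mul_le_mul_right (x ^ 3) h3]
  · refine .inr (Subgroup.eq_of_le_of_card_ge h2 ?_).ge
    have h5 := H2.El.card_sl (ι := Fin 3) (F := F)
    rw [card_GL_field, hr, n5.2 h] at h5
    simp only [Fin.prod_univ_three] at h5
    exact (show Nat.card (SL3 F) = 168 by simpa using h5).trans_le (h' ▸ Nat.le_of_dvd Nat.card_pos (M.card_map_dvd pr))
  · have := five_pow h5 (α := α) (by rintro rfl; simp [h5] at h6) h0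
    nlinarith

variable {p α : ℕ} [Fact p.Prime] [CharP F p] (hq : Fintype.card F = p ^ α)
include hq

theorem sl_sub {E : Subfield F} {δ r : ℕ} (hE : Nat.card E = p ^ δ) (hr : r.Prime) (h : α = δ * r) :
    Mx (SL3 F) (Tw (gm (iterateFrobenius F p δ))) := fun M h1 h2 => by
  have := Fintype.ofFinite E
  have h3 : ∀ x, gm (iterateFrobenius F p δ) (emb E.subtype 1 x) = emb E.subtype 1 x := fun x => by
    rw [emb_one, gm_eq_iff p hE]; exact over_map _
  have h4 : ∀ x ∈ SL3 E, emb E.subtype 1 x ∈ M := fun x hx => h1 ⟨Tw_of (h3 x), mem_SL3.2 (det_emb (mem_SL3.1 hx))⟩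
  have h5 : ∀ β k, δ = β * k → (∀ x ∈ M, Good M x → T x ^ p ^ β = T x) → M ≤ Tw (gm (iterateFrobenius F p δ)) :=
    fun β k e h => (big hq h2 sl_perfect sl_full h4).2.2 _ (fun x _ => h3 x) fun x a b => by
      rw [T_gm, iterateFrobenius_def, e, pow_iter (h x a b)]
  rw [Nat.card_eq_fintype_card] at hE
  rcases subcore hq h2 hE h4 with ⟨β, h6, ⟨k, rfl⟩, h7⟩ | h6
  · rcases (Nat.dvd_prime hr).1 (Nat.dvd_of_mul_dvd_mul_left (pos_of_card hE) (h ▸ h6.2.1)) with rfl | rfl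
    exacts [.inl (h5 _ 1 (by simp) h7), .inr (h6.2.2.1 h.symm)]
  · exact .inl (h5 1 δ (by simp) (by simpa using h6))

theorem sl_hess (h5 : p ≠ 5) (hα : p ^ α < 9 ∨ α = 1) {w : Fˣ} (ww : w.val * w.val + w.val + 1 = 0) (h3 : (3 : F) ≠ 0)
    (g : G3 F) : Mx (SL3 F) (Geo.subgroupNormalizer (hR w g)) := fun M h1 h2 =>
  (hmain ww h3 hq h2 h5 fun y a b => h1 ⟨a, mem_SL3.2 b⟩).imp_right fun ⟨β, h⟩ =>
    (fin_SL hq h).resolve_right fun ⟨h6, h7⟩ => by
      have := sq_le (p := p) h7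
      have := Nat.mul_le_mul h6 h6
      rcases hα with e | rfl
      · omega
      · obtain rfl : β = 0 := by omega
        simp at h6

theorem ocore' {M : Subgroup (G3 F)} (hM : M ≤ SL3 F) {E : Type*} [Field E] [Fintype E] {φ : E →+* F} {δ : ℕ}
    (hE : Fintype.card E = p ^ δ) (h2 : p ≠ 2) (h5 : 5 ≤ p ^ δ)
    (hle : ∀ y : G3 E, y.val.det = 1 → y.valᵀ * y.val = 1 → gm φ y ∈ M) :
    (∃ β, (PL p α M β ∨ PU p α M β) ∧ δ ∣ β) ∨ (p = 5 ∧ p ^ α % 3 = 1 ∧ δ = 1) ∨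
    ∀ θ : G3 F →* G3 F, (∀ y : G3 E, y.valᵀ * y.val = 1 → θ (gm φ y) = gm φ y) →
      (∀ x ∈ M, T x⁻¹ = T x → T (θ x) = T x) → M ≤ Tw θ := by
  have : CharP E p := φ.charP φ.injective p
  have e2 : (2 : E) ≠ 0 := fun e => h2 ((cast_iff Nat.prime_two).1 e)
  obtain ⟨b, d, -, hb⟩ := exists_similar e2 (k := 3) (by decide) transpose_one B0_tr (by simp) (B0_det e2)
  have h1 : ∀ x ∈ om E, (b * x * b⁻¹).valᵀ * (b * x * b⁻¹).val = 1 := fun x hx => by
    have := (cj_form' (RingHom.id E) (a := b) (G := 1) (G' := d • MH.B0 E) (by simpa using hb) x.val).2 (by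
      simp [(om_spec hx).2])
    rw [← cj_coe]; simpa using this
  refine (ocore hq hM hE h2 h5 (φ := φ) (P := 1) (b := b) fun x hx => ?_).imp_right (Or.imp_right fun h θ h3 h4 =>
    h θ (fun x hx => ?_) h4) <;> rw [emb_one]
  exacts [hle _ (det_conj b (om_spec hx).1) (h1 x hx), h3 _ (h1 x hx)]

theorem sl_orth (h2 : p ≠ 2) : Mx (SL3 F) (Tw (dualG (RingHom.id F))) := fun M h1 hM => by
  have h3 : ∀ y : G3 F, y.valᵀ * y.val = 1 → dualG (RingHom.id F) y = y := fun y h => (dualG_iff _ _).2 (by simpa using h)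
  have h4 : ∀ y : G3 F, y.val.det = 1 → y.valᵀ * y.val = 1 → y ∈ M := fun y a b => h1 ⟨Tw_of (h3 y b), mem_SL3.2 a⟩
  have h0 := pos_of_card hq
  have hp : p.Prime := Fact.out
  by_cases h5 : 5 ≤ p ^ α
  · rcases ocore' hq hM (φ := RingHom.id F) hq h2 h5 (by simpa [gm_id] using h4) with ⟨β, h, h'⟩ | ⟨rfl, h, rfl⟩ | h
    · refine .inr ((fin_SL hq h).resolve_right fun ⟨h6, h7⟩ => ?_)
      have := Nat.le_of_dvd (Nat.pos_of_ne_zero (by rintro rfl; simp at h6)) h'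
      omega
    · simp at h
    · exact .inl (h _ (by simpa [gm_id] using h3) fun x _ e => by rw [T_dualG, e]; rfl)
  have h6 : p ^ α = 3 := by
    have := (hp.odd_of_ne_two h2).pow (n := α)
    have := Nat.one_lt_pow h0.ne' hp.one_lt
    grind
  have h7 : ∀ c : F, c ≠ 0 → c * c = 1 := fun c h => by
    simpa [hq, h6, sq] using FiniteField.pow_card_sub_one_eq_one c h
  have h8 : (-1 : Fˣ) ≠ 1 := fun e => h2 ((cast_iff (F := F) Nat.prime_two).1 (by
    have := congrArg Units.val e; push_cast at this ⊢; linear_combination -this))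
  have a1 : (c3 F).valᵀ * (c3 F).val = 1 := by
    ext i j; fin_cases i <;> fin_cases j <;> simp [c3_val, Matrix.mul_apply, Fin.sum_univ_three]
  have a2 : (t3 F).valᵀ * (t3 F).val = 1 := by
    ext i j; fin_cases i <;> fin_cases j <;> simp [t3_val, Matrix.mul_apply, Fin.sum_univ_three]
  have a3 : (dh (-1 : Fˣ)).valᵀ * (dh (-1 : Fˣ)).val = 1 := by
    ext i j; fin_cases i <;> fin_cases j <;> simp [dh_val, Matrix.mul_apply, Fin.sum_univ_three]
  have b1 := h4 _ c3_det a1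
  have b2 := h4 _ t3_det a2
  have b3 := h4 _ (dh_det _) a3
  rcases icore hq hM (a := -1) (by simpa [Odd.neg_one_pow (n := 3) (by decide)] using h8) b1 b2 b3 with
    h | ⟨β, h, -⟩ | ⟨-, h | h⟩ | ⟨-, h, -⟩
  · refine .inl fun g hg => Tw_of (h3 g (Matrix.ext fun i j => ?_))
    obtain ⟨k, c, e⟩ := h g hg i
    obtain ⟨l, d, e'⟩ := h g hg j
    have n : ∀ {v : Fin 3 → F}, g.val *ᵥ v = 0 → ∀ i, v i = 0 := fun {v} h i => by
      rw [← inv_mulVec_mulVec g v, h, mulVec_zero]; rfl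
    have c0 : c ≠ 0 := fun h => by
      have := n (v := Pi.single i 1) (by rw [e, h, zero_smul]) i
      simp at this
    rw [show (g.valᵀ * g.val) i j = g.val *ᵥ Pi.single i 1 ⬝ᵥ g.val *ᵥ Pi.single j 1 by
      simp [Matrix.mul_apply, dotProduct]]
    by_cases hij : i = j
    · subst hij; simp [e, h7 c c0]
    have : k ≠ l := fun h => c0 (by
      have := n (v := c • Pi.single j 1 - d • Pi.single i 1) (by
        simp only [mulVec_sub, mulVec_smul, e, e', h, smul_comm c d, sub_self]) j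
      simpa [hij] using this)
    simp [e, e', hij, this]
  · refine .inr ((fin_SL hq h).resolve_right fun ⟨h9, h10⟩ => ?_)
    have := sq_le (p := p) h10
    have := Nat.mul_le_mul h9 h9
    omega
  · refine .inl fun m hm => tw_le _ (L0 := (dualG (RingHom.id F)).eqLocus (MonoidHom.id _) ⊓ ⁅M, M⁆) (fun x hx => hx.1)
      (full_dh ⟨h3 _ a1, c3_comm (F := F) ▸ Subgroup.commutator_mem_commutator b2 b1⟩ ⟨h3 _ a3, dh_comm (-1 : Fˣ) ▸
        Subgroup.commutator_mem_commutator b2 (mul_mem (mul_mem b1 b3) (inv_mem b1))⟩ h8) inf_le_right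
      (fun x a b => by rw [T_dualG, h x a b]; rfl) hm
  · omega
  · omega

omit hq in
theorem sl_unit {q : ℕ} (hq : Fintype.card F = q ^ 2) : Mx (SL3 F) (Tw (dualG (UP hq).σ)) := by
  obtain ⟨p, γ, hp, hc, h0, rfl⟩ := exists_prime_pow_of_card_sq hq
  have := Fact.mk hp
  have hq' : Fintype.card F = p ^ (2 * γ) := hq.trans (pow_mul' p 2 γ).symm
  have h3 : ∀ y ∈ SU3 F (p ^ γ), dualG (UP hq).σ y = y := fun y h => (dualG_iff _ _).2 ((su_mem hq).1 h).2
  by_cases h2 : p ^ γ = 2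
  · obtain ⟨h4, w, ww⟩ := exists_w (F := F) (by rw [hq, h2]; rfl)
    refine (sl_hess hq' ?_ (.inl (by rw [← hq', hq, h2]; decide)) ww h4 1).mono (hess_tw ww h4
      (h3 _ ((su_gens hq).2.2 _ (by rw [h2, w_cube ww]))) (h3 _ (su_gens hq).1))
    rintro rfl
    have := Nat.pow_le_pow_right (n := 5) (by omega) h0
    omega
  replace h2 : 3 ≤ p ^ γ := by have := two_le_of_card_sq hq; omega
  intro M h1 hM
  have h4 : ∀ x ∈ SU3 F (p ^ γ), emb (RingHom.id F) 1 x ∈ M := fun x hx => by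
    rw [emb_one, gm_id]; exact h1 ⟨Tw_of (h3 x hx), hx.2⟩
  rcases ucore hq' hM hq h2 h4 with ⟨β, h, h'⟩ | ⟨β, -, h, h'⟩
  · refine .inr (h.2.2.1 (Nat.dvd_antisymm h.2.1 (dvd_of_fix hq' h')))
  · exact .inl ((big hq' hM (su_perfect hq h2) (su_full hq) h4).2.2 _ (fun x hx => by rw [emb_one, gm_id, h3 x hx])
      fun x a b => by rw [T_dualG, UP_σ, ← h, h' _ (inv_mem a) b.inv, inv_inv])

end Cfsg.Agent.H5.X
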