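import Cfsg.Agent.H5.X10
import Cfsg.Agent.H2.Frame

set_option autoImplicit false
set_option linter.unusedSectionVars false

/-! The geometric maximal subgroups of `SU₃(q)`. -/

namespace Cfsg.Agent.H5.X
open Cfsg Matrix Cfsg.Agent.Asch Cfsg.Agent.Form Cfsg.Agent.H5.MH Module
open scoped commutatorElement

theorem exists_n' (r : ℕ) : ∃ n, (n = r ^ 2 + r + 1 ∨ 3 * n = r ^ 2 + r + 1 ∧ r % 3 = 1) ∧ n.Coprime 6 ∧
    n.Coprime (r * (r + 2)) := by
  have h1 : (1 + r * (r + 1)).Coprime r := by simp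
  by_cases h : r % 3 = 1
  · obtain ⟨t, rfl⟩ : ∃ t, r = 3 * t + 1 := ⟨r / 3, by omega⟩
    obtain ⟨k, hk⟩ := Nat.even_mul_succ_self t
    refine ⟨1 + (3 * t + 1 + 2) * t, .inr ⟨by ring, h⟩, cop_six ?_, Nat.Coprime.mul_right
      (h1.coprime_dvd_left ⟨3, by ring⟩) (by simp)⟩
    rw [show (3 * t + 1 + 2) * t = 3 * (t * (t + 1)) by ring, hk]; omega
  obtain ⟨k, hk⟩ := Nat.even_mul_succ_self r
  refine ⟨1 + r * (r + 1), .inl (by ring), cop_six ?_, h1.mul_right ?_⟩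
  · have : r * (r + 1) % 3 = 0 := by
      have : r % 3 = 0 ∨ (r + 1) % 3 = 0 := by omega
      rcases this with e | e <;> simp [Nat.mul_mod, e]
    omega
  · rw [← Nat.coprime_add_self_left, show 1 + r * (r + 1) + (r + 2) = 3 + (r + 2) * r by ring]
    simpa using (Nat.prime_three.coprime_iff_not_dvd).2 (by omega)

universe u
variable {F : Type u} [Field F] [Fintype F]

theorem norm_tw {R : Subgroup (G3 F)} (hf : Full (Geo.matrixSet R)) {θ : G3 F →* G3 F} (h : ∀ x ∈ R, θ x = x) :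
    Geo.subgroupNormalizer R ≤ Tw θ := fun y hy => by
  obtain ⟨z, a, b⟩ := exists_twist θ h hf (M := Geo.subgroupNormalizer R) (fun g hg y hy => (hg y).1 hy) hy
  rw [mem_Tw, b, map_mul, a, one_mul]

theorem sg_adj {q : ℕ} (hq : Fintype.card F = q ^ 2) {K : Subalgebra F (M3 F)} (hK : Geo.IsFieldSubalgebra 3 K)
    (ha : Geo.IsAdjointClosedFor (hermForm 3 F q) K) {k : G3 F} (hk : k.val ∈ K) (h : k ^ (q ^ 3 + 1) = 1) :
    k ∈ GU 3 F q := by
  have hS := H2.Cases.US_nondeg hq 3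
  have ha' : AdjC (H2.Cases.US hq 3) (K : Set (M3 F)) := fun k hk => by
    obtain ⟨k', a, b⟩ := ha k hk
    rwa [adj_unique hS b]
  let := fieldOf K hK.comm hK.inv
  have := Fintype.ofFinite K
  have hc := Module.card_eq_pow_finrank (K := F) (V := K)
  rw [hK.finrank_eq, hq, ← pow_mul, mul_comm, pow_mul] at hc
  have h1 := involution_unique (s := adjEquiv hS hK.comm ha') (t := frobQ hc) (fun k => Subtype.ext (adj_adj hS k))
    (pow_q_pow_q hc) (by
      obtain ⟨c, h9⟩ := exists_pow_q_ne hq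
      refine ⟨⟨c • 1, K.smul_mem K.one_mem c⟩, fun e => h9 ?_⟩
      have : adj (H2.Cases.US hq 3) (c • 1) = c • 1 := congrArg Subtype.val e
      rw [adj_smul hS, adj_one hS] at this
      simpa [UP_σ] using congrFun (congrFun this 0) 0) (exists_pow_q_ne hc)
  refine mem_IsoB_of_adj hS ?_
  rw [pow_succ, mul_eq_one_iff_eq_inv] at h
  rw [← h]
  exact (congrArg (fun s : K ≃+* K => (s ⟨_, hk⟩).1) h1).trans (by simp)

variable {p γ : ℕ} [Fact p.Prime] [CharP F p] (hq : Fintype.card F = (p ^ γ) ^ 2)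
include hq

theorem hq2 : Fintype.card F = p ^ (2 * γ) := hq.trans (pow_mul' p 2 γ).symm

theorem su_frame (h3 : 3 ≤ p ^ γ) (h5 : p ^ γ ≠ 5) {D : Fin 3 → Submodule F (Fin 3 → F)}
    (hD : Geo.IsNondegenerateMDecomposition (hermForm 3 F (p ^ γ)) 1 D) :
    Mx (SU3 F (p ^ γ)) (Geo.decompositionStabilizer D) := by
  obtain ⟨a, ha⟩ := exists_ord_su hq
  obtain ⟨b, hb⟩ := H7.exists_basis_of_isMDecomposition hD.decomp
  have hm : ∀ i, b i ∈ D i := fun i => hb ▸ Submodule.mem_span_singleton_self _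
  have hS := sesq_ofG (UP hq).σ (1 : M3 F)
  rw [herm_eq hq] at hD
  have h0 : ∀ i, ofG (UP hq).σ 1 (b i) (b i) ≠ 0 := fun i e => by
    obtain ⟨⟨x, hx, h⟩, -⟩ := hD.nondegenerate i _ (hm i) (b.ne_zero i)
    obtain ⟨c, rfl⟩ := Submodule.mem_span_singleton.1 (hb ▸ hx :)
    exact h (by rw [hS.smul_left, e, mul_zero])
  choose l hl using fun i => exists_norm_eq hq (a := (ofG (UP hq).σ 1 (b i) (b i))⁻¹) (by
    rw [inv_pow, ← UP_σ (hq := hq), ofG_swap (pow_q_pow_q hq)]; simp)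
  have h1 : of (fun i => l i • b i) * 1 * (of fun i => l i • b i)ᵀ.map (UP hq).σ = 1 := Matrix.ext fun i j => by
    rw [of_mul_transpose, hS.smul_left, hS.smul_right]
    by_cases e : i = j
    · subst e; rw [← mul_assoc, UP_σ, hl, inv_mul_cancel₀ (h0 i), one_apply_eq]
    · rw [hD.orthogonal i j e _ (hm i) _ (hm j), one_apply_ne e, mul_zero, mul_zero]
  obtain ⟨Q, hQ⟩ : ∃ Q : G3 F, Q.val = (of fun i => l i • b i)ᵀ := ⟨GeneralLinearGroup.mkOfDetNeZero _ fun e => by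
    simpa [(det_transpose (of fun i => l i • b i)).symm.trans e] using congrArg det h1, rfl⟩
  refine mx_frame (hq2 hq) inf_le_right (a := a) (by omega) (su_gens hq).1 (su_gens hq).2.1
    ((su_gens hq).2.2 a (ha ▸ pow_orderOf_eq_one a)) hD.decomp (Q := Q) (fun i => ?_)
    (su_conj ((mem_GU3 hq).2 (by rwa [hQ]))) (fun ⟨h6, h2, h4⟩ => ?_)
    fun M hM β h1 h2 => (fin_SU hq hM h1).resolve_right fun ⟨h3, _, h4⟩ => ?_
  · rw [hb, show Q.val *ᵥ Pi.single i 1 = l i • b i by ext j; simp [hQ], Submodule.span_singleton_smul_eq]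
    exact IsUnit.mk0 _ fun e => inv_ne_zero (h0 i) (by rw [← hl, e, zero_mul])
  · have := five_pow h6 (α := γ) (by rintro rfl; simp [h6] at h5) (Nat.pos_of_ne_zero (by rintro rfl; simp at h3))
    omega
  · have := sq_le (p := p) h4
    have := Nat.mul_le_mul_right (p ^ β) h3
    omega

theorem su_singer (h2 : 3 ≤ p ^ γ) (h3 : p ^ γ ≠ 3) (h5 : p ^ γ ≠ 5) {K : Subalgebra F (M3 F)}
    (hK : Geo.IsFieldSubalgebra 3 K) (ha : Geo.IsAdjointClosedFor (hermForm 3 F (p ^ γ)) K) :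
    Mx (SU3 F (p ^ γ)) (Geo.subalgebraNormalizer K) := fun M h1 hM => by
  obtain ⟨r, hr⟩ : ∃ r, p ^ γ = r + 1 := ⟨_, (Nat.sub_add_cancel (by omega)).symm⟩
  obtain ⟨n, n1, n2, n3⟩ := exists_n' r
  have n4 : r ^ 2 + r + 1 ≤ 3 * n := by omega
  have n5 : 7 < n := by
    rcases r with _ | _ | _ | _ | _ | r
    any_goals omega
    nlinarith
  have n6 : n ∣ (r + 1) ^ 3 + 1 := by
    rw [show (r + 1) ^ 3 + 1 = (r ^ 2 + r + 1) * (r + 2) by ring]
    exact Dvd.dvd.mul_right (n1.elim (· ▸ dvd_rfl) (·.1 ▸ dvd_mul_left _ _)) _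
  obtain ⟨k, k1, rfl, k3, k4, k5⟩ := exists_sing hK (n := n) (by
    rw [hq, hr, ← pow_mul, mul_comm, pow_mul]
    exact n6.trans ((Nat.sq_sub_sq _ 1).symm ▸ dvd_mul_right _ _)) (by
      rwa [hq, hr, show (r + 1) ^ 2 - 1 = r * (r + 2) from Nat.sub_eq_of_eq_add (by ring)]) (by omega)
  rcases score (hq2 hq) (hM.trans inf_le_right) hK k1 (h1 ⟨k4, sg_adj hq hK ha k1 (by
    rw [hr]; exact orderOf_dvd_iff_pow_eq_one.1 n6), k3⟩) n2 n5.le k5 with h | ⟨β, h, h'⟩ | ⟨h, -⟩ | ⟨h6, -, h⟩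
  · exact .inl h
  · refine .inr ((fin_SU hq hM h).resolve_right fun ⟨h6, _, h7⟩ => ?_)
    have h8 := sq_le (p := p) h7
    rw [hr] at h8
    rcases h6.eq_or_lt with e | e
    · have h9 : 3 ∣ r + 1 := by
        rw [← hr, e]; exact pow_dvd_pow p (by omega)
      rw [← e] at h8 h'
      rcases n1 with e | e
      · nlinarith
      · omega
    generalize p ^ β = x at *
    obtain ⟨s, hs⟩ : ∃ s, x * x = s + 1 := ⟨x * x - 1, by have := Nat.mul_pos (e.trans' (by omega)) (e.trans' (by omega)); omega⟩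
    have : s ^ 2 + s ≤ r ^ 2 + r := by nlinarith
    have : x ^ 3 = x * s + x := by rw [pow_succ, sq, hs]; ring
    have : 4 * x ≤ s + 1 := hs ▸ Nat.mul_le_mul_right x e
    nlinarith
  · omega
  · have := five_pow h6 (α := γ) (by rintro rfl; simp [h6] at h5) (Nat.pos_of_ne_zero (by rintro rfl; simp at h2))
    nlinarith

theorem σ_eq : (UP hq).σ = iterateFrobenius F p γ := RingHom.ext fun _ => rfl

theorem su_iff {x : G3 F} : x ∈ SU3 F (p ^ γ) ↔ x.val.det = 1 ∧ dualG (iterateFrobenius F p γ) x = x :=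
  (su_mem hq).trans (and_congr_right fun _ => (dualG_iff (iterateFrobenius F p γ) x).symm)

theorem su_hess (h5 : p ≠ 5) (h2 : p ^ γ % 3 = 2) (hγ : ∀ β, 3 ≤ p ^ β → β ∣ γ → 2 * β ≤ γ → False) {w : Fˣ}
    (ww : w.val * w.val + w.val + 1 = 0) (h3 : (3 : F) ≠ 0) {g : G3 F} (hle : hR w g ≤ SU3 F (p ^ γ)) :
    Mx (SU3 F (p ^ γ)) (Geo.subgroupNormalizer (hR w g)) := fun M h1 hM => by
  refine (hmain ww h3 (hq2 hq) (hM.trans inf_le_right) h5 fun y a b => h1 ⟨a, (su_iff hq).2 ⟨b, ?_⟩⟩).imp_right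
    fun ⟨β, h⟩ => (fin_SU hq hM h).resolve_right fun ⟨h6, h7, h8⟩ => hγ β h6 h7 h8
  obtain ⟨z, h4, h6⟩ := exists_twist (dualG (iterateFrobenius F p γ)) (fun x hx => ((su_iff hq).1 (hle hx)).2)
    (hR_full ww h3) (M := Geo.subgroupNormalizer (hR w g)) (fun g hg y hy => (hg y).1 hy) a
  have h7 := dualG_sq p γ y
  have h8 : z ^ 3 = 1 := sc_cube (by simpa [h6, b] using det_dualG (iterateFrobenius F p γ) y b) h4
  rw [gm_card p (hq2 hq), h6, map_mul, h6, dualG_sc p γ h4, inv_pow, pow_three h4 h8 (.inl h2), ← mul_assoc,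
    mul_eq_right, inv_mul_eq_one, sq, mul_eq_left] at h7
  rw [h6, h7, one_mul]

theorem su_sub {E : Subfield F} {δ r : ℕ} (hE : Nat.card E = p ^ (2 * δ)) (hr : r.Prime) (ho : Odd r) (h : γ = δ * r) :
    Mx (SU3 F (p ^ γ)) (Tw (gm (iterateFrobenius F p (2 * δ)))) := by
  have := Fintype.ofFinite E
  have hp : p.Prime := Fact.out
  have h3 : ∀ x, gm (iterateFrobenius F p (2 * δ)) (emb E.subtype 1 x) = emb E.subtype 1 x := fun x => by
    rw [emb_one, gm_eq_iff p hE]; exact over_map _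
  rw [Nat.card_eq_fintype_card] at hE
  have hE' := hE.trans (pow_mul' p 2 δ)
  have h4 : ∀ x ∈ SU3 E (p ^ δ), emb E.subtype 1 x ∈ SU3 F (p ^ γ) := fun x hx => by
    obtain ⟨k, rfl⟩ := ho
    refine (su_mem hq).2 ⟨det_emb ((su_mem hE').1 hx).1, ?_⟩
    rw [emb_one, gm_val, ← transpose_map, show (x.val.map E.subtype).map (· ^ p ^ γ) =
      (x.val.map (· ^ p ^ δ)).map E.subtype from Matrix.ext fun i j => ?_, ← Matrix.map_mul, ((su_mem hE').1 hx).2]
    · simp
    · rw [map_apply, map_apply, map_apply, map_apply, ← map_pow, h, show δ * (2 * k + 1) = 2 * δ * k + δ by ring,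
        pow_add, pow_mul, pow_mul, ← hE, FiniteField.pow_card_pow]
  by_cases h2 : p ^ δ = 2
  · obtain ⟨rfl, rfl⟩ := (Nat.Prime.pow_eq_iff Nat.prime_two).1 h2
    obtain ⟨h5, w, ww⟩ := exists_w (F := E) (by rw [hE]; rfl)
    have h6 : ∀ a : Eˣ, emb E.subtype 1 (dh a) = dh (Units.map E.subtype.toMonoidHom a) := fun a => by
      ext i j; fin_cases i <;> fin_cases j <;> simp [emb_one, dh_val]
    have h7 : emb E.subtype 1 (c3 E) = c3 F := by
      ext i j; fin_cases i <;> fin_cases j <;> simp [emb_one, c3_val]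
    have h8 : (3 : F) ≠ 0 := fun e => absurd ((cast_iff (p := 2) Nat.prime_three).1 e) (by decide)
    have w2 : (Units.map E.subtype.toMonoidHom w).val * (Units.map E.subtype.toMonoidHom w).val +
      (Units.map E.subtype.toMonoidHom w).val + 1 = 0 := congrArg E.subtype ww
    refine (su_hess hq (by decide) ?_ (fun β a b c => ?_) w2 h8 (g := 1) (hR_le ?_ ?_)).mono
      (hess_tw w2 h8 (h6 w ▸ h3 _) (h7 ▸ h3 _))
    · obtain ⟨k, rfl⟩ := ho
      rw [h, one_mul, pow_succ, pow_mul, Nat.mul_mod, Nat.pow_mod]; simp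
    · rw [h, one_mul] at b c
      rcases (Nat.dvd_prime hr).1 b with rfl | rfl
      · omega
      · have := hr.pos; omega
    · simpa [h6] using h4 _ ((su_gens hE').2.2 w (w_cube ww))
    · simpa [h7] using h4 _ (su_gens hE').1
  replace h2 : 3 ≤ p ^ δ := by have := two_le_of_card_sq hE'; omega
  intro M h1 hM
  have hM' := hM.trans inf_le_right
  have h5 : ∀ x ∈ SU3 E (p ^ δ), emb E.subtype 1 x ∈ M := fun x hx => h1 ⟨Tw_of (h3 x), h4 x hx⟩
  have h0 := pos_of_card hE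
  rcases ucore (hq2 hq) hM' hE' h2 h5 with ⟨β, h6, h7⟩ | ⟨β, h6, h7, h8⟩
  · refine .inr ((fin_SU hq hM (.inl h6)).resolve_right fun ⟨_, h8, _⟩ => ?_)
    have := (dvd_of_fix hE h7).trans (h ▸ h8)
    rw [mul_comm, Nat.mul_dvd_mul_iff_left (by omega)] at this
    exact ho.not_two_dvd_nat this
  have h9 : ∀ k, δ = β * k → M ≤ Tw (gm (iterateFrobenius F p (2 * δ))) := fun k e =>
    (big (hq2 hq) hM' (su_perfect hE' h2) (su_full hE') h5).2.2 _ (fun x _ => h3 x) fun x a b => by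
      rw [T_gm, iterateFrobenius_def, e, ← mul_assoc]
      exact pow_iter (by rw [two_mul, pow_add, pow_mul, h8 x a b, h8 _ (inv_mem a) b.inv, inv_inv]) k
  rcases h6 with h6 | rfl
  · refine (fin_SU hq hM (.inr h6)).symm.imp_left fun ⟨_, a, b⟩ => ?_
    obtain ⟨k, rfl⟩ := Nat.dvd_of_mul_dvd_mul_left two_pos (dvd_of_fix (β := 2 * β) hE fun e => by
      rw [two_mul, pow_add, pow_mul, h7, h7, pow_q_pow_q hE'])
    rw [h, Nat.mul_dvd_mul_iff_left (by omega)] at a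
    rcases (Nat.dvd_prime hr).1 a with rfl | rfl
    · exact h9 1 (by simp)
    · have := Nat.mul_pos (show 0 < δ by omega) hr.pos; omega
  · exact .inl (h9 δ (by simp))

theorem su_orth (h2 : p ≠ 2) (h7 : 7 ≤ p ^ γ) {E : Subfield F} (hE : Nat.card E = p ^ γ) :
    Mx (SU3 F (p ^ γ)) (Tw (gm (iterateFrobenius F p γ))) := fun M h1 hM => by
  have := Fintype.ofFinite E
  have h3 : ∀ x, gm (iterateFrobenius F p γ) (gm E.subtype x) = gm E.subtype x := fun x =>
    (gm_eq_iff p hE).2 (over_map _)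
  rw [Nat.card_eq_fintype_card] at hE
  rcases ocore' (hq2 hq) (hM.trans inf_le_right) (φ := E.subtype) hE h2 (by omega) fun y a b => h1 ⟨Tw_of (h3 y),
    (su_mem hq).2 ⟨by rw [det_gm, a, map_one], by
      rw [show (gm E.subtype y).val.map (· ^ p ^ γ) = _ from congrArg Units.val (h3 y), gm_val, ← transpose_map,
        ← Matrix.map_mul, b]; simp⟩⟩ with ⟨β, h, h'⟩ | ⟨rfl, -, rfl⟩ | h
  · refine .inr ((fin_SU hq hM h).resolve_right fun ⟨h6, _, h8⟩ => ?_)
    have h0 : 0 < β := Nat.pos_of_ne_zero (by rintro rfl; simp at h6)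
    have := Nat.le_of_dvd h0 h'
    omega
  · simp at h7
  · exact .inl (h _ (fun y _ => h3 y) fun x a e => by rw [T_gm, iterateFrobenius_def, ← T_su hq (hM a), e])

theorem exists_gram {E : Subfield F} {P : G3 F} (h : Geo.IsFormRationalStructure (hermForm 3 F (p ^ γ)) E 1 P) :
    ∃ G : M3 E, G.det ≠ 0 ∧ P.valᵀ * 1 * P.val.map (UP hq).σ = G.map E.subtype ∧
      ∀ i j, (G i j : F) ^ p ^ γ = G j i := by
  have h1 : ∀ (i j : Fin 3), (Pi.single i 1 : Fin 3 → F) j ∈ E := fun i j => by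
    rw [Pi.single_apply]; split_ifs; exacts [one_mem _, zero_mem _]
  obtain ⟨G, hG⟩ := Over.exists_map (F₀ := E) (X := P.valᵀ * 1 * P.val.map (UP hq).σ) fun i j => by
    simpa [herm_eq hq, ofG_mulVec, ofG_single, -mulVec_single] using h _ _ (h1 i) (h1 j)
  refine ⟨G, fun e => ?_, hG, fun i j => ?_⟩
  · have := congrArg det hG
    rw [show (G.map E.subtype).det = _ from (E.subtype.map_det G).symm, e, det_mul, det_mul,
      show (P.val.map (UP hq).σ).det = _ from ((UP hq).σ.map_det _).symm] at this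
    exact P.det_ne_zero (by simpa using this)
  · change (UP hq).σ ((G.map E.subtype) i j) = (G.map E.subtype) j i
    rw [← hG]; simp [Matrix.mul_apply, mul_comm, (UP hq).σσ]

theorem mx_sub {E : Subfield F} {δ : ℕ} (hE : Nat.card E = p ^ δ) {P y : G3 F}
    (hy : y ∈ Tw (gm (iterateFrobenius F p δ))) (h1 : P * y ∈ GU 3 F (p ^ γ))
    (h : Mx (SU3 F (p ^ γ)) (Tw (gm (iterateFrobenius F p δ)))) : Mx (SU3 F (p ^ γ)) (Geo.subfieldSubgroup E P) :=
  Mx.tr (P * y) (su_conj h1) (h.mono fun x hx => by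
    simpa [mul_assoc] using sub_of_Tw hE P (mul_mem (mul_mem hy hx) (inv_mem hy)))

end Cfsg.Agent.H5.X
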