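import Cfsg.Agent.H5.MH16
import Cfsg.Agent.MH.Main

set_option autoImplicit false

/-! Trace form of the classification of subgroups of `SL₃(q)` with a perfect absolutely irreducible normal subgroup. -/

namespace Cfsg.Agent.H5.X
open Cfsg Matrix Cfsg.Agent.Asch Cfsg.Agent.Form Cfsg.Agent.H5.MH
open scoped commutatorElement

section
variable {Γ : Type*} [Group Γ] {G X : Subgroup Γ}

/-- overgroups of `X ⊓ G` in `G` -/
def Mx (G X : Subgroup Γ) : Prop := ∀ M, X ⊓ G ≤ M → M ≤ G → M ≤ X ∨ G ≤ M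

theorem Mx.max (h : Mx G X) (hne : ¬ G ≤ X) : Geo.IsMaximalIn G (X ⊓ G) :=
  ⟨lt_of_le_of_ne inf_le_right fun e => hne (e ▸ inf_le_left), fun M h1 h2 => (h M h1 h2).imp
    (fun h3 => le_antisymm (le_inf h3 h2) h1) (le_antisymm h2)⟩

theorem Mx.tr (Q : Γ) (hG : ∀ g, Q * g * Q⁻¹ ∈ G ↔ g ∈ G) (h : Mx G (X.comap (MulAut.conj Q).toMonoidHom)) :
    Mx G X := fun M h1 h2 =>
  (h (M.comap (MulAut.conj Q).toMonoidHom) (fun g hg => h1 ⟨hg.1, (hG g).2 hg.2⟩) fun g hg => (hG g).1 (h2 hg)).imp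
    (fun h3 g hg => by simpa [mul_assoc] using @h3 (Q⁻¹ * g * Q) (by simpa [mul_assoc] using hg))
    fun h3 g hg => by simpa [mul_assoc] using @h3 (Q⁻¹ * g * Q) ((hG _).1 (by simpa [mul_assoc] using hg))

/-- elements whose traces are controlled -/
def Good (M : Subgroup Γ) (x : Γ) : Prop := x ∈ ⁅M, M⁆ ∨ ∃ n : ℕ, n.Coprime 3 ∧ x ^ n = 1

theorem Good.inv {M : Subgroup Γ} {x : Γ} (h : Good M x) : Good M x⁻¹ :=
  h.imp inv_mem fun ⟨n, a, b⟩ => ⟨n, a, by rw [inv_pow, b, inv_one]⟩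

theorem comm_le (M : Subgroup Γ) : ⁅M, M⁆ ≤ M := Subgroup.commutator_le.2 fun _ a _ b =>
  mul_mem (mul_mem (mul_mem a b) (inv_mem a)) (inv_mem b)

theorem le_of_conj [Finite Γ] (h : X ≤ G) (Q : Γ) (h' : ∀ g ∈ G, Q * g * Q⁻¹ ∈ X) : G ≤ X :=
  (Subgroup.eq_of_le_of_card_ge h (Nat.card_le_card_of_injective (fun g : G => (⟨_, h' _ g.2⟩ : X)) fun _ _ e =>
    Subtype.ext (mul_left_cancel (mul_right_cancel (congrArg Subtype.val e))))).ge

end

universe u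
variable {F : Type u} [Field F] {L L0 M : Subgroup (G3 F)}

theorem exists_fix (φ : G3 F →* G3 F) (hF : Full (Geo.matrixSet L)) (h : ∀ x ∈ L, T (φ x) = T x) :
    ∃ Q : G3 F, ∀ x ∈ L, ((MulAut.conj Q).toMonoidHom.comp φ) x = x := by
  obtain ⟨Q, hQ⟩ := conj_of_trace L.subtype (φ.comp L.subtype) (by rwa [Subgroup.range_subtype])
    fun g => (h _ g.2).symm
  exact ⟨Q, fun x hx => Units.ext ((cj_coe _ _).symm.trans (hQ ⟨x, hx⟩).symm)⟩

theorem tw_le (θ : G3 F →* G3 F) (h0 : ∀ x ∈ L0, θ x = x) (hF : Full (Geo.matrixSet L0)) (hle : L0 ≤ ⁅M, M⁆)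
    (h : ∀ x ∈ M, Good M x → T (θ x) = T x) {m : G3 F} (hm : m ∈ M) : pr (θ m) = pr m := by
  have hF' : Full (Geo.matrixSet ⁅M, M⁆) := hF.mono (Set.image_mono hle)
  obtain ⟨Q, hQ⟩ := exists_fix θ hF' fun x hx => h x (comm_le M hx) (.inl hx)
  have h1 : pr Q = 1 := pr_eq_one'.2 (hF.isSc (by
    rintro _ ⟨x, hx, rfl⟩
    have h2 : Q * θ x * Q⁻¹ = x := hQ x (hle hx)
    rw [h0 x hx, mul_inv_eq_iff_eq_mul] at h2
    exact congrArg Units.val h2))
  obtain ⟨z, h2, h3⟩ := exists_twist θ (fun x hx => by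
    have h2 : Q * θ x * Q⁻¹ = x := hQ x hx
    rwa [← sc_central h1, mul_inv_cancel_right] at h2) hF' ((normsG_self M).commutator (normsG_self M)) hm
  rw [h3, map_mul, h2, one_mul]

theorem good_tr (φ : G3 F →* G3 F) (hφ : ∀ g : G3 F, g.val.det = 1 → (φ g).val.det = 1) (hF : Full (Geo.matrixSet L))
    (hn : NormsG M L) (hM : M ≤ SL3 F) (h : ∀ x ∈ L, T (φ x) = T x) (x : G3 F) (hx : x ∈ M) (hg : Good M x) :
    T (φ x) = T x := by
  obtain ⟨Q, hQ⟩ := exists_fix φ hF h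
  set θ := (MulAut.conj Q).toMonoidHom.comp φ
  have h1 : ∀ m ∈ M, pr (θ m) = pr m := fun m hm => by
    obtain ⟨z, h2, h3⟩ := exists_twist θ hQ hF hn hm
    rw [h3, map_mul, h2, one_mul]
  have h2 : θ x = x := by
    rcases hg with hg | ⟨n, h3, h4⟩
    · exact (Subgroup.commutator_le (H₃ := θ.eqLocus (MonoidHom.id _))).2 (fun a ha b hb => by
        change θ _ = _
        rw [map_commutatorElement]; exact comm_congr (h1 a ha) (h1 b hb)) hg
    · have h5 := mem_SL3.1 (hM hx)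
      exact eq_of_pr_eq (det_conj Q (hφ x h5)) h5 h3 (by rw [← map_pow, h4, map_one]) h4 (h1 x hx)
  rw [← T_conj Q (φ x)]; exact congrArg T h2

theorem T_dualG (σ : F →+* F) (g : G3 F) : T (dualG σ g) = σ (T g⁻¹) :=
  (AddMonoidHom.map_trace σ (g⁻¹).valᵀ).symm.trans (by rw [trace_transpose]; rfl)

theorem dualG_iff (σ : F →+* F) (x : G3 F) : dualG σ x = x ↔ x.valᵀ * x.val.map σ = 1 := by
  rw [← _root_.inv_inj, ← map_inv, Units.ext_iff, eq_comm, ← Units.mul_eq_one_iff_inv_eq, ← transpose_inj,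
    transpose_mul, transpose_one, mul_eq_one_comm]
  rfl

variable [Fintype F] (p α : ℕ) [Fact p.Prime] [CharP F p]

theorem mem_SU3 {q : ℕ} (hq : Fintype.card F = q ^ 2) {g : G3 F} :
    g ∈ SU3 F q ↔ g.val.det = 1 ∧ g.valᵀ * g.val.map (· ^ q) = 1 := by
  rw [Subgroup.mem_inf, mem_GU3 hq, mem_SL3, Matrix.mul_one, and_comm]; rfl

/-- the linear alternative -/
def PL (M : Subgroup (G3 F)) (β : ℕ) : Prop :=
  3 ≤ p ^ β ∧ β ∣ α ∧ (β = α → SL3 F ≤ M) ∧ ∃ x ∈ M, T x = 0 ∧ T x⁻¹ = 1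

/-- the unitary alternative -/
def PU (M : Subgroup (G3 F)) (β : ℕ) : Prop :=
  3 ≤ p ^ β ∧ 2 * β ∣ α ∧ (2 * β = α → M ≤ SU3 F (p ^ β) → SU3 F (p ^ β) ≤ M)

/-- the list of alternatives -/
def PC (M : Subgroup (G3 F)) : Prop :=
  (∃ β, PL p α M β ∧ ∀ x ∈ M, Good M x → T x ^ p ^ β = T x) ∨
  (∃ β, PU p α M β ∧ ∀ x ∈ M, Good M x → T x ^ p ^ β = T x⁻¹) ∨
  (p ≠ 2 ∧ ∀ x ∈ M, Good M x → T x⁻¹ = T x) ∨
  ((p ^ α % 7 = 1 ∨ p ^ α % 7 = 2 ∨ p ^ α % 7 = 4) ∧ Nat.card (bar M) = 168 ∧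
    (∀ x ∈ M, pr x ^ 3 = 1 ∨ pr x ^ 4 = 1 ∨ pr x ^ 7 = 1) ∧
    ((∀ x ∈ M, Good M x → T x ^ p = T x) ∨ ∀ x ∈ M, Good M x → T x ^ p = T x⁻¹)) ∨
  (p ≠ 5 ∧ p ^ α % 3 = 1 ∧ Nat.card (bar M) = 360 ∧ (∀ x ∈ M, pr x ^ 3 = 1 ∨ pr x ^ 4 = 1 ∨ pr x ^ 5 = 1) ∧
    (∀ x ∈ M, T x⁻¹ ^ 3 = T x ^ 3) ∧
    ∀ x ∈ M, ∀ y ∈ M, pr x ^ 4 = 1 → pr x ^ 2 ≠ 1 → pr y ^ 2 = pr x ^ 2 → pr y = pr x ∨ pr y = pr x ^ 3) ∨
  (p = 5 ∧ p ^ α % 3 = 1 ∧ (∀ x ∈ M, ∃ k, 0 < k ∧ k ≤ 14 ∧ pr x ^ k = 1) ∧ ∀ x ∈ M, Good M x → T x ^ p = T x⁻¹)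

variable {p α}

theorem pc_of (hq : Fintype.card F = p ^ α) (hM : M ≤ SL3 F) (hle : L ≤ M) (hP : ⁅L, L⁆ = L)
    (hF : Full (Geo.matrixSet L)) (hn : NormsG M L) : PC p α M := by
  have : Finite (PG3 F) := Finite.of_surjective _ pr_surj
  have hle' : bar L ≤ bar M := Subgroup.map_mono hle
  have hn' : ∀ n ∈ bar M, Nm L n := by rintro _ ⟨m, hm, rfl⟩; exact nm_of (hn m hm)
  have hd : ∀ x ∈ L, x.val.det = 1 := fun x hx => mem_SL3.1 (hM (hle hx))
  have fl : ∀ β, (∀ x ∈ L, T x ^ p ^ β = T x) → ∀ x ∈ M, Good M x → T x ^ p ^ β = T x := fun β h x hx hg => by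
    have := good_tr (gm (iterateFrobenius F p β)) (fun g hg => by rw [det_gm, hg, map_one]) hF hn hM
      (fun x hx => by rw [T_gm]; exact h x hx) x hx hg
    rwa [T_gm] at this
  have su : ∀ β, (∀ x ∈ L, T x ^ p ^ β = T x⁻¹) → ∀ x ∈ M, Good M x → T x ^ p ^ β = T x⁻¹ := fun β h x hx hg => by
    have := good_tr (dualG (iterateFrobenius F p β)) (det_dualG _) hF hn hM
      (fun x hx => by rw [T_dualG]; exact (h _ (inv_mem hx)).trans (by rw [inv_inv])) _ (inv_mem hx) hg.inv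
    rwa [T_dualG, inv_inv] at this
  have real : (∀ x ∈ L, T x⁻¹ = T x) → PC p α M := fun h => .inr (.inr (.inl ⟨fun e => (symm_of_trace hF h).1
    ((cast_iff (p := p) Nat.prime_two).2 e), fun x hx hg => by
      simpa using (su 0 (fun x hx => by simpa using (h x hx).symm) x hx hg).symm⟩))
  have hT : ∀ x : F, x ^ p ^ α = x := fun x => by rw [← hq, FiniteField.pow_card]
  have top : ∀ E : Subfield F, Nat.card E = p ^ α → E = ⊤ := fun E h => SetLike.coe_injective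
    (Set.eq_of_subset_of_ncard_le (Set.subset_univ _) (by
      rw [Subfield.coe_top, Set.ncard_univ, Nat.card_eq_fintype_card, hq, ← h]; rfl))
  have rp : ∀ {G : Type} [Group G] {A : Subgroup G} (π : bar L ≃* A), bar M ≤ bar L → ∀ x ∈ M,
      ∃ a y, Rp π a y ∧ pr y = pr x := fun π h x hx => by
    obtain ⟨y, hy, e⟩ := h (mem_bar hx)
    obtain ⟨a, ha⟩ := Rp.ex' π hy
    exact ⟨a, y, ha, e⟩
  have he : bar M ≤ bar L → bar M = bar L := fun h => le_antisymm h hle'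
  rcases mainF Cfsg.Agent.MH.main hP hF with ⟨E, Q, h3, h⟩ | ⟨E, q, Q, h3, hE, h⟩ | ⟨-, B, -, h3, h⟩ | h | ⟨⟨e⟩⟩ |
    ⟨h5, ⟨e⟩⟩
  · obtain ⟨β, r, h4, rfl⟩ := sub_card p hq E
    refine .inl ⟨β, ⟨h4 ▸ h3, dvd_mul_right _ _, fun e g hg => hle ((h g).2 ⟨mem_SL3.1 hg, ?_⟩),
      Q * comp 0 1 * Q⁻¹, hle ((h _).2 ⟨det_conj _ (comp_det _ _), ?_⟩), by rw [T_conj, T_comp], ?_⟩,
      fl β fun x hx => ?_⟩
    · rw [top E (e ▸ h4)]; exact fun _ _ => trivial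
    · rw [← cj_coe, MH.cj_inv_cj]; exact comp_over (zero_mem _) (one_mem _)
    · rw [show (Q * comp 0 1 * Q⁻¹)⁻¹ = Q * (comp 0 1)⁻¹ * Q⁻¹ by group, T_conj, T_comp_inv]
    · have := ((h x).1 hx).2.trace
      rwa [trace_cj, mem_subfield_iff, h4] at this
  · obtain ⟨γ, r, h4, rfl⟩ := sub_card p hq E
    obtain ⟨β, -, rfl⟩ := (Nat.dvd_prime_pow (Fact.out : p.Prime)).1 (h4 ▸ hE ▸ dvd_pow_self q two_ne_zero)
    obtain rfl : γ = 2 * β := Nat.pow_right_injective (Fact.out : p.Prime).two_le (by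
      simp only [← h4, hE, ← pow_mul, mul_comm])
    refine .inr (.inl ⟨β, ⟨h3, dvd_mul_right _ _, fun e h5 => ?_⟩, su β fun x hx => ?_⟩)
    · have hq' : Fintype.card F = (p ^ β) ^ 2 := hq.trans (e ▸ pow_mul' p 2 β)
      refine (le_of_conj (hle.trans h5) Q fun g hg => ?_).trans hle
      rw [h, ← cj_coe Q g, MH.cj_inv_cj, det_cj, top E (e ▸ h4)]
      rw [mem_SU3 hq'] at hg
      exact ⟨hg.1, fun _ _ => trivial, hg.2⟩
    · have := ((h _).1 (inv_mem hx)).2.2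
      rw [cj_coe] at this
      have := congrArg T ((dualG_iff (iterateFrobenius F p β) _).2 this)
      rwa [T_dualG, T_conj, show (Q⁻¹ * x⁻¹ * Q⁻¹⁻¹)⁻¹ = Q⁻¹ * x * Q⁻¹⁻¹ by group, T_conj] at this
  · exact real fun x hx => T_inv_of_symm h3 (h x hx)
  · obtain ⟨π⟩ := exists_pi8 hP h
    by_cases h7 : p = 7
    · exact real (real8 p hP π h7)
    by_cases h8 : p ^ α % 7 = 3 ∨ p ^ α % 7 = 5 ∨ p ^ α % 7 = 6
    · exact real fun x hx => by rw [← frob8b p α hP π h8 x hx, hT]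
    have h9 := pow_mod_ne (by norm_num) h7 α
    have h10 : bar M ≤ bar L := fun n h => norm8 hP hF π (fun h => h7 ((cast_iff (by norm_num)).1 h)) (hn' n h)
    refine .inr (.inr (.inr (.inl ⟨by omega, by rw [he h10, card_bar, h], fun x hx => ?_, ?_⟩)))
    · obtain ⟨a, y, h1, h2⟩ := rp π h10 x hx
      rw [← h2]
      rcases x8_elt h1.memA with ⟨h4 | h4, -⟩ | ⟨g, -, h4 | h4⟩
      exacts [.inl (h1.pow_eq h4), .inr (.inl (h1.pow_eq h4)), .inr (.inr (h1.pow_eq (by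
        rw [eq_mul_inv_of_mul_eq h4, conj_pow, e8_1]; simp))), .inr (.inr (h1.pow_eq (by
        rw [eq_mul_inv_of_mul_eq h4, conj_pow, ← pow_mul, mul_comm 6, pow_mul, e8_1]; simp)))]
    · exact (mod_seven p h7).imp (fun h => by simpa using fl 1 (frob8a p 1 hP π (by simpa using h)))
        fun h => by simpa using su 1 (frob8b p 1 hP π (by simpa using h))
  · obtain ⟨π⟩ := pi_of e
    by_cases h3 : p = 3
    · exact real (real6 hd π fun _ _ c _ => cube_three p h3)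
    have h6 := pow_mod_ne Nat.prime_three h3 α
    by_cases h7 : p ^ α % 3 = 2
    · refine real (real6 hd π fun _ _ c _ hc => ?_)
      have h8 := cube_pow hc (p ^ α)
      rw [h7, hT] at h8
      rw [← hc, pow_succ, ← h8, ← sq, ← h8]
    have h3' : (3 : F) ≠ 0 := fun h => h3 ((cast_iff Nat.prime_three).1 h)
    by_cases h5 : p = 5
    · refine .inr (.inr (.inr (.inr (.inr ⟨h5, by omega, fun x hx => ?_, by
        simpa using su 1 (frob6b p 1 hd π (.inl h5) (by simp [h5]))⟩))))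
      obtain ⟨y, hy, e⟩ : pr x * pr x ∈ bar L := by
        by_cases h8 : pr x ∈ bar L
        · exact mul_mem h8 h8
        simpa using norm6' hP hF π h3' (hn' _ (inv_mem (mem_bar hx))) (hn' _ (mem_bar hx)) (by simpa using h8) h8
      obtain ⟨a, ha⟩ := Rp.ex' π hy
      rcases (a6_elt ha.memA).1 with h | h | h <;> have := ha.pow_eq h <;> rw [e, ← sq, ← pow_mul] at this <;>
        exact ⟨_, by omega, by omega, this⟩
    have h10 : bar M ≤ bar L := fun n h => norm6 hP hF π h3' (fun h => h5 ((cast_iff Nat.prime_five).1 h)) (hn' n h)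
    refine .inr (.inr (.inr (.inr (.inl ⟨h5, by omega, ?_, fun x hx => ?_, fun x hx => ?_,
      fun x hx y hy a1 a2 a3 => ?_⟩))))
    · rw [he h10, Nat.card_congr π.toEquiv, nat_card_alternatingGroup]; simp [Nat.factorial]
    · obtain ⟨a, y, h1, h2⟩ := rp π h10 x hx
      exact h2 ▸ (a6_elt h1.memA).1.imp h1.pow_eq (Or.imp h1.pow_eq h1.pow_eq)
    · obtain ⟨a, y, h1, h2⟩ := rp π h10 x hx
      obtain ⟨d, h4⟩ := pr_eq_iff.1 h2.symm
      have h8 := cube_of_smul (mem_SL3.1 (hM hx)) (hd y h1.1) h4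
      obtain ⟨-, -, c, -, h9, t, h11, h12, -⟩ := tr6 hd π h1.1
      rw [T_of_smul h4, T_of_smul (inv_of_smul h4), h11, h12]
      simp only [mul_pow, inv_pow, h8, h9, inv_one]
    · obtain ⟨a, x', h1, h2⟩ := rp π h10 x hx
      obtain ⟨b, y', h4, h8⟩ := rp π h10 y hy
      simp only [← h2, ← h8, ← map_pow] at a1 a2 a3 ⊢
      exact (a6_quat h1.memA h4.memA ((h1.pow 4).eq_one_iff.2 a1) (mt (h1.pow 2).eq_one_iff.1 a2)
        (((h4.pow 2).eq_iff (h1.pow 2)).2 a3)).imp (h4.eq_iff h1).1 (h4.eq_iff (h1.pow 3)).1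
  · obtain ⟨π⟩ := pi_of e
    obtain rfl : p = 5 := (cast_iff Nat.prime_five).1 h5
    by_cases h8 : Even α
    · obtain ⟨k, rfl⟩ := h8
      refine .inr (.inr (.inr (.inr (.inr ⟨rfl, by rw [← two_mul, pow_mul, Nat.pow_mod]; simp, fun x hx => ?_, by
        simpa using su 1 fun x hx => tr7 hd π hx⟩))))
      obtain ⟨a, y, h1, h2⟩ := rp π (fun n h => norm7 hP hF π
        (fun h => absurd ((cast_iff (p := 5) (by norm_num)).1 h) (by norm_num)) (hn' n h)) x hx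
      rcases (a7_elt h1.memA).1 with h | h | h | h <;> exact ⟨_, by omega, by omega, h2 ▸ h1.pow_eq h⟩
    obtain ⟨k, rfl⟩ := Nat.not_even_iff_odd.1 h8
    refine real fun x hx => ?_
    have h9 : T x ^ 5 ^ 2 = T x := two_step 5 (fun x hx => tr7 hd π hx) x hx
    have h10 : ∀ k, T x ^ 5 ^ (2 * k) = T x := fun k => by
      induction k with
      | zero => simp
      | succ k ih => rw [mul_add, pow_add, pow_mul, ih, h9]
    rw [← tr7 hd π hx, ← h10 k, ← pow_mul, ← pow_succ, hT, h10]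

theorem pc_of_perfect (hq : Fintype.card F = p ^ α) (hM : M ≤ SL3 F) (hle : L0 ≤ M) (hP : ⁅L0, L0⁆ = L0)
    (hF : Full (Geo.matrixSet L0)) : PC p α M := by
  have h0 : ∀ n, L0 ≤ (derivedSeries M n).map M.subtype := fun n => by
    induction n with
    | zero => exact fun x hx => ⟨⟨x, hle hx⟩, trivial, rfl⟩
    | succ n ih => rw [derivedSeries_succ, Subgroup.map_commutator, ← hP]; exact Subgroup.commutator_mono ih ih
  obtain ⟨n, -, h1⟩ := H2.Dihed3.exists_perfect (G := M) fun ⟨n, h⟩ => by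
    have := h0 n
    rw [h, Subgroup.map_bot] at this
    exact hF.irr.not_le_scalars (by simp) (this.trans bot_le)
  refine pc_of hq hM (Subgroup.map_subtype_le _) (by rw [← Subgroup.map_commutator, h1])
    (hF.mono (Set.image_mono (h0 n))) ?_
  rintro m hm _ ⟨x, hx, rfl⟩
  exact ⟨_, (derivedSeries_normal M n).conj_mem x hx ⟨m, hm⟩, rfl⟩

end Cfsg.Agent.H5.X
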