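import Cfsg.Agent.H5.X3

set_option autoImplicit false
set_option linter.unusedSectionVars false

/-! Overgroups of monomial groups in `SL₃(q)`. -/

namespace Cfsg.Agent.H5.X
open Cfsg Matrix Cfsg.Agent.Asch Cfsg.Agent.Form Cfsg.Agent.H5.MH Module
open scoped commutatorElement

section Psi
variable {F : Type*} [Field F] {M : Subgroup (G3 F)} {v : Basis (Fin 3) F (Fin 3 → F)}
  {ψ : M →* Equiv.Perm (Fin 3)} (h : ∀ g i, ∃ c : F, g.1.val *ᵥ v i = c • v (ψ g i))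

theorem bas_eq {i j : Fin 3} {c d : F} (hc : c ≠ 0) (e : c • v i = d • v j) : i = j := by
  by_contra h
  have := congrArg (v.repr · i) e
  simp [Finsupp.single_eq_of_ne h, hc] at this

include h

theorem psi_sc {g : M} (e : pr g.1 = 1) : ψ g = 1 := Equiv.ext fun i => by
  obtain ⟨c, hc⟩ := pr_eq_one'.1 e
  obtain ⟨d, hd⟩ := h g i
  rw [hc, smul_mulVec, one_mulVec] at hd
  exact (bas_eq (ne_zero_of_eq_smul hc) hd).symm

theorem psi_eig {g : M} (e : ψ g = 1) (i : Fin 3) : ∃ c : F, g.1.val *ᵥ v i = c • v i := by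
  simpa [e] using h g i

theorem psi_comm {a b : M} (ha : ψ a = 1) (hb : ψ b = 1) : a.1.val * b.1.val = b.1.val * a.1.val :=
  Matrix.toLin'.injective (v.ext fun i => by
    obtain ⟨c, hc⟩ := psi_eig h ha i
    obtain ⟨d, hd⟩ := psi_eig h hb i
    simp only [toLin'_apply, ← mulVec_mulVec, hc, hd, mulVec_smul, smul_smul, mul_comm])

end Psi

variable {F : Type*} [Field F]

/-- `diag(1, a, a⁻¹)` -/
def dh : Fˣ →* G3 F := MonoidHom.toHomUnits
  { toFun a := (!![1, 0, 0; 0, a, 0; 0, 0, a⁻¹] : M3 F)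
    map_one' := by simp [Matrix.one_fin_three]
    map_mul' a b := by simp [mul_comm] }

theorem dh_val (a : Fˣ) : (dh a).val = !![1, 0, 0; 0, a.val, 0; 0, 0, a.val⁻¹] := by simp [dh]

def c3 (F : Type*) [Field F] : G3 F := ⟨!![0, 0, 1; 1, 0, 0; 0, 1, 0], !![0, 1, 0; 0, 0, 1; 1, 0, 0],
  by simp [Matrix.one_fin_three], by simp [Matrix.one_fin_three]⟩

def t3 (F : Type*) [Field F] : G3 F := ⟨!![-1, 0, 0; 0, 0, -1; 0, -1, 0], !![-1, 0, 0; 0, 0, -1; 0, -1, 0],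
  by simp [Matrix.one_fin_three], by simp [Matrix.one_fin_three]⟩

theorem c3_val : (c3 F).val = !![0, 0, 1; 1, 0, 0; 0, 1, 0] := rfl
theorem c3_inv : ((c3 F)⁻¹).val = !![0, 1, 0; 0, 0, 1; 1, 0, 0] := rfl
theorem t3_val : (t3 F).val = !![-1, 0, 0; 0, 0, -1; 0, -1, 0] := rfl
theorem t3_inv : (t3 F)⁻¹ = t3 F := rfl

theorem dh'_val (a : Fˣ) : (c3 F * dh a * (c3 F)⁻¹).val = !![a.val⁻¹, 0, 0; 0, 1, 0; 0, 0, a.val] := by
  simp [-Matrix.coe_units_inv, dh_val, c3_val, c3_inv]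

theorem pr_dh {a : Fˣ} : pr (dh a) = 1 ↔ a = 1 := ⟨fun h => by
  obtain ⟨c, h⟩ := pr_eq_one'.1 h
  have h0 := congrFun (congrFun h 0) 0
  have h1 := congrFun (congrFun h 1) 1
  simp [dh_val] at h0 h1
  exact Units.ext (h1.trans h0.symm), fun h => by simp [h]⟩

theorem dh_comm (a : Fˣ) : dh a = ⁅t3 F, c3 F * dh a * (c3 F)⁻¹⁆ := by
  rw [commutatorElement_def, eq_mul_inv_iff_mul_eq]
  refine Units.ext ?_
  simp only [Units.val_mul _ (_ * _), dh'_val, t3_inv, Units.val_mul _ (t3 F), dh_val, t3_val]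
  simp

theorem c3_comm : c3 F = ⁅t3 F, c3 F⁆ := by
  rw [commutatorElement_def, eq_mul_inv_iff_mul_eq]
  exact Units.ext (by simp [-Matrix.coe_units_inv, t3_inv, t3_val, c3_val])

theorem t3_dh (a : Fˣ) : t3 F * dh a * (t3 F)⁻¹ = (dh a)⁻¹ := by
  rw [← map_inv]
  exact Units.ext (by simp [-Matrix.coe_units_inv, -map_inv, t3_inv, t3_val, dh_val])

theorem t3_sq : t3 F ^ 2 = 1 := by rw [sq, mul_eq_one_iff_eq_inv, t3_inv]

theorem pr_t3 : pr (t3 F) ≠ 1 := fun h => by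
  obtain ⟨c, h⟩ := pr_eq_one'.1 h
  simpa [t3_val] using congrFun (congrFun h 1) 2

theorem full_of {L : Subgroup (G3 F)} (hc : c3 F ∈ L) (h : single 0 0 1 ∈ alg F L) : Full (Geo.matrixSet L) := by
  rw [← alg_eq_top_iff, eq_top_iff]
  have h4 : ∀ i j : Fin 3, single i j 1 ∈ alg F L := fun i j => by
    convert mul_mem (mul_mem (pow_mem (mem_alg hc) i) h) (pow_mem (mem_alg hc) (3 - j))
    ext k l
    fin_cases i <;> fin_cases j <;> fin_cases k <;> fin_cases l <;>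
      simp [c3_val, pow_succ, Matrix.mul_apply, Matrix.single, Matrix.vecHead, Matrix.vecTail]
  intro X _
  rw [Matrix.matrix_eq_sum_single X]
  exact sum_mem fun i _ => sum_mem fun j _ => by simpa using Subalgebra.smul_mem _ (h4 i j) (X i j)

theorem full_dh {L : Subgroup (G3 F)} (hc : c3 F ∈ L) {a : Fˣ} (h : dh a ∈ L) (ha : a ≠ 1) :
    Full (Geo.matrixSet L) := by
  have h1 := mul_mem (mul_mem hc h) (inv_mem hc)
  have h2 := mul_mem (mul_mem (inv_mem hc) h) hc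
  have h3 : (a.val - 1) ≠ 0 := sub_ne_zero.2 fun e => ha (Units.ext e)
  have h0 := a.ne_zero
  refine full_of hc ?_
  convert Subalgebra.smul_mem _ (mul_mem (sub_mem (mem_alg h1) (one_mem _)) (sub_mem (mem_alg h2) (one_mem _)))
    (-a.val / (a.val - 1) ^ 2)
  ext i j
  fin_cases i <;> fin_cases j <;> simp [-Matrix.coe_units_inv, dh_val, c3_val, c3_inv, Matrix.one_fin_three]
  field_simp; ring

/-- monomial matrices -/
def Mono (g : G3 F) : Prop := ∀ i, ∃ j, ∃ c : F, g.val *ᵥ Pi.single i 1 = c • Pi.single j 1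

theorem mono_of {M : Subgroup (G3 F)} {v : Basis (Fin 3) F (Fin 3 → F)} {ψ : M →* Equiv.Perm (Fin 3)}
    (h : ∀ g i, ∃ c : F, g.1.val *ᵥ v i = c • v (ψ g i)) {a : Fˣ} (ha : a ≠ 1) (hc : c3 F ∈ M) (hd : dh a ∈ M)
    (h1 : ψ ⟨_, hd⟩ = 1) : ∀ g ∈ M, Mono g := by
  have h2 : ∀ i, ∃ j, ∃ c : F, c ≠ 0 ∧ v i = c • Pi.single j 1 := fun i => by
    obtain ⟨c, e1⟩ := psi_eig h h1 i
    obtain ⟨d, e2⟩ := psi_eig h (g := ⟨_, hc⟩ * ⟨_, hd⟩ * ⟨_, hc⟩⁻¹) (by rw [map_mul, map_mul, h1]; simp) i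
    have a1 : a.val ≠ 1 := fun e => ha (Units.ext e)
    have a0 := a.ne_zero
    have h0 := v.ne_zero i
    change (c3 F * dh a * (c3 F)⁻¹).val *ᵥ _ = _ at e2
    rw [dh'_val] at e2
    rw [dh_val] at e1
    generalize v i = w at *
    have b0 := congrFun e1 0
    have b1 := congrFun e1 1
    have b2 := congrFun e1 2
    have b3 := congrFun e2 1
    have b4 := congrFun e2 2
    simp [Matrix.mulVec, dotProduct, Fin.sum_univ_three, -mul_eq_mul_right_iff] at b0 b1 b2 b3 b4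
    have c01 : w 0 = 0 ∨ w 1 = 0 := by
      rw [← mul_eq_zero]
      exact mul_left_cancel₀ (sub_ne_zero.2 a1) (by linear_combination w 0 * b1 - w 1 * b0)
    have c02 : w 0 = 0 ∨ w 2 = 0 := by
      rw [← mul_eq_zero]
      exact mul_left_cancel₀ (sub_ne_zero.2 (inv_ne_one.2 a1)) (by linear_combination w 0 * b2 - w 2 * b0)
    have c12 : w 1 = 0 ∨ w 2 = 0 := by
      rw [← mul_eq_zero]
      exact mul_left_cancel₀ (sub_ne_zero.2 a1) (by linear_combination w 1 * b4 - w 2 * b3)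
    obtain ⟨j, hj⟩ := Function.ne_iff.1 h0
    refine ⟨j, w j, hj, funext fun k => ?_⟩
    fin_cases j <;> fin_cases k <;> simp at hj ⊢ <;> tauto
  choose σ c h3 h4 using h2
  have h5 := Finite.injective_iff_surjective.1 fun i j (e : σ i = σ j) => bas_eq (v := v) (h3 j) (d := c i) (by
    rw [h4, h4 j, e, smul_comm])
  intro g hg i
  obtain ⟨i, rfl⟩ := h5 i
  obtain ⟨d, hd⟩ := h ⟨g, hg⟩ i
  rw [h4, h4 (ψ _ _), mulVec_smul, smul_smul] at hd
  exact ⟨_, _, by rw [← inv_smul_smul₀ (h3 i) (_ *ᵥ _), hd, smul_smul]⟩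

theorem T_dh (a : Fˣ) : T (dh a) = 1 + a.val + a.val⁻¹ := by simp [T, dh_val, trace_fin_three]

theorem s3_comm : ∀ x y : Equiv.Perm (Fin 3), ⁅x, y⁆ ^ 3 = 1 := by decide +kernel

theorem pr_ent {x : G3 F} (h : pr x = 1) : x.val 0 0 = x.val 1 1 := by
  obtain ⟨c, h⟩ := pr_eq_one'.1 h
  simp [h]

theorem ord_le (p : ℕ) [Fact p.Prime] [CharP F p] {a : Fˣ} {β : ℕ} (h3 : 3 ≤ p ^ β)
    (h : T (dh a) ^ p ^ β = T (dh a)) : orderOf a ≤ p ^ β + 1 := by
  rw [← T_pow_char_pow, ← map_pow, T_dh, T_dh] at h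
  have h0 := a.ne_zero
  have h1 := (a ^ p ^ β).ne_zero
  have : ((a ^ p ^ β).val - a) * ((a ^ p ^ β).val * a - 1) = 0 := by
    field_simp at h; linear_combination h
  rcases mul_eq_zero.1 this with e | e
  · refine (orderOf_le_of_pow_eq_one (n := p ^ β - 1) (by omega) (mul_right_cancel (b := a) ?_)).trans (by omega)
    rw [← pow_succ, Nat.sub_add_cancel (by omega), one_mul]; exact Units.ext (sub_eq_zero.1 e)
  · exact orderOf_le_of_pow_eq_one (by omega) (by rw [pow_succ]; exact Units.ext (sub_eq_zero.1 e))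

end Cfsg.Agent.H5.X

namespace Cfsg.Agent.H5.X
open Cfsg Matrix Cfsg.Agent.Asch Cfsg.Agent.Form Cfsg.Agent.H5.MH Module
open scoped commutatorElement

universe u
variable {F : Type u} [Field F] [Fintype F] {p α : ℕ} [Fact p.Prime] [CharP F p] {M : Subgroup (G3 F)}

theorem icore (hq : Fintype.card F = p ^ α) (hM : M ≤ SL3 F) {a : Fˣ} (ha : a ^ 3 ≠ 1) (hc : c3 F ∈ M)
    (ht : t3 F ∈ M) (hd : dh a ∈ M) : (∀ g ∈ M, Mono g) ∨ (∃ β, (PL p α M β ∨ PU p α M β) ∧ orderOf a ≤ p ^ β + 1) ∨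
    (a ^ 2 = 1 ∧ ((∀ x ∈ M, Good M x → T x⁻¹ = T x) ∨ (p ^ α % 7 = 1 ∨ p ^ α % 7 = 2 ∨ p ^ α % 7 = 4) ∨
      p ^ α % 3 = 1)) ∨ (p = 5 ∧ p ^ α % 3 = 1 ∧ orderOf a ≤ 14) := by
  have hd' := mul_mem (mul_mem hc hd) (inv_mem hc)
  have a1 : a ≠ 1 := fun e => ha (by simp [e])
  have a0 := a.ne_zero
  have hp : ∀ {k}, pr (dh a) ^ k = 1 → a ^ k = 1 := fun h => pr_dh.1 (by rwa [map_pow, map_pow])
  have t2 : pr (t3 F) ^ 2 = 1 := by rw [← map_pow, t3_sq, map_one]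
  rcases struct (full_dh hc hd a1).irr with ⟨v, ψ, h⟩ | ⟨K, hK, h⟩ | ⟨R, h1, h2, h3⟩ | ⟨L, h1, h2, h3, h4⟩
  · refine .inl (mono_of h ha hc (map_pow dh a 3 ▸ pow_mem hd 3) ?_)
    rw [show (⟨dh (a ^ 3), _⟩ : M) = ⁅(⟨_, ht⟩ : M), ⟨_, hd'⟩⁆ ^ 3 from Subtype.ext
      ((map_pow dh a 3).trans (congrArg (· ^ 3) (dh_comm a))), map_pow, map_commutatorElement]
    exact s3_comm _ _
  · refine (ha (pr_dh.1 (pr_eq_one'.2 ⟨1, sg_eig hK (map_pow dh a 3 ▸ sg_cube hK (h hd)) ?_⟩))).elim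
    simp [dh_val, det_fin_three, -map_pow]
  · by_cases h6 : a ^ 6 = 1
    · have h4 : dh (a ^ 3) ^ 2 = 1 := by rw [← map_pow, ← pow_mul, h6, map_one]
      refine (hs_four h1 h2 h3 (map_pow dh a 3 ▸ pow_mem hd 3) ht (by rw [← map_pow, h4, map_one]) t2 ?_
        (mt pr_dh.1 ha) pr_t3 fun e => ?_).elim
      · rw [← map_pow, show (dh (a ^ 3) * t3 F) ^ 2 = dh (a ^ 3) * (t3 F * dh (a ^ 3) * (t3 F)⁻¹) * t3 F ^ 2 by
          simp [sq, mul_assoc], t3_dh, t3_sq]; simp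
      · simpa [dh_val, t3_val, -map_pow] using pr_ent e
    · have := hs_cube h1 (hs_dih h1 h2 h3 ht t2 pr_t3 hd (t3_dh a))
      rw [map_pow, ← pow_mul] at this
      exact (h6 (hp this)).elim
  have g1 : dh a ∈ ⁅M, M⁆ := dh_comm a ▸ Subgroup.commutator_mem_commutator ht hd'
  have x0 : ∀ k, pr ((c3 F * dh a * (c3 F)⁻¹)⁻¹ * t3 F) ^ k = 1 → (k = 3 ∨ k = 5 ∨ k = 7 → False) ∧
      (k = 4 → a ^ 6 = 1) := fun k h => by
    rw [← map_pow, conj_inv, ← map_inv] at h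
    have := pr_ent h
    rw [Units.val_pow_eq_pow_val, Units.val_mul, dh'_val, t3_val] at this
    refine ⟨?_, ?_⟩
    · rintro (rfl | rfl | rfl) <;> simp [pow_succ] at this
    · rintro rfl
      simp [pow_succ] at this
      exact Units.ext (by field_simp at this; simpa using this)
  have x1 : ∀ {k}, k = 5 ∨ k = 7 → (∀ x ∈ M, pr x ^ 3 = 1 ∨ pr x ^ 4 = 1 ∨ pr x ^ k = 1) → a ^ 2 = 1 := fun hk h => by
    have h6 : a ^ 6 = 1 := by
      rcases h _ (mul_mem (inv_mem hd') ht) with e | e | e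
      exacts [((x0 _ e).1 (by omega)).elim, (x0 _ e).2 rfl, ((x0 _ e).1 (by omega)).elim]
    rcases h _ hd with e | e | e
    · exact (ha (hp e)).elim
    · simpa using pow_gcd_eq_one.2 ⟨hp e, h6⟩
    · rcases hk with rfl | rfl <;> exact (a1 (by simpa using pow_gcd_eq_one.2 ⟨hp e, h6⟩)).elim
  rcases pc_of hq hM h1 h2 h3 h4 with ⟨β, h5, h⟩ | ⟨β, h5, h⟩ | ⟨-, h⟩ | ⟨h5, -, h, -⟩ | ⟨-, h5, -, h, -⟩ | ⟨h5, h6, h, -⟩
  · exact .inr (.inl ⟨β, .inl h5, ord_le p h5.1 (h _ hd (.inl g1))⟩)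
  · exact .inr (.inl ⟨β, .inr h5, ord_le p h5.1 (by rw [h _ hd (.inl g1), ← map_inv, T_dh, T_dh]; simp; ring)⟩)
  · refine .inr (.inr (.inl ⟨Units.ext ?_, .inl h⟩))
    have g2 := mul_mem ((normsG_self M).commutator (normsG_self M) _ (inv_mem hc) _ g1) (mul_mem g1 g1)
    have := h _ (comm_le M g2) (.inl g2)
    simp only [_root_.mul_inv_rev, inv_inv, ← map_inv dh] at this
    simp [T, trace_fin_three, -Matrix.coe_units_inv, dh_val, c3_val, c3_inv, -map_inv] at this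
    have h7 : (a.val - 1) ^ 3 * (a.val + 1) = 0 := by field_simp at this; linear_combination this
    rw [mul_eq_zero, or_iff_right (pow_ne_zero _ (sub_ne_zero.2 (show a.val ≠ 1 from fun e => a1 (Units.ext e))))] at h7
    simp [eq_neg_of_add_eq_zero_left h7]
  · exact .inr (.inr (.inl ⟨x1 (.inr rfl) h, .inr (.inl h5)⟩))
  · exact .inr (.inr (.inl ⟨x1 (.inl rfl) h, .inr (.inr h5)⟩))
  · obtain ⟨k, k1, k2, e⟩ := h _ hd
    exact .inr (.inr (.inr ⟨h5, h6, (orderOf_le_of_pow_eq_one k1 (hp e)).trans k2⟩))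

end Cfsg.Agent.H5.X
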