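import Cfsg.Agent.H5.X4

set_option autoImplicit false
set_option linter.unusedSectionVars false

/-! Overgroups of Singer cycles and of the Hessian group in `SL₃(q)`. -/

namespace Cfsg.Agent.H5.X
open Cfsg Matrix Cfsg.Agent.Asch Cfsg.Agent.Form Cfsg.Agent.H5.MH Module
open scoped commutatorElement

universe u
variable {F : Type u} [Field F] [Fintype F] {p α : ℕ} [Fact p.Prime] [CharP F p] {M : Subgroup (G3 F)}

theorem sg_pow {K : Subalgebra F (M3 F)} (hK : Geo.IsFieldSubalgebra 3 K) {k : G3 F} (hk : k.val ∈ K) :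
    k ^ Fintype.card F ^ 3 = k := by
  let := fieldOf K hK.comm hK.inv
  have := Fintype.ofFinite K
  have h := Module.card_eq_pow_finrank (K := F) (V := K)
  rw [hK.finrank_eq] at h
  exact Units.ext (by simpa [h] using congrArg Subtype.val (FiniteField.pow_card (⟨_, hk⟩ : K)))

theorem s3_six : ∀ x : Equiv.Perm (Fin 3), x ^ 6 = 1 := by decide +kernel

theorem score (hq : Fintype.card F = p ^ α) (hM : M ≤ SL3 F) {K : Subalgebra F (M3 F)}
    (hK : Geo.IsFieldSubalgebra 3 K) {k : G3 F} (hk : k.val ∈ K) (hkM : k ∈ M) (h6 : (orderOf k).Coprime 6)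
    (h7 : 7 ≤ orderOf k) (h0 : k ^ Fintype.card F ≠ k) : M ≤ Geo.subalgebraNormalizer K ∨
    (∃ β, (PL p α M β ∨ PU p α M β) ∧ orderOf k ≤ (p ^ β) ^ 3 + 1) ∨
    (orderOf k = 7 ∧ Nat.card (bar M) = 168) ∨ (p = 5 ∧ p ^ α % 3 = 1 ∧ orderOf k ≤ 14) := by
  have dk := mem_SL3.1 (hM hkM)
  have h3 : (orderOf k).Coprime 3 := h6.coprime_dvd_right (by norm_num)
  have hn := pow_orderOf_eq_one k
  have hg : Good M k := .inr ⟨_, h3, hn⟩
  have hs : ¬ IsSc k.val := fun ⟨c, e⟩ => h0 (Units.ext (by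
    rw [Units.val_pow_eq_pow_val, e, _root_.smul_pow, one_pow, FiniteField.pow_card]))
  have hp : ∀ {j}, pr k ^ j = 1 → orderOf k ∣ j := fun {j} h => orderOf_dvd_of_pow_eq_one
    (eq_of_pr_eq (det_pow' dk j) (by simp) h3 (by rw [← pow_mul, mul_comm, pow_mul, hn, one_pow]) (one_pow _)
      (by rwa [map_pow, map_one]))
  have hQ : ∀ i, (Fintype.card F ^ i) ^ 3 ≡ 1 [MOD orderOf k] := fun i => by
    rw [← pow_mul, mul_comm, pow_mul]
    simpa using (pow_eq_pow_iff_modEq.1 ((sg_pow hK hk).trans (pow_one k).symm)).pow i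
  have pu : ∀ β, T k⁻¹ ^ p ^ β = T k → T k ^ p ^ β = T k⁻¹ → orderOf k ≤ (p ^ β) ^ 3 + 1 := fun β h1 h2 => by
    obtain ⟨i, -, e⟩ := sg_root hK p hk (x := k⁻¹) (by
      rw [inv_eq_of_mul_eq_one_left (a := k ^ (orderOf k - 1)) (by rwa [← pow_succ, Nat.sub_add_cancel (by omega)]),
        Units.val_pow_eq_pow_val]; exact pow_mem hk _) dk (det_inv dk) h0 β h1 h2
    rw [inv_pow, inv_eq_iff_mul_eq_one, ← pow_add, ← orderOf_dvd_iff_pow_eq_one] at e
    exact Nat.le_of_dvd (by omega) ((Nat.modEq_zero_iff_dvd.1 (((hQ i).add_left _).symm.trans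
      (Nat.modEq_zero_iff_dvd.2 (e.trans (Odd.nat_add_dvd_pow_add_pow _ _ (by decide)))))))
  rcases struct (sg_irr hK hk (mt pr_eq_one'.1 hs) hkM) with ⟨v, ψ, h⟩ | ⟨K', hK', h⟩ | ⟨R, h1, h2, h4⟩ |
    ⟨L, h1, h2, h4, h5⟩
  · obtain ⟨c, e⟩ := psi_eig h (g := ⟨k, hkM⟩) (eq_one_of_cop (m := orderOf k) (by
      rw [← map_pow, show (⟨k, hkM⟩ : M) ^ orderOf k = 1 from Subtype.ext hn, map_one]) (s3_six _) h6) 0
    exact (hs ⟨c, sg_eig hK hk (exists_mulVec_eq_zero_iff.1 ⟨_, v.ne_zero 0, by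
      rw [sub_mulVec, e, smul_mulVec, one_mulVec, sub_self]⟩)⟩).elim
  · obtain ⟨j, e⟩ := exists_pow_eq_self_of_coprime h3.symm
    exact .inl (by rwa [Subalgebra.eq_of_le_of_finrank_eq (sg_sub hK hk (by
      rw [← e, Units.val_pow_eq_pow_val]; exact pow_mem (sg_cube hK' (h hkM)) j) hs)
      (hK.finrank_eq.trans hK'.finrank_eq.symm)])
  · obtain ⟨j, e⟩ := Nat.minFac_dvd (orderOf k)
    have h8 := Nat.minFac_prime (n := orderOf k) (by omega)
    have h9 := h6.coprime_dvd_left (Nat.minFac_dvd _)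
    generalize (orderOf k).minFac = s at *
    have := Nat.le_of_dvd (by rcases j with _ | j <;> omega) (hp (j := j) (by
      rw [← map_pow]
      refine hs_big h1 h2 h4 (pow_mem hkM j) h8 (h8.five_le_of_ne_two_of_ne_three ?_ ?_) ?_
      · rintro rfl; exact absurd h9 (by decide)
      · rintro rfl; exact absurd h9 (by decide)
      · rw [← map_pow, ← pow_mul, mul_comm, ← e, hn, map_one]))
    have := h8.two_le
    nlinarith
  rcases pc_of hq hM h1 h2 h4 h5 with ⟨β, h8, h⟩ | ⟨β, h8, h⟩ | ⟨-, h⟩ | ⟨-, h8, h, -⟩ | ⟨-, -, -, h, -⟩ | ⟨h8, h9, h, -⟩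
  · obtain ⟨i, -, e⟩ := sg_root hK p hk hk dk dk h0 β (h _ hkM hg) (h _ (inv_mem hkM) hg.inv)
    have h9 := Nat.pow_le_pow_left h8.1 3
    have := Nat.le_of_dvd (by omega) ((Nat.modEq_iff_dvd' (by omega)).1
      (((pow_eq_pow_iff_modEq.1 e).pow 3).trans (hQ i)).symm)
    exact .inr (.inl ⟨β, .inl h8, by omega⟩)
  · exact .inr (.inl ⟨β, .inr h8, pu β (h _ (inv_mem hkM) hg.inv) (h _ hkM hg)⟩)
  · have := pu 0 (by simpa using h _ hkM hg) (by simpa using (h _ hkM hg).symm)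
    rw [pow_zero] at this
    omega
  · rcases h _ hkM with e | e | e <;> have := Nat.le_of_dvd (by omega) (hp e)
    exacts [by omega, by omega, .inr (.inr (.inl ⟨by omega, h8⟩))]
  · rcases h _ hkM with e | e | e <;> have := Nat.le_of_dvd (by omega) (hp e) <;> omega
  · obtain ⟨j, j1, j2, e⟩ := h _ hkM
    exact .inr (.inr (.inr ⟨h8, h9, (Nat.le_of_dvd j1 (hp e)).trans j2⟩))

theorem hs_dih' {R : Subgroup (G3 F)} (hc : NCore R 3) (hf : Full (Geo.matrixSet R)) (hn : NormsG M R) {t y : G3 F}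
    (ht : t ∈ M) (h2 : pr t ^ 2 = 1) (h1 : pr t ≠ 1) (hy : y ∈ M) (h5 : pr t * pr y * (pr t)⁻¹ = (pr y)⁻¹) :
    pr (y ^ 2) ∈ bar R := hs_mem hc hf fun r hr => by
  have h3 := hs_neg hc hf hn ht h2 h1 (hn y hy r hr)
  have h4 := hs_neg hc hf hn ht h2 h1 hr
  simp only [map_mul, map_inv, sq] at h3 ⊢
  generalize pr t = t, pr y = y, pr r = r at *
  have : y⁻¹ * r⁻¹ * y = y * r⁻¹ * y⁻¹ := calc
    _ = (t * y * t⁻¹) * (t * r * t⁻¹) * (t * y * t⁻¹)⁻¹ := by rw [h5, h4, inv_inv]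
    _ = t * (y * r * y⁻¹) * t⁻¹ := by group
    _ = _ := by rw [h3]; group
  calc _ = r * y * (y⁻¹ * r⁻¹ * y) * y * r := by group
    _ = _ := by rw [this]; group

omit [Fintype F] in
theorem full_conj {L : Subgroup (G3 F)} (g : G3 F) (h : Full (Geo.matrixSet (L.comap (MulAut.conj g).toMonoidHom))) :
    Full (Geo.matrixSet L) := (h.map (cj g)).mono (by
  rintro _ ⟨_, ⟨x, hx, rfl⟩, rfl⟩
  exact ⟨_, hx, (cj_coe g x).symm⟩)

theorem hcore (hq : Fintype.card F = p ^ α) (hM : M ≤ SL3 F) (h5 : p ≠ 5) {R : Subgroup (G3 F)} (hc : NCore R 3)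
    (hf : Full (Geo.matrixSet R)) (hR : R ≤ M) {t u w : G3 F} (hu : u ∈ M) (hw : w ∈ M) (u2 : u ^ 2 = t)
    (w2 : w ^ 2 = t) (t2 : t ^ 2 = 1) (t1 : pr t ≠ 1) (uw : w * u = t * (u * w))
    (hn : t ∈ Geo.subgroupNormalizer R) :
    (∀ m ∈ M, ∀ x ∈ R, pr (m * x * m⁻¹) ∈ bar R) ∨ ∃ β, PL p α M β ∨ PU p α M β := by
  have ht : t ∈ M := u2 ▸ pow_mem hu 2
  have t2' : pr t ^ 2 = 1 := by rw [← map_pow, t2, map_one]
  have ng : ∀ x ∈ R, pr t * pr x * (pr t)⁻¹ = (pr x)⁻¹ := fun x hx =>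
    hs_neg hc hf (M := Geo.subgroupNormalizer R) (fun g hg y hy => (hg y).1 hy) hn t2' t1 hx
  have : Finite (PG3 F) := Finite.of_surjective _ pr_surj
  obtain ⟨a, ha, a1⟩ := SetLike.not_le_iff_exists.1 hc.not_le
  obtain ⟨b, hb, ab⟩ := exists_not_comm hf a1
  rcases struct ((hf.mono (Set.image_mono hR)).irr (P := M)) with ⟨v, ψ, h⟩ | ⟨K, hK, h⟩ | ⟨R', h1, h2, h4⟩ |
    ⟨L, h1, h2, h4, h6⟩
  · have h1 : ψ ⟨t, ht⟩ = 1 := by
      have : ∀ x : Equiv.Perm (Fin 3), (x ^ 2) ^ 2 = 1 → x ^ 2 = 1 := by decide +kernel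
      rw [show (⟨t, ht⟩ : M) = ⟨u, hu⟩ ^ 2 from Subtype.ext u2.symm, map_pow]
      exact this _ (by rw [← map_pow, ← map_pow, ← map_one ψ]; congr 1; exact Subtype.ext (by simp [u2, t2]))
    have h2 : ∀ x (hx : x ∈ R), ψ ⟨x, hR hx⟩ = 1 := fun x hx => by
      have e1 := psi_sc h (g := ⟨t, ht⟩ * ⟨x, hR hx⟩ * ⟨t, ht⟩⁻¹ * ⟨x, hR hx⟩) (by simp [ng x hx])
      have e2 := psi_sc h (g := ⟨x, hR hx⟩ ^ 3) (by simpa using hs_cube hc (mem_bar hx))
      simp only [map_mul, map_inv, map_pow, h1, one_mul, inv_one, mul_one] at e1 e2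
      rwa [pow_three', e1, one_mul] at e2
    exact (ab (Units.ext (psi_comm h (h2 a ha) (h2 b hb)))).elim
  · have h1 := sg_cube hK (h ht)
    rw [pow_succ, t2, one_mul] at h1
    have : (t.val - (1 : F) • 1).det * (t.val - (-1 : F) • 1).det = 0 := by
      rw [← det_mul, ← det_zero (n := Fin 3) (R := F)]
      congr 1
      have : t.val * t.val = 1 := by rw [← Units.val_mul, ← sq, t2, Units.val_one]
      simp [sub_mul, mul_add, this]
    exact (t1 (pr_eq_one'.2 ((mul_eq_zero.1 this).elim (⟨_, sg_eig hK h1 ·⟩) (⟨_, sg_eig hK h1 ·⟩)))).elim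
  · have h6 : bar R = bar R' := Subgroup.eq_of_le_of_card_ge (by
      rintro _ ⟨x, hx, rfl⟩
      have e := hs_dih' h1 h2 h4 ht t2' t1 (hR hx) (ng x hx)
      have e' := hs_cube hc (mem_bar hx)
      rw [pow_succ, mul_eq_one_iff_eq_inv, ← map_pow] at e'
      simpa [e'] using inv_mem e) ((h1.card_map h2).trans (hc.card_map hf).symm).le
    refine .inl fun m hm x hx => ?_
    rw [h6, map_mul, map_mul, map_inv]
    exact nm_of (h4 m hm) _ (h6 ▸ mem_bar hx)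
  rcases pc_of hq hM h1 h2 h4 h6 with ⟨β, h8, -⟩ | ⟨β, h8, -⟩ | ⟨-, h⟩ | ⟨-, h8, -⟩ | ⟨-, -, -, -, -, h⟩ | ⟨h8, -⟩
  · exact .inr ⟨β, .inl h8⟩
  · exact .inr ⟨β, .inr h8⟩
  · have z1 := Subgroup.commutator_mem_commutator (hR ha) (hR hb)
    have := h _ (comm_le M z1) (.inl z1)
    obtain ⟨c, e⟩ := mem_Sc.1 (hc.comm a ha b hb)
    have e1 := cube_of_sc (mem_SL3.1 (hM (comm_le M z1))) e
    have e0 : (3 : F) ≠ 0 := by simpa using hc.card_ne_zero hf
    rw [T_of_smul (h := 1) e, T_of_smul (inv_of_smul (h := 1) e), inv_one, T_one, mul_left_inj' e0,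
      inv_eq_iff_eq_inv, ← mul_eq_one_iff_eq_inv₀ (ne_zero_of_eq_smul e)] at this
    rw [pow_three', this, one_mul] at e1
    exact (ab (commutatorElement_eq_one_iff_mul_comm.1 (Units.ext (by simp [e, e1])))).elim
  · have : Nat.card (bar R) ∣ Nat.card (bar M) := Subgroup.card_dvd_of_le (Subgroup.map_mono hR)
    rw [h8, show Nat.card (bar R) = _ from hc.card_map hf] at this
    simp at this
  · have e1 : pr u ^ 2 = pr t := by rw [← map_pow, u2]
    have e2 := congrArg pr uw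
    simp only [map_mul] at e2
    rcases h u hu w hw (by rw [show 4 = 2 * 2 from rfl, pow_mul, e1, t2']) (e1 ▸ t1) (by rw [e1, ← map_pow, w2]) with
      e | e <;> rw [e] at e2
    exacts [(t1 (by simpa using e2.symm)).elim, (t1 (by rw [← pow_succ, ← pow_succ'] at e2; simpa using e2.symm)).elim]
  · exact (h5 h8).elim

end Cfsg.Agent.H5.X
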