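import Cfsg.Agent.H5.X5

set_option autoImplicit false
set_option linter.unusedSectionVars false

/-! Overgroups of the Hessian group in `SL₃(q)`. -/

namespace Cfsg.Agent.H5.X
open Cfsg Matrix Cfsg.Agent.Asch Cfsg.Agent.Form Cfsg.Agent.H5.MH Module
open scoped commutatorElement

universe u
variable {F : Type u} [Field F] [Fintype F] {p α : ℕ} [Fact p.Prime] [CharP F p] {M : Subgroup (G3 F)}

/-- the extraspecial group of order 27 -/
def hR (w : Fˣ) (g : G3 F) : Subgroup (G3 F) := Subgroup.closure {g * dh w * g⁻¹, g * c3 F * g⁻¹}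

section
variable {w : Fˣ} {g : G3 F}

theorem hR_a : g * dh w * g⁻¹ ∈ hR w g := Subgroup.subset_closure (by simp)
theorem hR_b : g * c3 F * g⁻¹ ∈ hR w g := Subgroup.subset_closure (by simp)

theorem hR_le {L : Subgroup (G3 F)} (h1 : g * dh w * g⁻¹ ∈ L) (h2 : g * c3 F * g⁻¹ ∈ L) : hR w g ≤ L :=
  (Subgroup.closure_le _).2 (by rintro _ (rfl | rfl); exacts [h1, h2])

theorem det_of_mk (X : M3 F) (h : X.det = 1) : (mk1 X h).val.det = 1 := h
theorem dh_det (a : Fˣ) : (dh a).val.det = 1 := by simp [dh_val, det_fin_three]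
theorem c3_det : (c3 F).val.det = 1 := by simp [c3_val, det_fin_three]
theorem t3_det : (t3 F).val.det = 1 := by simp [t3_val, det_fin_three]

theorem hR_SL : hR w g ≤ SL3 F := hR_le (mem_SL3.2 (det_conj g (dh_det w))) (mem_SL3.2 (det_conj g c3_det))

variable (ww : w.val * w.val + w.val + 1 = 0)
include ww

theorem w_inv : w.val⁻¹ = -1 - w.val := inv_eq_of_mul_eq_one_right (by linear_combination -ww)

theorem w_cube : w ^ 3 = 1 := Units.ext (by push_cast; linear_combination (w.val - 1) * ww)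

theorem hR_comm : (⁅dh w, c3 F⁆ : G3 F) = MH.sc w.val w.ne_zero := by
  rw [commutatorElement_def, mul_inv_eq_iff_eq_mul, mul_inv_eq_iff_eq_mul]
  ext i j
  fin_cases i <;> fin_cases j <;> simp [dh_val, c3_val, MH.sc, w_inv ww] <;> grind

theorem hR_sc {z : G3 F} (h : pr z = 1) (hd : z.val.det = 1) : z ∈ hR w g := by
  obtain ⟨c, e⟩ := pr_eq_one'.1 h
  have h1 := cube_of_sc hd e
  have h2 : MH.sc w.val w.ne_zero ∈ hR w g := by
    have := comm_le _ (Subgroup.commutator_mem_commutator (hR_a (w := w) (g := g)) hR_b)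
    rwa [← conjugate_commutatorElement, hR_comm ww, sc_central (pr_sc _ _), mul_inv_cancel_right] at this
  have : (c - 1) * ((c - w) * (c - w * w)) = 0 := by linear_combination h1 + (c - c * c + (c - 1) * (w - 1)) * ww
  simp only [mul_eq_zero, sub_eq_zero] at this
  rcases this with rfl | rfl | rfl
  · exact (Units.ext (by simp [e]) : 1 = z) ▸ one_mem _
  · convert h2; exact Units.ext e
  · convert mul_mem h2 h2; exact Units.ext (by simp [e, MH.sc, smul_smul])

variable (h3 : (3 : F) ≠ 0)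
include h3

theorem w_ne : w ≠ 1 := fun e => h3 (by rw [e] at ww; push_cast at ww; linear_combination ww)

theorem hR_full : Full (Geo.matrixSet (hR w g)) := full_conj g (full_dh hR_b hR_a (w_ne ww h3))

theorem hR_ncore : NCore (hR w g) 3 := by
  have h1 : ∀ x ∈ hR w g, ∀ y ∈ hR w g, Commute (pr x) (pr y) := fun x hx y hy => by
    have : Commute (pr (g * dh w * g⁻¹)) (pr (g * c3 F * g⁻¹)) := by
      rw [← commutatorElement_eq_one_iff_commute, ← map_commutatorElement, ← conjugate_commutatorElement, hR_comm ww]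
      simp [pr_sc]
    induction hx, hy using Subgroup.closure_induction₂ with
    | mem x y hx hy => rcases hx with rfl | rfl <;> rcases hy with rfl | rfl; exacts [.refl _, this, this.symm, .refl _]
    | one_left => simp
    | one_right => simp
    | mul_left _ _ _ _ _ _ a b => rw [map_mul]; exact a.mul_left b
    | mul_right _ _ _ _ _ _ a b => rw [map_mul]; exact a.mul_right b
    | inv_left _ _ _ _ a => rw [map_inv]; exact a.inv_left
    | inv_right _ _ _ _ a => rw [map_inv]; exact a.inv_right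
  refine ⟨Nat.prime_three, (hR_full ww h3).irr.not_le_scalars (by simp), fun x hx y hy => pr_eq_one.1 (by
    rw [map_commutatorElement, (h1 x hx y hy).commutator_eq]), fun x hx => pr_eq_one.1 ?_⟩
  rw [map_pow]
  induction hx using Subgroup.closure_induction with
  | mem x hx =>
    rcases hx with rfl | rfl <;> rw [← map_pow, conj_pow]
    · simp [← map_pow, w_cube ww]
    · rw [show c3 F ^ 3 = 1 from Units.ext (by simp [c3_val, pow_succ, one_fin_three])]; simp
  | one => simp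
  | mul x y hx hy a b => rw [map_mul, (h1 x hx y hy).mul_pow, a, b, one_mul]
  | inv x _ a => rw [map_inv, inv_pow, a, inv_one]

theorem d_ne : 1 + 2 * w.val ≠ 0 := fun e => h3 (by linear_combination 4 * ww - (1 + 2 * w.val) * e)

theorem exists_U : ∃ U : G3 F, U.val.det = 1 ∧
    U.val = (1 + 2 * w.val)⁻¹ • !![1, 1, 1; 1, w.val, -1 - w.val; 1, -1 - w.val, w.val] := by
  have d0 := d_ne ww h3
  exact ⟨mk1 _ (by rw [det_smul, det_fin_three]; simp; field_simp; linear_combination (-4 - 8 * w.val) * ww),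
    det_of_mk _ _, rfl⟩

theorem U_facts {U : G3 F} (hU : U.val = (1 + 2 * w.val)⁻¹ • !![1, 1, 1; 1, w.val, -1 - w.val; 1, -1 - w.val, w.val]) :
    U * dh w = c3 F ^ 2 * U ∧ U * c3 F = dh w * U ∧ U ^ 2 = t3 F := by
  have d0 := d_ne ww h3
  refine ⟨?_, ?_, ?_⟩ <;> ext i j <;> fin_cases i <;> fin_cases j <;>
    simp [hU, dh_val, c3_val, t3_val, w_inv ww, sq] <;> grind

omit h3 in
theorem D_facts {D : G3 F} (hD : D.val = !![1, 0, 0; 0, w.val, 0; 0, 0, w.val]) :
    D * dh w = dh w * D ∧ D * c3 F = dh w * c3 F * dh w * D ∧ D * t3 F = t3 F * D := by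
  refine ⟨?_, ?_, ?_⟩ <;> ext i j <;> fin_cases i <;> fin_cases j <;>
    simp [hD, dh_val, c3_val, t3_val, w_inv ww] <;> grind

theorem UD_facts {U D : G3 F}
    (hU : U.val = (1 + 2 * w.val)⁻¹ • !![1, 1, 1; 1, w.val, -1 - w.val; 1, -1 - w.val, w.val])
    (hD : D.val = !![1, 0, 0; 0, w.val, 0; 0, 0, w.val])
    (hD' : (D⁻¹).val = !![1, 0, 0; 0, -1 - w.val, 0; 0, 0, -1 - w.val]) :
    D * U * D⁻¹ * U = t3 F * (U * (D * U * D⁻¹)) := by
  refine Units.ext ?_
  simp only [Units.val_mul, hU, hD, hD', t3_val, Matrix.mul_smul, Matrix.smul_mul]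
  congr 2
  ext i j
  fin_cases i <;> fin_cases j <;> simp <;> grind

theorem hmain (hq : Fintype.card F = p ^ α) (hM : M ≤ SL3 F) (h5 : p ≠ 5)
    (hN : ∀ y ∈ Geo.subgroupNormalizer (hR w g), y.val.det = 1 → y ∈ M) :
    M ≤ Geo.subgroupNormalizer (hR w g) ∨ ∃ β, PL p α M β ∨ PU p α M β := by
  obtain ⟨U, dU, hU⟩ := exists_U ww h3
  obtain ⟨D, hD, hD'⟩ := exists_unit (P := !![1, 0, 0; 0, w.val, 0; 0, 0, w.val])
    (Q := !![1, 0, 0; 0, -1 - w.val, 0; 0, 0, -1 - w.val]) (by simp [one_fin_three]; linear_combination -ww)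
  obtain ⟨u1, u2, u3⟩ := U_facts ww h3 hU
  obtain ⟨d1, d2, d3⟩ := D_facts ww hD
  have d4 := UD_facts ww h3 hU hD hD'
  clear hU hD hD'
  have hU : g * U * g⁻¹ ∈ Geo.subgroupNormalizer (hR w g) := H2.El.norm_of_gen rfl (by
    rintro _ (rfl | rfl) <;> rw [conj_inv, conj_mul, conj_mul]
    · rw [u1, mul_inv_cancel_right, ← conj_pow]; exact pow_mem hR_b 2
    · rw [u2, mul_inv_cancel_right]; exact hR_a)
  have hD : g * D * g⁻¹ ∈ Geo.subgroupNormalizer (hR w g) := H2.El.norm_of_gen rfl (by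
    rintro _ (rfl | rfl) <;> rw [conj_inv, conj_mul, conj_mul]
    · rw [d1, mul_inv_cancel_right]; exact hR_a
    · rw [d2, mul_inv_cancel_right, ← conj_mul, ← conj_mul]; exact mul_mem (mul_mem hR_a hR_b) hR_a)
  replace dU := det_conj g dU
  have hM1 : hR w g ≤ M := fun x hx => hN x (Subgroup.le_normalizer hx) (mem_SL3.1 (hR_SL hx))
  have e1 : (g * U * g⁻¹) ^ 2 = g * t3 F * g⁻¹ := by rw [conj_pow, u3]
  refine (hcore hq hM h5 (hR_ncore ww h3) (hR_full ww h3) hM1 (hN _ hU dU)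
    (hN _ (mul_mem (mul_mem hD hU) (inv_mem hD)) (det_conj (g * D * g⁻¹) dU)) e1
    (by rw [conj_pow, e1, conj_mul, d3]; group) (by rw [conj_pow, t3_sq]; simp)
    (by simpa [mul_inv_eq_one] using pr_t3) (by simp only [conj_inv, conj_mul, d4]) (e1 ▸ pow_mem hU 2)).imp_left
    fun h m hm => Subgroup.mem_normalizer_fintype fun x hx => ?_
  obtain ⟨r, hr, e⟩ := h m hm x hx
  rw [← mul_inv_cancel_right (m * x * m⁻¹) r⁻¹, inv_inv]
  exact mul_mem (hR_sc ww (by rw [map_mul, ← e]; simp) (mem_SL3.1 (hM (mul_mem (mul_mem (mul_mem hm (hM1 hx))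
    (inv_mem hm)) (inv_mem (hM1 hr)))))) hr

end

end Cfsg.Agent.H5.X
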