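import Cfsg.Agent.H5.X6
import Cfsg.Agent.H5.X1

set_option autoImplicit false
set_option linter.unusedSectionVars false

/-! Perfect absolutely irreducible subgroups: `SL₃(E)`, `SU₃(E)`, `Ω₃(E)`. -/

namespace Cfsg.Agent.H5.X
open scoped commutatorElement

section
open Module Cfsg.Agent.Form Cfsg.Agent.H7 Cfsg.Agent.H6.SU
variable {F : Type*} [Field F] {σ : F →+* F} {hσ : ∀ a, σ (σ a) = a}
  {V : Type*} [AddCommGroup V] [Module F V] {S : PQ (FP.unit σ hσ) V} [FiniteDimensional F V] [Finite F]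

theorem sisom_perfect (hne : ∃ a, σ a ≠ a) (h3 : ∃ a : F, σ a = a ∧ a ≠ 0 ∧ a ≠ 1) (hS : S.Nondeg)
    (hd : finrank F V = 3) : sisom S ≤ ⁅sisom S, sisom S⁆ :=
  Full.sisom_le_three hne h3 hS hd fun v _ hv => ctr_iff.2 ⟨hv, fun c hc => by
    by_cases h0 : v = 0
    · exact ⟨1, one_mem _, by simp [h0]⟩
    have hT := S.nondegOn_top.2 hS
    obtain ⟨e, -, he, hve⟩ := exists_partner_on hT trivial h0 hv
    obtain ⟨w, -, h1, h2, -⟩ := exists_nonsing_perp hne hT (by simp [hd]) trivial trivial hv he (by simp [hve])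
    obtain ⟨a, ha⟩ := exists_sub_eq hne hσ (c := c / S.B w w) (by rw [map_div₀, Bs, ← add_div, hc, zero_div])
    have A := exists_eichOK S hv h2
    have B := exists_eichOK S hv (w := a • w) (by simp [h2])
    have C : HE S ⁅sisom S, sisom S⁆ v _ _ := ⟨(B.add A).add (A.add B).neg, by
      rw [← S.eich_mul (B.add A) (A.add B).neg, ← S.eich_inv _ _ _ (A.add B), ← S.eich_mul A B, ← S.eich_mul B A]
      convert Subgroup.commutator_mem_commutator (eich_mem_sisom S _ _ _ B) (eich_mem_sisom S _ _ _ A) using 1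
      rw [commutatorElement_def]; group⟩
    convert (C.congr (w' := 0) rfl (by abel) rfl).ht using 1
    simp only [PQ.B_add_left, PQ.B_add_right, PQ.B_neg_left, PQ.B_smul_left, Bsr]
    field_simp at ha
    linear_combination -ha⟩

end

open Cfsg Matrix Cfsg.Agent.Asch Cfsg.Agent.Form Cfsg.Agent.H5.MH Module

section
variable {E : Type*} [Field E]

theorem su_perfect [Fintype E] {q : ℕ} (hE : Fintype.card E = q ^ 2) (hq : 3 ≤ q) : ⁅SU3 E q, SU3 E q⁆ = SU3 E q := by
  refine le_antisymm (comm_le _) fun g hg => ?_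
  have h1 : H7.sisom (H6.SU.std hE 3) = (SU3 E q).map (H7.toLE (ι := Fin 3) (F := E)).toMonoidHom := Subgroup.ext fun x => by
    obtain ⟨x, rfl⟩ := (H7.toLE (ι := Fin 3) (F := E)).surjective x
    rw [← H7.mem_SU_iff hE]
    exact ⟨fun h => ⟨x, h, rfl⟩, fun ⟨y, h, e⟩ => H7.toLE.injective e ▸ h⟩
  have h2 := sisom_perfect (H6.SU.std_ne hE) (H6.SU.exists_real hE hq) (H6.SU.std_nondeg hE 3) (by simp)
  rw [h1, ← Subgroup.map_commutator] at h2
  obtain ⟨y, h, e⟩ := h2 ⟨g, hg, rfl⟩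
  exact H7.toLE.injective e ▸ h

theorem sl_range : SL3 E = (SpecialLinearGroup.toGL (n := Fin 3) (R := E)).range := Subgroup.ext fun g =>
  ⟨fun h => ⟨⟨g.val, mem_SL3.1 h⟩, Units.ext rfl⟩, fun ⟨x, e⟩ => mem_SL3.2 (e ▸ x.2)⟩

theorem sl_perfect : ⁅SL3 E, SL3 E⁆ = SL3 E := by
  rw [sl_range]
  refine Cfsg.Agent.MH.range_perfect (eq_top_iff.2 fun A _ => sl3_ind (· ∈ commutator _) (fun i j hij a => ?_)
    (fun _ _ => mul_mem) A) _
  obtain ⟨k, h1, h2⟩ : ∃ k, i ≠ k ∧ k ≠ j := by revert i j; decide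
  have : SpecialLinearGroup.transvection hij a =
      ⁅SpecialLinearGroup.transvection h1 a, SpecialLinearGroup.transvection h2 (1 : E)⁆ := by
    rw [commutatorElement_def, eq_mul_inv_iff_mul_eq, eq_mul_inv_iff_mul_eq]
    apply Subtype.ext
    simp [SpecialLinearGroup.transvection_coe, mul_add, add_mul, h2.symm, hij.symm]
    abel
  rw [this]
  exact Subgroup.commutator_mem_commutator (Subgroup.mem_top _) (Subgroup.mem_top _)

theorem sl_full [Fintype E] : Full (Geo.matrixSet (SL3 E)) := by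
  have h1 : _ ∈ alg E _ := mem_alg (mem_SL3.2 (up_det (1 : E) 0 0))
  have h2 : _ ∈ alg E _ := mem_alg (mem_SL3.2 (lo_det (0 : E) 0 1))
  refine full_of (mem_SL3.2 c3_det) ?_
  convert mul_mem (sub_mem h1 (one_mem _)) (sub_mem h2 (one_mem _))
  ext i j
  fin_cases i <;> fin_cases j <;> simp [up_val, lo_val, one_fin_three]

/-- `Ω₃` as the image of `SL₂` -/
def om (E : Type*) [Field E] : Subgroup (G3 E) := (adG.comp (SpecialLinearGroup.toGL (n := Fin 2) (R := E))).range

theorem om_perfect {a : E} (ha : a ≠ 0) (h : a ^ 2 ≠ 1) : ⁅om E, om E⁆ = om E :=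
  Cfsg.Agent.MH.range_perfect (SL2.commutator_eq_top ha h) _

theorem om_mem {a b c d : E} (h : a * d - b * c = 1) : ∃ x ∈ om E, x.val = adA a b c d :=
  ⟨_, ⟨⟨!![a, b; c, d], by simpa [det_fin_two] using h⟩, rfl⟩, rfl⟩

theorem om_spec {x : G3 E} (h : x ∈ om E) : x.val.det = 1 ∧ x.valᵀ * MH.B0 E * x.val = MH.B0 E := by
  obtain ⟨A, rfl⟩ := h
  have h1 := A.2
  rw [det_fin_two] at h1
  exact ⟨(adA_det _ _ _ _).trans (by simp [h1]), (adA_sim _ _ _ _).trans (by simp [h1])⟩

theorem om_full (h2 : (2 : E) ≠ 0) : Full (Geo.matrixSet (om E)) := by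
  obtain ⟨x, hx, e⟩ := om_mem (a := (1 : E)) (b := 1) (c := 0) (d := 1) (by simp)
  obtain ⟨y, hy, e'⟩ := om_mem (a := (1 : E)) (b := 0) (c := 1) (d := 1) (by simp)
  have h1 : _ ∈ alg E _ := sub_mem (mem_alg hx) (one_mem _)
  have h3 : _ ∈ alg E _ := sub_mem (mem_alg hy) (one_mem _)
  rw [e] at h1
  rw [e'] at h3
  have a02 : single 0 2 1 ∈ alg E (om E) := by
    convert Subalgebra.smul_mem _ (mul_mem h1 h1) (-2)⁻¹
    ext i j
    fin_cases i <;> fin_cases j <;> simp [adA, one_fin_three, h2]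
  have a20 : single 2 0 1 ∈ alg E (om E) := by
    convert Subalgebra.smul_mem _ (mul_mem h3 h3) (-2)⁻¹
    ext i j
    fin_cases i <;> fin_cases j <;> simp [adA, one_fin_three, h2]
  have a00 : single 0 0 1 ∈ alg E (om E) := by simpa using mul_mem a02 a20
  have a10 : single 1 0 1 ∈ alg E (om E) := by
    convert neg_mem (add_mem (mul_mem h3 a00) a20)
    ext i j
    fin_cases i <;> fin_cases j <;> simp [adA, one_fin_three, vecMul, dotProduct, Fin.sum_univ_three]
  have a01 : single 0 1 1 ∈ alg E (om E) := by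
    convert Subalgebra.smul_mem _ (add_mem (mul_mem a00 h1) a02) (-2)⁻¹
    ext i j
    fin_cases i <;> fin_cases j <;> simp [adA, one_fin_three, h2]
  have a1 : ∀ i, single i 0 1 ∈ alg E (om E) := fun i => by fin_cases i <;> assumption
  have a2 : ∀ i, single 0 i 1 ∈ alg E (om E) := fun i => by fin_cases i <;> assumption
  rw [← alg_eq_top_iff, eq_top_iff]
  intro X _
  rw [Matrix.matrix_eq_sum_single X]
  exact sum_mem fun i _ => sum_mem fun j _ => by simpa using Subalgebra.smul_mem _ (mul_mem (a1 i) (a2 j)) (X i j)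

end

end Cfsg.Agent.H5.X
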