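import Cfsg.Agent.H5.X7

set_option autoImplicit false
set_option linter.unusedSectionVars false

/-! Overgroups of `SL₃(E)`, `SU₃(E)`, `Ω₃(E)` in `SL₃(q)`. -/

namespace Cfsg.Agent.H5.X
open Cfsg Matrix Cfsg.Agent.Asch Cfsg.Agent.Form Cfsg.Agent.H5.MH Module
open scoped commutatorElement

universe u
variable {F : Type u} [Field F] [Fintype F] {p α : ℕ} [Fact p.Prime] [CharP F p] {M : Subgroup (G3 F)}
  {E : Type*} [Field E] [Fintype E] {φ : E →+* F} {P : G3 F}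

/-- embedding of `GL₃(E)` -/
def emb (φ : E →+* F) (P : G3 F) : G3 E →* G3 F := (MulAut.conj P).toMonoidHom.comp (gm φ)

theorem emb_apply (x : G3 E) : emb φ P x = P * gm φ x * P⁻¹ := rfl

theorem T_emb (x : G3 E) : T (emb φ P x) = φ (T x) := by rw [emb_apply, T_conj, T_gm]

theorem T_emb' (x : G3 E) : T (emb φ P x)⁻¹ = φ (T x⁻¹) := by rw [← map_inv, T_emb]

theorem pr_emb {x : G3 E} : pr (emb φ P x) = 1 ↔ pr x = 1 := by simp [emb_apply, pr_gm, mul_inv_eq_one]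

theorem det_emb {x : G3 E} (h : x.val.det = 1) : (emb φ P x).val.det = 1 :=
  det_conj P (by rw [det_gm, h, map_one])

theorem big (hq : Fintype.card F = p ^ α) (hM : M ≤ SL3 F) {L : Subgroup (G3 E)} (hP : ⁅L, L⁆ = L)
    (hF : Full (Geo.matrixSet L)) (hle : ∀ x ∈ L, emb φ P x ∈ M) : PC p α M ∧ (∀ x ∈ L, Good M (emb φ P x)) ∧
    ∀ θ : G3 F →* G3 F, (∀ x ∈ L, θ (emb φ P x) = emb φ P x) → (∀ x ∈ M, Good M x → T (θ x) = T x) →
      ∀ m ∈ M, pr (θ m) = pr m := by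
  have h1 : L.map (emb φ P) ≤ M := Subgroup.map_le_iff_le_comap.2 hle
  have h2 : ⁅L.map (emb φ P), L.map (emb φ P)⁆ = L.map (emb φ P) := by rw [← Subgroup.map_commutator, hP]
  have h3 : Full (Geo.matrixSet (L.map (emb φ P))) := full_conj P ((full_map φ hF).mono (Set.image_mono (by
    rintro _ ⟨x, hx, rfl⟩; exact ⟨x, hx, rfl⟩)))
  have h4 := h2 ▸ Subgroup.commutator_mono h1 h1
  exact ⟨pc_of_perfect hq hM h1 h2 h3, fun x hx => .inl (h4 ⟨x, hx, rfl⟩), fun θ a b m hm =>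
    tw_le θ (by rintro _ ⟨x, hx, rfl⟩; exact a x hx) h3 h4 b hm⟩

theorem pow_iter {a : E} {β : ℕ} (h : a ^ p ^ β = a) (k : ℕ) : a ^ p ^ (β * k) = a := by
  induction k with
  | zero => simp
  | succ k ih => rw [mul_add_one, pow_add, pow_mul, ih, h]

theorem pos_of_card {δ : ℕ} (hE : Fintype.card E = p ^ δ) : 0 < δ := Nat.pos_of_ne_zero (by
  rintro rfl; exact absurd hE Fintype.one_lt_card.ne')

theorem dvd_of_fix {δ β : ℕ} (hE : Fintype.card E = p ^ δ) (h : ∀ e : E, e ^ p ^ β = e) : δ ∣ β := by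
  by_contra hn
  have := card_le_pow p (β % δ) (fun e => hn (Nat.dvd_of_mod_eq_zero e)) fun e : E => by
    conv_rhs => rw [← h e, ← Nat.div_add_mod β δ, pow_add, pow_mul, pow_mul, ← hE, FiniteField.pow_card_pow]
  rw [hE, Nat.pow_le_pow_iff_right (Fact.out : p.Prime).one_lt] at this
  exact absurd (Nat.mod_lt β (pos_of_card hE)) (by omega)

theorem subcore (hq : Fintype.card F = p ^ α) (hM : M ≤ SL3 F) {δ : ℕ} (hE : Fintype.card E = p ^ δ)
    (hle : ∀ x ∈ SL3 E, emb φ P x ∈ M) :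
    (∃ β, PL p α M β ∧ δ ∣ β ∧ ∀ x ∈ M, Good M x → T x ^ p ^ β = T x) ∨ ∀ x ∈ M, Good M x → T x ^ p = T x := by
  obtain ⟨h1, h2, -⟩ := big hq hM sl_perfect sl_full hle
  have h3 : ∀ e e' : E, comp e e' ∈ SL3 E := fun e e' => mem_SL3.2 (comp_det e e')
  have h4 := hle _ (h3 0 1)
  have h5 := h2 _ (h3 0 1)
  have h6 := (Fact.out : p.Prime).ne_zero
  rcases h1 with ⟨β, h8, h⟩ | ⟨β, -, h⟩ | ⟨-, h⟩ | ⟨-, -, -, h | h⟩ | ⟨-, -, -, -, h, -⟩ | ⟨-, -, -, h⟩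
  · refine .inl ⟨β, h8, dvd_of_fix hE fun e => φ.injective ?_, h⟩
    simpa [T_emb, T_comp] using h _ (hle _ (h3 e 0)) (h2 _ (h3 e 0))
  · simpa [T_emb, T_emb', T_comp, T_comp_inv, h6] using h _ h4 h5
  · simpa [T_emb, T_emb', T_comp, T_comp_inv] using h _ h4 h5
  · exact .inr h
  · simpa [T_emb, T_emb', T_comp, T_comp_inv, h6] using h _ h4 h5
  · simpa [T_emb, T_emb', T_comp, T_comp_inv] using h _ h4
  · simpa [T_emb, T_emb', T_comp, T_comp_inv, h6] using h _ h4 h5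

theorem T_su {q : ℕ} (hE : Fintype.card E = q ^ 2) {x : G3 E} (hx : x ∈ SU3 E q) : T x⁻¹ = T x ^ q :=
  (T_inv_of_herm (σ := (UP hE).σ) (pow_q_pow_q hE) (B := 1) (by simp) ((mem_GU3 hE).1 hx.1)).symm

theorem su_mem {q : ℕ} (hE : Fintype.card E = q ^ 2) {g : G3 E} :
    g ∈ SU3 E q ↔ g.val.det = 1 ∧ g.valᵀ * g.val.map (· ^ q) = 1 := by
  rw [Subgroup.mem_inf, mem_GU3 hE, mem_SL3, Matrix.mul_one, and_comm]; rfl

theorem su_gens {q : ℕ} (hE : Fintype.card E = q ^ 2) :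
    c3 E ∈ SU3 E q ∧ t3 E ∈ SU3 E q ∧ ∀ a : Eˣ, a ^ (q + 1) = 1 → dh a ∈ SU3 E q := by
  have h1 : (-1 : E) ^ q = -1 := (map_neg (frobQ hE) 1).trans (by simp)
  have h0 : q ≠ 0 := by have := two_le_of_card_sq hE; omega
  refine ⟨(su_mem hE).2 ⟨c3_det, ?_⟩, (su_mem hE).2 ⟨t3_det, ?_⟩, fun a ha => (su_mem hE).2 ⟨dh_det a, ?_⟩⟩
  · ext i j; fin_cases i <;> fin_cases j <;> simp [c3_val, Matrix.mul_apply, Fin.sum_univ_three, h0]
  · ext i j; fin_cases i <;> fin_cases j <;> simp [t3_val, Matrix.mul_apply, Fin.sum_univ_three, h0, h1]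
  · have : a.val * a.val ^ q = 1 := by simpa [pow_succ'] using congrArg Units.val ha
    ext i j; fin_cases i <;> fin_cases j <;> simp [dh_val, Matrix.mul_apply, Fin.sum_univ_three, h0, this]
    rw [← mul_inv, this, inv_one]

theorem exists_ord {n : ℕ} (h : n ∣ Fintype.card E - 1) : ∃ a : Eˣ, orderOf a = n := by
  obtain ⟨ζ, hζ⟩ := H2.El.exists_root h
  have : n ≠ 0 := by rintro rfl; have := Fintype.one_lt_card (α := E); simp at h; omega
  exact ⟨Units.mk0 ζ (hζ.ne_zero this), by rw [← orderOf_units]; exact hζ.eq_orderOf.symm⟩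

theorem exists_ord_su {q : ℕ} (hE : Fintype.card E = q ^ 2) : ∃ a : Eˣ, orderOf a = q + 1 :=
  exists_ord (by rw [hE]; exact (Nat.sq_sub_sq q 1).symm ▸ dvd_mul_right _ _)

theorem su_full {q : ℕ} (hE : Fintype.card E = q ^ 2) : Full (Geo.matrixSet (SU3 E q)) := by
  obtain ⟨a, ha⟩ := exists_ord_su hE
  exact full_dh (su_gens hE).1 ((su_gens hE).2.2 a (ha ▸ pow_orderOf_eq_one a)) (by
    rintro rfl; have := two_le_of_card_sq hE; simp at ha; omega)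

theorem ucore (hq : Fintype.card F = p ^ α) (hM : M ≤ SL3 F) {γ : ℕ} (hE : Fintype.card E = (p ^ γ) ^ 2)
    (h3 : 3 ≤ p ^ γ) (hle : ∀ x ∈ SU3 E (p ^ γ), emb φ P x ∈ M) : (∃ β, PL p α M β ∧ ∀ e : E, e ^ p ^ β = e) ∨
    ∃ β, (PU p α M β ∨ β = 1) ∧ (∀ e : E, e ^ p ^ β = e ^ p ^ γ) ∧ ∀ x ∈ M, Good M x → T x ^ p ^ β = T x⁻¹ := by
  obtain ⟨h1, h2, -⟩ := big hq hM (su_perfect hE h3) (su_full hE) hle
  have h4 : ∀ e : E, ∃ x ∈ M, Good M x ∧ T x = φ e ∧ T x⁻¹ = φ (e ^ p ^ γ) := fun e => by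
    obtain ⟨g, a, b, rfl⟩ := exists_trace_SU hE e
    have := (su_mem hE).2 ⟨a, b⟩
    exact ⟨_, hle g this, h2 g this, T_emb g, by rw [T_emb', T_su hE this]⟩
  have h5 : ∀ β, (∀ x ∈ M, Good M x → T x ^ p ^ β = T x) → ∀ e : E, e ^ p ^ β = e := fun β h e => φ.injective (by
    obtain ⟨x, a, b, c, -⟩ := h4 e
    rw [map_pow, ← c, h x a b])
  have h6 : ∀ β, (∀ x ∈ M, Good M x → T x ^ p ^ β = T x⁻¹) → ∀ e : E, e ^ p ^ β = e ^ p ^ γ := fun β h e =>
    φ.injective (by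
      obtain ⟨x, a, b, c, d⟩ := h4 e
      rw [map_pow, ← c, h x a b, d])
  obtain ⟨e, he⟩ := exists_pow_q_ne hE
  rcases h1 with ⟨β, h8, h⟩ | ⟨β, h8, h⟩ | ⟨-, h⟩ | ⟨-, -, -, h | h⟩ | ⟨-, -, -, -, h, -⟩ | ⟨-, -, -, h⟩
  · exact .inl ⟨β, h8, h5 β h⟩
  · exact .inr ⟨β, .inl h8, h6 β h, h⟩
  · exact (he (by simpa using (h6 0 (fun x a b => by simpa using (h x a b).symm) e).symm)).elim
  · exact (he (by simpa using pow_iter (h5 1 (by simpa using h) e) γ)).elim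
  · exact .inr ⟨1, .inr rfl, h6 1 (by simpa using h), by simpa using h⟩
  · obtain ⟨a, a0, a1⟩ := H7.exists_pow_ne_one_of_lt (F := E) (k := (p ^ γ - 1) * 3) (by omega) (by
      rw [hE]; obtain ⟨k, hk⟩ := Nat.exists_eq_add_of_le' h3; rw [hk]; simp; nlinarith)
    obtain ⟨x, b, -, c, d⟩ := h4 a
    have := h x b
    rw [c, d, ← map_pow, ← map_pow, ← pow_mul, ← Nat.sub_add_cancel (show 1 ≤ p ^ γ by omega), add_mul, pow_add,
      one_mul] at this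
    exact (a1 (by simpa [a0] using φ.injective this)).elim
  · exact .inr ⟨1, .inr rfl, h6 1 (by simpa using h), by simpa using h⟩

theorem ad_pow (k : ℕ) : adA (1 : E) 1 0 1 ^ k = adA 1 (k : E) 0 1 := by
  induction k with
  | zero => simp [adA, one_fin_three]
  | succ k ih => rw [pow_succ, ih]; ext i j; fin_cases i <;> fin_cases j <;> simp [adA] <;> ring

theorem ocore (hq : Fintype.card F = p ^ α) (hM : M ≤ SL3 F) {δ : ℕ} (hE : Fintype.card E = p ^ δ) (h2 : p ≠ 2)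
    (h5 : 5 ≤ p ^ δ) {b : G3 E} (hle : ∀ x ∈ om E, emb φ P (b * x * b⁻¹) ∈ M) :
    (∃ β, (PL p α M β ∨ PU p α M β) ∧ δ ∣ β) ∨ (p = 5 ∧ p ^ α % 3 = 1 ∧ δ = 1) ∨
    ∀ θ : G3 F →* G3 F, (∀ x ∈ om E, θ (emb φ P (b * x * b⁻¹)) = emb φ P (b * x * b⁻¹)) →
      (∀ x ∈ M, T x⁻¹ = T x → T (θ x) = T x) → ∀ m ∈ M, pr (θ m) = pr m := by
  have : CharP E p := φ.charP φ.injective p
  have e2 : (2 : E) ≠ 0 := fun e => h2 ((cast_iff Nat.prime_two).1 e)
  have hb : ∀ x, emb φ P (b * x * b⁻¹) = emb φ (P * gm φ b) x := fun x => by simp [emb_apply, mul_assoc]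
  simp only [hb] at hle ⊢
  obtain ⟨a, a0, a1⟩ := H7.exists_pow_ne_one_of_lt (F := E) (k := 2) (by omega) (by omega)
  obtain ⟨h1, h3, h4⟩ := big hq hM (om_perfect a0 a1) (om_full e2) hle
  have h6 : ∀ β, (∀ x ∈ M, Good M x → T x ^ p ^ β = T x ∨ T x ^ p ^ β = T x⁻¹) → δ ∣ β := fun β h => by
    have h7 : ∀ t : E, iterateFrobenius E p β (t ^ 2) = t ^ 2 := fun t => by
      obtain ⟨x, hx, e⟩ := om_mem (a := t) (b := -1) (c := 1) (d := 0) (by simp)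
      have := h _ (hle x hx) (h3 x hx)
      rw [T_emb', T_inv_of_symm (B0_det e2) (om_spec hx).2, T_emb, or_self, ← map_pow, φ.injective.eq_iff,
        show T x = t ^ 2 - 1 by simp [T, e, adA, trace_fin_three]; ring, ← iterateFrobenius_def, map_sub, map_one] at this
      exact sub_left_injective this
    refine dvd_of_fix hE fun t => mul_left_cancel₀ (mul_ne_zero e2 e2) ?_
    have h8 := h7 (t + 1)
    have h9 := h7 (t - 1)
    simp only [map_pow, map_add, map_sub, map_one, iterateFrobenius_def] at h8 h9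
    linear_combination h8 - h9 - h7 t + h7 t
  obtain ⟨u, hu, e⟩ := om_mem (a := (1 : E)) (b := 1) (c := 0) (d := 1) (by simp)
  have h7 : ∀ k : ℕ, pr (emb φ (P * gm φ b) u) ^ k = 1 → p ∣ k := fun k h => by
    rw [← map_pow, ← map_pow, pr_emb, pr_eq_one'] at h
    obtain ⟨c, h⟩ := h
    rw [Units.val_pow_eq_pow_val, e, ad_pow] at h
    simpa [adA, CharP.cast_eq_zero_iff E p] using congrFun (congrFun h 1) 2
  have hp : p.Prime := Fact.out
  have h8 : ∀ {r}, r.Prime → p ∣ r → p = r := fun h => (Nat.prime_dvd_prime_iff_eq hp h).1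
  have h9 : ¬ p ∣ 4 := fun h => h2 (h8 Nat.prime_two (hp.dvd_of_dvd_pow (n := 2) h))
  have h0 : p ^ α % p = 0 := Nat.mod_eq_zero_of_dvd (dvd_pow_self p (pos_of_card hq).ne')
  rcases h1 with ⟨β, h8, h⟩ | ⟨β, h8, h⟩ | ⟨-, h⟩ | ⟨h10, -, h11, h⟩ | ⟨h10, h11, -, h, -⟩ | ⟨h10, h11, -, h⟩
  · exact .inl ⟨β, .inl h8, h6 β fun x a b => .inl (h x a b)⟩
  · exact .inl ⟨β, .inr h8, h6 β fun x a b => .inr (h x a b)⟩
  · exact .inr (.inr fun θ a b => h4 θ a fun x c d => b x c (h x c d))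
  · obtain rfl := Nat.dvd_one.1 (h6 1 fun x a b => by simpa using h.imp (· x a b) (· x a b))
    rcases h11 _ (hle u hu) with e | e | e
    · obtain rfl := h8 Nat.prime_three (h7 _ e); omega
    · exact (h9 (h7 _ e)).elim
    · obtain rfl := h8 (by norm_num) (h7 _ e); omega
  · rcases h _ (hle u hu) with e | e | e
    · obtain rfl := h8 Nat.prime_three (h7 _ e); omega
    · exact (h9 (h7 _ e)).elim
    · exact (h10 (h8 (by norm_num) (h7 _ e))).elim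
  · exact .inr (.inl ⟨h10, h11, Nat.dvd_one.1 (h6 1 fun x a b => .inr (by simpa using h x a b))⟩)

end Cfsg.Agent.H5.X
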