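import Cfsg.Agent.H5.X8
import Cfsg.Agent.H6.T9

set_option autoImplicit false
set_option linter.unusedSectionVars false

/-! Glue lemmas for the geometric subgroups of `SL₃(q)` and `SU₃(q)`. -/

namespace Cfsg.Agent.H5.X
open Cfsg Matrix Cfsg.Agent.Asch Cfsg.Agent.Form Cfsg.Agent.H5.MH Module
open scoped commutatorElement

theorem Mx.mono {Γ : Type*} [Group Γ] {G X Y : Subgroup Γ} (h : Mx G Y) (hle : Y ≤ X) : Mx G X := fun M h1 h2 =>
  (h M ((inf_le_inf_right _ hle).trans h1) h2).imp_left (·.trans hle)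

universe u
variable {F : Type u} [Field F] [Fintype F] {p α : ℕ} [Fact p.Prime] [CharP F p] {M : Subgroup (G3 F)}

/-- elements fixed by `θ` up to scalars -/
def Tw (θ : G3 F →* G3 F) : Subgroup (G3 F) := (pr.comp θ).eqLocus pr

theorem mem_Tw {θ : G3 F →* G3 F} {g : G3 F} : g ∈ Tw θ ↔ pr (θ g) = pr g := Iff.rfl

theorem Tw_of {θ : G3 F →* G3 F} {g : G3 F} (h : θ g = g) : g ∈ Tw θ := congrArg pr h

theorem sl_conj (Q g : G3 F) : Q * g * Q⁻¹ ∈ SL3 F ↔ g ∈ SL3 F := by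
  rw [mem_SL3, mem_SL3, ← cj_coe, det_cj]

theorem conj_iff {G : Subgroup (G3 F)} {Q : G3 F} (h : Q ∈ G ⊔ ⊥) (g : G3 F) : Q * g * Q⁻¹ ∈ G ↔ g ∈ G := by
  rw [sup_bot_eq] at h
  rw [mul_mem_cancel_right (inv_mem h), mul_mem_cancel_left h]

theorem su_conj {q : ℕ} {Q : G3 F} (h : Q ∈ GU 3 F q) (g : G3 F) : Q * g * Q⁻¹ ∈ SU3 F q ↔ g ∈ SU3 F q := by
  rw [Subgroup.mem_inf, Subgroup.mem_inf, sl_conj, conj_iff (by simpa using h)]

theorem sub_of_Tw {E : Subfield F} {δ : ℕ} (hE : Nat.card E = p ^ δ) (P : G3 F) {y : G3 F}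
    (h : y ∈ Tw (gm (iterateFrobenius F p δ))) : P * y * P⁻¹ ∈ Geo.subfieldSubgroup E P := by
  obtain ⟨c, e⟩ := pr_eq_iff.1 h
  obtain ⟨i, j, h0⟩ : ∃ i j, y.val i j ≠ 0 := by
    by_contra! h0; exact y.ne_zero (Matrix.ext h0)
  have c0 := ne_zero_of_eq_smul e
  have e' : ∀ k l, y.val k l ^ p ^ δ = c * y.val k l := fun k l => congrFun (congrFun e k) l
  refine (mem_subfieldSubgroup_iff _ _ _).2 ⟨(Units.mk0 _ h0)⁻¹, fun k l => ?_⟩
  rw [← cj_coe, MH.cj_inv_cj, mem_subfield_iff, hE]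
  simp [mul_pow, e']
  field_simp

theorem sim_of_Tw {σ : F →+* F} {G : M3 F} {a : G3 F} {d : F} (h : a.valᵀ * G * a.val.map σ = d • 1) {y : G3 F}
    (hy : y ∈ Tw (dualG σ)) : a * y * a⁻¹ ∈ Geo.similarityGroup (ofG σ G) := by
  obtain ⟨c, e⟩ := pr_eq_iff.1 hy
  have c0 := ne_zero_of_eq_smul e
  have h1 : c • (y.valᵀ.map σ * y.val) = 1 := by
    rw [← Matrix.mul_smul, ← e]; exact congrArg Units.val (inv_mul_cancel (dualG σ y))
  refine ⟨(Units.mk0 c c0)⁻¹, (sim_iff _ _ _ _).2 ?_⟩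
  rw [← cj_coe, cj_form σ h]
  replace h1 := congrArg transpose h1
  rw [transpose_smul, transpose_mul, ← transpose_map, transpose_transpose, transpose_one] at h1
  simp [(eq_inv_smul_iff₀ c0).2 h1, smul_smul, mul_comm]

theorem dec_iff {D : Fin 3 → Submodule F (Fin 3 → F)} (hD : Geo.IsMDecomposition 1 D) {Q : G3 F}
    (hQ : ∀ i, D i = F ∙ (Q.val *ᵥ Pi.single i 1)) (g : G3 F) :
    Q * g * Q⁻¹ ∈ Geo.decompositionStabilizer D ↔ Mono g := by
  rw [H6.SU.mem_decomp_iff hD]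
  refine forall_congr' fun i => exists_congr fun j => ?_
  simp only [hQ, Submodule.mem_span_singleton, H7.toLE_apply, Units.val_mul, ← mulVec_mulVec]
  refine ⟨fun h => ?_, ?_⟩
  · obtain ⟨c, e⟩ := h _ ⟨1, rfl⟩
    exact ⟨c, by simpa only [mulVec_smul, inv_mulVec_mulVec, one_smul] using (congrArg ((Q⁻¹).val *ᵥ ·) e).symm⟩
  · rintro ⟨c, e⟩ _ ⟨a, rfl⟩
    exact ⟨a * c, by simp only [mulVec_smul, inv_mulVec_mulVec, e, smul_smul]⟩

theorem mono_gens : Mono (c3 F) ∧ Mono (t3 F) ∧ ∀ a, Mono (dh a : G3 F) := by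
  refine ⟨fun i => ⟨i + 1, 1, ?_⟩, fun i => ⟨![0, 2, 1] i, -1, ?_⟩, fun a i => ⟨i, (dh a).val i i, ?_⟩⟩ <;> ext j <;>
    fin_cases i <;> fin_cases j <;> simp [c3_val, t3_val, dh_val]

theorem mx_frame {G : Subgroup (G3 F)} (hq : Fintype.card F = p ^ α) (hG : G ≤ SL3 F) {a : Fˣ} (ha : 4 ≤ orderOf a)
    (h1 : c3 F ∈ G) (h2 : t3 F ∈ G) (h3 : dh a ∈ G) {D : Fin 3 → Submodule F (Fin 3 → F)}
    (hD : Geo.IsMDecomposition 1 D) {Q : G3 F} (hQ : ∀ i, D i = F ∙ (Q.val *ᵥ Pi.single i 1))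
    (hGQ : ∀ g, Q * g * Q⁻¹ ∈ G ↔ g ∈ G) (h5 : ¬ (p = 5 ∧ p ^ α % 3 = 1 ∧ orderOf a ≤ 14))
    (H : ∀ M ≤ G, ∀ β, PL p α M β ∨ PU p α M β → orderOf a ≤ p ^ β + 1 → G ≤ M) :
    Mx G (Geo.decompositionStabilizer D) := Mx.tr Q hGQ fun M h6 h7 => by
  have h8 : ∀ {k}, 0 < k → k < 4 → a ^ k ≠ 1 := fun a b => pow_ne_one_of_lt_orderOf a.ne' (by omega)
  rcases icore hq (h7.trans hG) (h8 (by omega) (by omega)) (h6 ⟨(dec_iff hD hQ _).2 mono_gens.1, h1⟩)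
    (h6 ⟨(dec_iff hD hQ _).2 mono_gens.2.1, h2⟩) (h6 ⟨(dec_iff hD hQ _).2 (mono_gens.2.2 a), h3⟩) with
    h | ⟨β, h, h'⟩ | ⟨h, -⟩ | h
  exacts [.inl fun g hg => (dec_iff hD hQ _).2 (h g hg), .inr (H M h7 β h h'), (h8 (by omega) (by omega) h).elim,
    (h5 h).elim]

theorem exists_sing {K : Subalgebra F (M3 F)} (hK : Geo.IsFieldSubalgebra 3 K) {n : ℕ}
    (h1 : n ∣ Fintype.card F ^ 3 - 1) (h2 : n.Coprime (Fintype.card F - 1)) (h7 : 1 < n) :
    ∃ k : G3 F, k.val ∈ K ∧ orderOf k = n ∧ k ∈ SL3 F ∧ k ∈ Geo.subalgebraNormalizer K ∧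
      k ^ Fintype.card F ≠ k := by
  classical
  let := fieldOf K hK.comm hK.inv
  have := Fintype.ofFinite K
  have h := Module.card_eq_pow_finrank (K := F) (V := K)
  rw [hK.finrank_eq] at h
  obtain ⟨a, ha⟩ := exists_ord (E := K) (h ▸ h1)
  let f : Kˣ →* G3 F := Units.map K.val.toMonoidHom
  have h3 : orderOf (f a) = n := by rw [orderOf_injective f (Units.map_injective Subtype.val_injective), ha]
  refine ⟨f a, a.1.2, h3, ?_, fun y => ⟨fun hy => mul_mem (mul_mem a.1.2 hy) (a⁻¹).1.2, fun hy => ?_⟩, fun e => ?_⟩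
  · exact eq_one_of_cop (a := GeneralLinearGroup.det (f a)) (by rw [← map_pow, ← h3, pow_orderOf_eq_one, map_one])
      (by rw [← Fintype.card_units, pow_card_eq_one]) h2
  · simpa [mul_assoc] using mul_mem (mul_mem (show (f a)⁻¹.val ∈ K from (a⁻¹).1.2) hy) (show (f a).val ∈ K from a.1.2)
  · rw [← Nat.sub_add_cancel Fintype.card_pos, pow_succ, mul_eq_right, ← orderOf_dvd_iff_pow_eq_one, h3] at e
    exact h7.ne' (h2.eq_one_of_dvd e)

theorem hess_tw {w : Fˣ} (ww : w.val * w.val + w.val + 1 = 0) (h3 : (3 : F) ≠ 0) {θ : G3 F →* G3 F}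
    (h1 : θ (dh w) = dh w) (h2 : θ (c3 F) = c3 F) : Geo.subgroupNormalizer (hR w 1) ≤ Tw θ := fun y hy => by
  obtain ⟨z, a, b⟩ := exists_twist θ (L := hR w 1) (M := Geo.subgroupNormalizer (hR w 1))
    (hR_le (L := θ.eqLocus (MonoidHom.id _)) (by simpa using (show _ ∈ θ.eqLocus _ from h1))
      (by simpa using (show _ ∈ θ.eqLocus _ from h2))) (hR_full ww h3)
    (fun g hg y hy => (hg y).1 hy) hy
  rw [mem_Tw, b, map_mul, a, one_mul]

theorem exists_w (h : Fintype.card F % 3 = 1) : (3 : F) ≠ 0 ∧ ∃ w : Fˣ, w.val * w.val + w.val + 1 = 0 := by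
  obtain ⟨w, hw⟩ := exists_ord (E := F) (n := 3) (by omega)
  have h1 : w.val ^ 3 = 1 := by rw [← Units.val_pow_eq_pow_val, ← hw, pow_orderOf_eq_one, Units.val_one]
  have h2 : w.val - 1 ≠ 0 := sub_ne_zero.2 fun e => by simp [show w = 1 from Units.ext e] at hw
  refine ⟨fun e => h2 (pow_eq_zero_iff three_ne_zero |>.1 (by linear_combination h1 + (w.val - w.val ^ 2) * e)), w,
    mul_left_cancel₀ h2 (by linear_combination h1)⟩

theorem exists_hR {R : Subgroup (G3 F)} (h : Fintype.card F % 3 = 1) (hR' : Geo.IsSymplecticTypeGroup 3 R)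
    (hi : Geo.ActsAbsolutelyIrreducibly (Geo.matrixSet R)) (hZ : Nat.card (Subgroup.center R) = 3)
    (h27 : 27 ≤ Nat.card R) : ∃ (w : Fˣ) (g : G3 F), w.val * w.val + w.val + 1 = 0 ∧ R = hR w g := by
  have h3 : ∀ x : R, x ^ 3 = 1 := fun x => by simpa [hR'.exponent_eq] using Monoid.pow_exponent_eq_one x
  have hf := full_iff_absIrr.2 hi
  have hn : ¬ IsMulCommutative R := fun e => by
    rw [Subgroup.center_eq_top_iff.2 e, Subgroup.card_top] at hZ; omega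
  have hc := H2.El.ncore_of_comm Nat.prime_three hf
    (H6.T.class_two hR'.pGroup hR'.cyclic_of_characteristic h3 hZ) (fun x _ => h3 x) hn
  have h1 := (pr.comp R.subtype).ker.card_mul_index
  rw [Subgroup.index_ker, MonoidHom.range_comp, Subgroup.range_subtype, show Nat.card (R.map pr) = _ from
    hc.card_map hf] at h1
  have h2 := Subgroup.card_le_of_le (show (pr.comp R.subtype).ker ≤ Subgroup.center R from fun z hz =>
    Subgroup.mem_center_iff.2 fun g => Subtype.ext (sc_central hz _))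
  obtain ⟨c3', ω, hω⟩ := exists_w h
  obtain ⟨w, a, b, g, hN⟩ := H2.El.exists_nf3 (R := R) (le_antisymm (h1 ▸ Nat.mul_le_mul_right _ (h2.trans hZ.le)) h27)
    (by simpa using hR'.exponent_eq) hn c3' hω
  have w0 : w ≠ 0 := fun e => by simpa [e] using hN.ww
  refine ⟨Units.mk0 w w0, g, hN.ww, ?_⟩
  rw [hN.gen, hR, show a = g * dh (Units.mk0 w w0) * g⁻¹ from Units.ext ?_,
    show b = g * c3 F * g⁻¹ from Units.ext hN.hb]
  rw [hN.ha, ← cj_coe, dh_val, w_inv (w := Units.mk0 w w0) hN.ww]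
  congr 1
  ext i j
  fin_cases i <;> fin_cases j <;> simp
  linear_combination hN.ww

theorem fin_SL (hq : Fintype.card F = p ^ α) {β : ℕ} (h : PL p α M β ∨ PU p α M β) :
    SL3 F ≤ M ∨ 3 ≤ p ^ β ∧ 2 * β ≤ α := by
  have := pos_of_card hq
  rcases h with h | h
  · by_cases e : β = α
    · exact .inl (h.2.2.1 e)
    obtain ⟨k, rfl⟩ := h.2.1
    exact .inr ⟨h.1, by rcases k with _ | _ | k <;> simp at e this ⊢; nlinarith⟩
  · exact .inr ⟨h.1, Nat.le_of_dvd this h.2.1⟩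

theorem fin_SU {γ : ℕ} (hq : Fintype.card F = (p ^ γ) ^ 2) (hM : M ≤ SU3 F (p ^ γ)) {β : ℕ}
    (h : PL p (2 * γ) M β ∨ PU p (2 * γ) M β) : SU3 F (p ^ γ) ≤ M ∨ 3 ≤ p ^ β ∧ β ∣ γ ∧ 2 * β ≤ γ := by
  have := pos_of_card (hq.trans (pow_mul p γ 2).symm)
  rcases h with ⟨-, -, -, x, hx, h1, h2⟩ | h
  · have := T_su hq (hM hx)
    simp [h1, h2, (Fact.out : p.Prime).ne_zero] at this
  by_cases e : β = γ
  · subst e; exact .inl (h.2.2 rfl hM)
  obtain ⟨k, rfl⟩ := Nat.dvd_of_mul_dvd_mul_left two_pos h.2.1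
  exact .inr ⟨h.1, dvd_mul_right _ _, by rcases k with _ | _ | k <;> simp at e this ⊢; nlinarith⟩

end Cfsg.Agent.H5.X
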