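import Cfsg.Agent.H7.BS

/-! The two facts about the principal 2-block needed for the `Z*`-theorem. -/

set_option autoImplicit false
set_option linter.unusedSectionVars false

namespace Cfsg.Agent.H5.ZStar

open Cfsg Finset Module Cfsg.Agent.H5.Char
open scoped ComplexConjugate

theorem trace_zero {E : Type*} [Ring E] [Algebra ℂ E] (tr : E →ₗ[ℂ] ℂ) (htr : ∀ x y, tr (x * y) = tr (y * x))
    {s g f b : E} {m c : ℂ} (h1 : f * b = m • b) (h2 : b * f = m • b) (h3 : b + s * b * s = c • f)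
    (hs : s * s = 1) (hfs : f * s = s * f) (hfg : f * g = g * f) (hbg : b * g = g * b)
    (hu : IsUnit ((2 : ℂ) • b - (c * m) • 1)) : tr (s * g * f) = 0 := by
  obtain ⟨y, hy⟩ := hu
  have e1 : b * (s * g * f) = m • (b * s * g) := by
    rw [mul_assoc s, ← hfg, ← mul_assoc s, ← hfs, ← mul_assoc, ← mul_assoc, h2]
    simp only [smul_mul_assoc]
  have e2 : s * g * f * b = m • (s * b * g) := by
    rw [mul_assoc, h1, mul_smul_comm, mul_assoc, ← hbg, mul_assoc]
  have e3 : b * s * g + s * b * g = c • (s * g * f) := by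
    have := congrArg (· * s * g) h3
    simp only [add_mul, smul_mul_assoc, mul_assoc _ s s, hs, mul_one] at this
    rw [this, hfs, mul_assoc, hfg, mul_assoc]
  have e4 : y * (s * g * f) = -(s * g * f * y) := by
    rw [hy, sub_mul, mul_sub, smul_mul_assoc, mul_smul_comm, e1, e2, smul_mul_assoc, mul_smul_comm, one_mul,
      mul_one, eq_neg_iff_add_eq_zero]
    have : (c * m) • (s * g * f) = m • (b * s * g) + m • (s * b * g) := by
      rw [← smul_add, e3, smul_smul, mul_comm]
    rw [this]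
    module
  have e5 : tr (s * g * f) = -tr (s * g * f) := by
    calc tr (s * g * f) = tr (y * (s * g * f) * ↑y⁻¹) := by
          rw [htr (y * _), ← mul_assoc, Units.inv_mul, one_mul]
      _ = _ := by rw [e4, neg_mul, Units.mul_inv_cancel_right, map_neg]
  linear_combination (1 / 2 : ℂ) * e5

/-- algebraic integers -/
abbrev R : Type := integralClosure ℤ ℂ

theorem exists_prime : ∃ P : Ideal R, P.IsPrime ∧ (2 : R) ∈ P := by
  obtain ⟨P, hP, h⟩ := Ideal.exists_le_maximal (Ideal.span {(2 : R)}) fun h => by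
    obtain ⟨r, hr⟩ := Ideal.mem_span_singleton'.1 (h ▸ Submodule.mem_top : (1 : R) ∈ _)
    have h1 : (r : ℂ) * 2 = 1 := congrArg Subtype.val hr
    have := dvd_of_isIntegral (a := 1) (b := 2) (by decide) (by
      rw [show ((1 : ℤ) : ℂ) / (2 : ℤ) = r by push_cast; rw [← h1]; ring]; exact r.2)
    omega
  exact ⟨P, hP.isPrime, h (Ideal.mem_span_singleton_self _)⟩

/-- a prime above two -/
noncomputable def 𝔭 : Ideal R := exists_prime.choose

theorem 𝔭_prime : 𝔭.IsPrime := exists_prime.choose_spec.1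

theorem two_mem : (2 : R) ∈ 𝔭 := exists_prime.choose_spec.2

theorem odd_notMem {n : ℕ} (h : Odd n) : (n : R) ∉ 𝔭 := fun e => by
  obtain ⟨k, rfl⟩ := h
  refine 𝔭_prime.ne_top ((Ideal.eq_top_iff_one _).2 ?_)
  have := 𝔭.sub_mem e (𝔭.mul_mem_right (k : R) two_mem)
  push_cast at this
  simpa using this

theorem not_half {u : R} (hu : u ∉ 𝔭) : ¬ IsIntegral ℤ ((u : ℂ) / 2) := fun h => hu (by
  have : u = 2 * ⟨_, h⟩ := Subtype.ext (show (u : ℂ) = 2 * (u / 2) by ring)
  rw [this]
  exact 𝔭.mul_mem_right _ two_mem)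

variable {G : Type*} [Group G] [Fintype G]

theorem eig_int {V : Type*} [AddCommGroup V] [Module ℂ V] (ρ : Representation ℂ G V) {b : End ℂ V}
    (hb : b ∈ Submodule.span ℤ (Set.range ρ)) {v : V} (hv : v ≠ 0) {μ : ℂ} (h : b v = μ • v) :
    IsIntegral ℤ μ := by
  have key : ∀ g, ∀ b ∈ Submodule.span ℤ (Set.range ρ),
      ρ g (b v) ∈ Submodule.span ℤ (Set.range fun g => ρ g v) := fun g b hb => by
    induction hb using Submodule.span_induction with
    | mem x hx =>
      obtain ⟨k, rfl⟩ := hx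
      exact Submodule.subset_span ⟨g * k, by simp⟩
    | zero => simp
    | add a b _ _ ha hb => simpa using Submodule.add_mem _ ha hb
    | smul a b _ hb => simpa using Submodule.smul_mem _ a hb
  refine isIntegral_of_smul_mem_submodule (Submodule.span ℤ (Set.range fun g => ρ g v))
    (fun e => hv (by simpa using Submodule.span_eq_bot.mp e _ ⟨1, rfl⟩))
    (Submodule.fg_span (Set.finite_range _)) _ fun w hw => ?_
  induction hw using Submodule.span_induction with
  | mem x hx =>
    obtain ⟨g, rfl⟩ := hx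
    simpa [h] using key g b hb
  | zero => simp
  | add a b _ _ ha hb => rw [smul_add]; exact Submodule.add_mem _ ha hb
  | smul a b _ hb => rw [smul_comm]; exact Submodule.smul_mem _ _ hb

open Classical in
/-- the elements of odd order -/
noncomputable def O (G : Type*) [Group G] [Fintype G] : Finset G := univ.filter fun g => Odd (orderOf g)

theorem mem_O {g : G} : g ∈ O G ↔ Odd (orderOf g) := by simp [O]

theorem conj_mem_O {g : G} (h : G) : h * g * h⁻¹ ∈ O G ↔ g ∈ O G := by
  rw [mem_O, mem_O, ← MulAut.conj_apply, MulEquiv.orderOf_eq]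

theorem odd_card_O : Odd (O G).card := by
  classical
  have h := Finset.sum_involution (s := (O G).erase 1) (f := fun _ => (1 : ZMod 2)) (fun g _ => g⁻¹)
    (fun _ _ => rfl) (fun g hg _ e => (mem_erase.1 hg).1 (H5.Odd.eq_one_of_sq_of_odd
      (mem_O.1 (mem_erase.1 hg).2) (by nth_rw 1 [← e]; exact inv_mul_cancel g)))
    (fun g hg => by simpa [mem_O] using hg) (fun g _ => inv_inv g)
  rw [sum_const, nsmul_eq_mul, mul_one, ZMod.natCast_eq_zero_iff_even] at h
  rw [← card_erase_add_one (a := 1) (mem_O.2 (by simp))]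
  exact h.add_one

theorem exists_scalar {n : ℕ} {ρ : Representation ℂ G (Fin n → ℂ)} (hρ : ρ.IsIrreducible) :
    ∃ (c : ℂ) (v : Fin n → ℂ), v ≠ 0 ∧ ∑ g ∈ O G, ρ g = c • 1 := by
  let A : End ℂ (Fin n → ℂ) := ∑ g ∈ O G, ρ g
  have hA : ∀ g, ρ g * A = A * ρ g := fun g => by
    simp only [A, Finset.mul_sum, Finset.sum_mul, ← map_mul]
    exact sum_equiv (MulAut.conj g).toEquiv (fun y => (conj_mem_O g).symm) fun y _ => by simp
  have hnt : Nontrivial (Fin n → ℂ) := by
    by_contra h
    rw [not_nontrivial_iff_subsingleton] at h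
    exact (bot_ne_top (α := Subrepresentation ρ)) (Subrepresentation.ext (Subsingleton.elim _ _))
  obtain ⟨c, hc⟩ := End.exists_eigenvalue A
  let U : Subrepresentation ρ := ⟨A.eigenspace c, fun g v hv => by
    rw [End.mem_eigenspace_iff] at hv ⊢
    rw [← End.mul_apply, ← hA, End.mul_apply, hv, map_smul]⟩
  have hU : U = ⊤ := (eq_bot_or_eq_top U).resolve_left fun h =>
    hc (congrArg Subrepresentation.toSubmodule h)
  obtain ⟨v, hv⟩ := exists_ne (0 : Fin n → ℂ)
  exact ⟨c, v, hv, LinearMap.ext fun v =>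
    End.mem_eigenspace_iff.mp (show v ∈ U.toSubmodule by rw [hU]; trivial)⟩

theorem scalar_eq {n : ℕ} {ρ : Representation ℂ G (Fin n → ℂ)} {c : ℂ} (h0 : ρ.character 1 ≠ 0)
    (h : ∑ g ∈ O G, ρ g = c • 1) : (∑ g ∈ O G, ρ.character g) / ρ.character 1 = c := by
  have := congrArg (LinearMap.trace ℂ _) h
  rw [map_sum, map_smul, ← map_one ρ] at this
  rw [div_eq_iff h0]
  exact this

theorem w_int (χ : Irr G) : IsIntegral ℤ ((∑ g ∈ O G, χ.1 g) / χ.1 1) := by
  have h0 := deg_ne χ
  obtain ⟨χ, n, ρ, hρ, rfl⟩ := χ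
  obtain ⟨c, v, hv, h⟩ := exists_scalar hρ
  rw [scalar_eq h0 h]
  exact eig_int ρ (b := ∑ g ∈ O G, ρ g) (Submodule.sum_mem _ fun g _ => Submodule.subset_span ⟨g, rfl⟩) hv
    (by rw [h]; rfl)

/-- the central character at the sum of the elements of odd order -/
noncomputable def w (χ : Irr G) : R := ⟨_, w_int χ⟩

theorem w_triv : w (triv G) ∉ 𝔭 := by
  have : w (triv G) = (O G).card := Subtype.ext (by simp [w, triv_apply])
  rw [this]
  exact odd_notMem odd_card_O

theorem exists_half {α : Type*} [Fintype α] (σ : α → α) (hσ : ∀ x, σ (σ x) = x) :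
    ∃ e : α → ℤ, ∀ x, σ x ≠ x → e x + e (σ x) = 1 := by
  let i := Fintype.equivFin α
  refine ⟨fun x => if i x < i (σ x) then 1 else 0, fun x hx => ?_⟩
  have : i (σ x) ≠ i x := i.injective.ne hx
  simp only [hσ]
  split_ifs <;> omega

/-- characters in the principal block are constant on `v O(C(v))` -/
theorem const_on {χ : Irr G} (hχ : w χ ∉ 𝔭) {v : G} (hv : v * v = 1) (N : Subgroup G)
    (hN : Odd (Nat.card N)) (hNv : ∀ n ∈ N, n * v = v * n)
    (hn : ∀ c, c * v = v * c → ∀ n ∈ N, c * n * c⁻¹ ∈ N) {u : G} (hu : u ∈ N) :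
    χ.1 (v * u) = χ.1 v := by
  classical
  have h0 := deg_ne χ
  obtain ⟨χ, n, ρ, hρ, rfl⟩ := χ
  obtain ⟨c, -, -, h⟩ := exists_scalar hρ
  have hc : (w ⟨_, n, ρ, hρ, rfl⟩ : ℂ) = c := scalar_eq h0 h
  generalize w ⟨_, n, ρ, hρ, rfl⟩ = ω at hχ hc
  subst hc
  let S := univ.filter (· ∈ N)
  have mS : ∀ {x}, x ∈ S ↔ x ∈ N := by simp [S]
  have cS : S.card = Nat.card N := by rw [Nat.card_eq_fintype_card, Fintype.card_subtype]
  let T : End ℂ (Fin n → ℂ) := ∑ x ∈ S, ρ x
  have hT1 : ∀ x ∈ N, ρ x * T = T := fun x hx => by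
    simp only [T, Finset.mul_sum, ← map_mul]
    exact sum_equiv (Equiv.mulLeft x) (fun y => by simp [mS, N.mul_mem_cancel_left hx]) fun y _ => rfl
  have hT2 : ∀ x ∈ N, T * ρ x = T := fun x hx => by
    simp only [T, Finset.sum_mul, ← map_mul]
    exact sum_equiv (Equiv.mulRight x) (fun y => by simp [mS, N.mul_mem_cancel_right hx]) fun y _ => rfl
  let f : End ℂ (Fin n → ℂ) := (S.card : ℂ) • 1 - T
  have hf : ∀ x ∈ N, f * ρ x = ρ x * f := fun x hx => by simp [f, sub_mul, mul_sub, hT1 x hx, hT2 x hx]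
  have hfv : f * ρ v = ρ v * f := by
    simp only [f, T, sub_mul, mul_sub, Finset.mul_sum, Finset.sum_mul, ← map_mul, smul_mul_assoc,
      mul_smul_comm, one_mul, mul_one]
    exact congrArg _ (sum_congr rfl fun x hx => by rw [hNv x (mS.1 hx)])
  have hff : f * f = (S.card : ℂ) • f := by
    have : T * T = (S.card : ℂ) • T := by
      show (∑ x ∈ S, ρ x) * T = _
      rw [Finset.sum_mul, sum_congr rfl fun x hx => hT1 x (mS.1 hx), sum_const, Nat.cast_smul_eq_nsmul]
    simp only [f, sub_mul, mul_sub, smul_mul_assoc, mul_smul_comm, one_mul, mul_one, this]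
    module
  obtain ⟨e, he⟩ := exists_half (fun g : G => v * g * v) fun g => by
    simp [mul_assoc, hv, ← mul_assoc v v]
  let X := (O G).filter fun g => ¬ g * v = v * g
  let a₀ : End ℂ (Fin n → ℂ) := ∑ g ∈ X, e g • ρ g
  have vi : v⁻¹ = v := inv_eq_of_mul_eq_one_right hv
  have ha₀ : a₀ + ρ v * a₀ * ρ v = ∑ g ∈ X, ρ g := by
    have : ρ v * a₀ * ρ v = ∑ g ∈ X, e (v * g * v) • ρ g := by
      simp only [a₀, Finset.mul_sum, Finset.sum_mul, mul_smul_comm, smul_mul_assoc, ← map_mul]
      refine sum_equiv (MulAut.conj v).toEquiv (fun y => ?_) fun y _ => by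
        simp [vi, mul_assoc, hv, ← mul_assoc v v]
      simp only [X, mem_filter, MulEquiv.toEquiv_eq_coe, EquivLike.coe_coe, MulAut.conj_apply, conj_mem_O]
      rw [vi, mul_assoc _ v v, hv, mul_one, ← mul_assoc, ← mul_assoc, hv, one_mul, eq_comm]
    rw [this, ← sum_add_distrib]
    refine sum_congr rfl fun g hg => ?_
    rw [← add_smul, he g fun e => (mem_filter.1 hg).2 (by
      nth_rw 1 [← e]; rw [mul_assoc, hv, mul_one]),
      one_smul]
  have hX : (∑ g ∈ X, ρ g) * f = (ω : ℂ) • f := by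
    have h1 := sum_filter_add_sum_filter_not (O G) (fun g => g * v = v * g) ρ
    have h2 : ∀ x ∈ N, (∑ g ∈ (O G).filter fun g => g * v = v * g, ρ g) * ρ x =
        ∑ g ∈ (O G).filter fun g => g * v = v * g, ρ g := fun x hx => by
      have key : ∀ x ∈ N, ∀ y, y ∈ (O G).filter (fun g => g * v = v * g) →
          y * x ∈ (O G).filter fun g => g * v = v * g := fun x hx y hy => by
        simp only [mem_filter, mem_O] at hy ⊢
        refine ⟨?_, by rw [mul_assoc, hNv x hx, ← mul_assoc, hy.2, mul_assoc]⟩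
        have h3 : ∀ k : ℕ, (y * x) ^ k * (y ^ k)⁻¹ ∈ N := fun k => by
          induction k with
          | zero => simp
          | succ k ih =>
            rw [pow_succ', pow_succ', show y * x * (y * x) ^ k * (y * y ^ k)⁻¹ =
              y * (x * ((y * x) ^ k * (y ^ k)⁻¹)) * y⁻¹ by group]
            exact hn y hy.2 _ (N.mul_mem hx ih)
        have h4 := h3 (orderOf y)
        rw [pow_orderOf_eq_one, inv_one, mul_one] at h4
        refine (hy.1.mul (H5.Odd.odd_orderOf_of_mem hN h4)).of_dvd_nat (orderOf_dvd_of_pow_eq_one ?_)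
        rw [pow_mul, pow_orderOf_eq_one]
      simp only [Finset.sum_mul, ← map_mul]
      exact sum_equiv (Equiv.mulRight x) (fun y => ⟨key x hx y, fun h => by
        simpa using key _ (N.inv_mem hx) _ h⟩) fun y _ => rfl
    rw [h] at h1
    rw [← sub_eq_iff_eq_add'.2 h1.symm, sub_mul, smul_mul_assoc, one_mul, sub_eq_self]
    simp only [f, T, mul_sub, mul_smul_comm, mul_one, Finset.mul_sum]
    rw [sum_congr rfl fun x hx => h2 x (mS.1 hx), sum_const, Nat.cast_smul_eq_nsmul, sub_self]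
  let a₁ : End ℂ (Fin n → ℂ) := ∑ x ∈ S, ρ x * a₀ * ρ x⁻¹
  have ha₁ : ∀ x ∈ N, a₁ * ρ x = ρ x * a₁ := fun x hx => by
    simp only [a₁, Finset.mul_sum, Finset.sum_mul]
    exact (sum_equiv (Equiv.mulLeft x) (fun y => by simp [mS, N.mul_mem_cancel_left hx]) fun y _ => by
      simp only [Equiv.coe_mulLeft, mul_assoc, ← map_mul, mul_inv_rev, inv_mul_cancel, mul_one]
      simp only [map_mul, mul_assoc]).symm
  have hfa : f * a₁ = a₁ * f := by
    simp only [f, T, sub_mul, mul_sub, Finset.mul_sum, Finset.sum_mul, smul_mul_assoc,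
      mul_smul_comm, one_mul, mul_one]
    exact congrArg _ (sum_congr rfl fun x hx => (ha₁ x (mS.1 hx)).symm)
  have h3 : a₁ * f + ρ v * (a₁ * f) * ρ v = ((S.card : ℂ) * ω) • f := by
    rw [mul_assoc, mul_assoc, hfv, ← mul_assoc, ← mul_assoc, ← add_mul]
    simp only [a₁, Finset.mul_sum, Finset.sum_mul, ← sum_add_distrib]
    rw [sum_congr rfl (g := fun _ => (ω : ℂ) • f) fun x hx => ?_, sum_const, ← Nat.cast_smul_eq_nsmul ℂ,
      smul_smul]
    have e1 : ρ v * ρ x = ρ x * ρ v := by rw [← map_mul, ← map_mul, hNv x (mS.1 hx)]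
    have e2 : ρ x⁻¹ * ρ v = ρ v * ρ x⁻¹ := by rw [← map_mul, ← map_mul, hNv _ (N.inv_mem (mS.1 hx))]
    calc _ = ρ x * ((a₀ + ρ v * a₀ * ρ v) * f) * ρ x⁻¹ := by
          simp only [add_mul, mul_add, mul_assoc, hf _ (N.inv_mem (mS.1 hx)), e2]
          simp only [← mul_assoc, e1, ← e2]
      _ = _ := by
          rw [ha₀, hX, mul_smul_comm, smul_mul_assoc, ← hf x (mS.1 hx), mul_assoc, ← map_mul, mul_inv_cancel,
            map_one, mul_one]
  have hspan : a₁ * f ∈ Submodule.span ℤ (Set.range ρ) := by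
    have hρ : ∀ g, ρ g ∈ Submodule.span ℤ (Set.range ρ) := fun g => Submodule.subset_span ⟨_, rfl⟩
    have : f = ∑ y ∈ S, (1 - ρ y) := by
      rw [sum_sub_distrib, sum_const, ← Nat.cast_smul_eq_nsmul ℂ]
    simp only [a₁, a₀, this, Finset.mul_sum, Finset.sum_mul, mul_smul_comm, smul_mul_assoc, mul_sub,
      mul_one, ← map_mul]
    exact Submodule.sum_mem _ fun x _ => Submodule.sub_mem _
      (Submodule.sum_mem _ fun g _ => Submodule.sum_mem _ fun y _ => Submodule.smul_mem _ _ (hρ _))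
      (Submodule.sum_mem _ fun g _ => Submodule.sum_mem _ fun y _ => Submodule.smul_mem _ _ (hρ _))
  have hS : (S.card : R) ∉ 𝔭 := odd_notMem (cS ▸ hN)
  have key : ∀ g ∈ N, S.card * ρ.character (v * g) = ∑ x ∈ S, ρ.character (v * x) := fun g hg => by
    have := trace_zero (LinearMap.trace ℂ _) (LinearMap.trace_mul_comm ℂ) (g := ρ g)
      (by rw [← mul_assoc, hfa, mul_assoc, hff, mul_smul_comm]) (by rw [mul_assoc, hff, mul_smul_comm]) h3
      (by rw [← map_mul, hv, map_one]) hfv (hf g hg)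
      (by rw [mul_assoc, hf g hg, ← mul_assoc, ha₁ g hg, mul_assoc]) (by
        rw [LinearMap.isUnit_iff_ker_eq_bot, LinearMap.ker_eq_bot']
        intro z hz
        by_contra z0
        refine not_half (u := S.card * ω * S.card) (fun e => ?_) (eig_int ρ hspan z0 ?_)
        · exact ((𝔭_prime.mem_or_mem e).elim (fun e => (𝔭_prime.mem_or_mem e).elim hS hχ) hS)
        · rw [LinearMap.sub_apply, sub_eq_zero, LinearMap.smul_apply] at hz
          rw [← one_smul ℂ ((a₁ * f) z), show (1 : ℂ) = 2⁻¹ * 2 by norm_num, mul_smul, hz]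
          simp [smul_smul, div_eq_inv_mul])
    rw [mul_sub, mul_assoc _ _ T, hT1 g hg, map_sub, sub_eq_zero, mul_smul_comm, mul_one, map_smul,
      Finset.mul_sum, map_sum] at this
    simp only [← map_mul] at this
    exact this
  have h4 := (key u hu).trans (key 1 N.one_mem).symm
  rw [mul_one] at h4
  exact mul_left_cancel₀ (by rw [cS]; exact card_ne) h4

end Cfsg.Agent.H5.ZStar
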