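import Cfsg.Agent.H5.ZS1

/-! The block idempotent vanishes at involutions. -/

set_option autoImplicit false
set_option linter.unusedSectionVars false

namespace Cfsg.Agent.H5.ZStar

open Cfsg Finset Module Cfsg.Agent.H5.Char
open scoped ComplexConjugate

variable {G : Type*} [Group G] [Fintype G]

/-- convolution -/
def conv (F F' : G → ℂ) (x : G) : ℂ := ∑ y, F y * F' (y⁻¹ * x)

theorem conv_cl {F F' : G → ℂ} (hF : IsClassFunction G F) (hF' : IsClassFunction G F') :
    IsClassFunction G (conv F F') := fun g h =>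
  (Fintype.sum_equiv (MulAut.conj h).toEquiv _ _ fun y => by
    simp only [MulEquiv.toEquiv_eq_coe, EquivLike.coe_coe, MulAut.conj_apply, hF y h]
    rw [← hF' _ h]
    congr 2
    group).symm

theorem conv_sum (F : G → ℂ) {F' : G → ℂ} (hF' : IsClassFunction G F') (χ : Irr G) :
    ∑ x, conv F F' x * χ.1 x = (∑ x, F x * χ.1 x) * (∑ x, F' x * χ.1 x) / χ.1 1 := by
  simp only [conv, sum_mul]
  rw [sum_comm, sum_div]
  refine sum_congr rfl fun y _ => ?_
  rw [show F y * χ.1 y * (∑ x, F' x * χ.1 x) / χ.1 1 = F y * ((∑ x, F' x * χ.1 x) * χ.1 y / χ.1 1) by ring,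
    ← central χ hF', Finset.mul_sum]
  refine (Fintype.sum_equiv (Equiv.mulLeft y) _ _ fun x => ?_).symm
  rw [Equiv.coe_mulLeft, inv_mul_cancel_left, mul_assoc, ← cl χ (x * y) y, ← mul_assoc y, mul_inv_cancel_right]

theorem recover {F : G → ℂ} (hF : IsClassFunction G F) (y : G) :
    Nat.card G * F y⁻¹ = ∑ χ : Irr G, (∑ g, F g * χ.1 g) * χ.1 y := by
  have := expand (f := fun g => F g⁻¹) (fun g h => by
    simp only [conj_inv, hF g⁻¹ h]) y
  rw [this, Finset.mul_sum]
  refine sum_congr rfl fun χ _ => ?_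
  rw [classInner, mul_assoc, mul_inv_cancel_left₀ card_ne]
  congr 1
  exact Fintype.sum_equiv (Equiv.inv G) _ _ fun g => by simp [conj_irr]

/-- central characters of the integral class functions -/
noncomputable def 𝒜 (G : Type*) [Group G] [Fintype G] : Subalgebra R (Irr G → R) where
  carrier := {φ | ∃ F : G → ℂ, IsClassFunction G F ∧ (∀ g, IsIntegral ℤ (F g)) ∧
    ∀ χ : Irr G, ∑ g, F g * χ.1 g = φ χ * χ.1 1}
  mul_mem' := by
    rintro φ φ' ⟨F, a1, a2, a3⟩ ⟨F', b1, b2, b3⟩
    refine ⟨conv F F', conv_cl a1 b1, fun g => .sum _ fun y _ => (a2 _).mul (b2 _), fun χ => ?_⟩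
    have := deg_ne χ
    rw [conv_sum F b1, a3, b3, Pi.mul_apply, MulMemClass.coe_mul]
    field_simp
  add_mem' := by
    rintro φ φ' ⟨F, a1, a2, a3⟩ ⟨F', b1, b2, b3⟩
    refine ⟨F + F', fun g h => by simp only [Pi.add_apply, a1 g h, b1 g h], fun g => (a2 _).add (b2 _),
      fun χ => ?_⟩
    simp only [Pi.add_apply, add_mul, sum_add_distrib, a3, b3, AddMemClass.coe_add]
  algebraMap_mem' r := by
    classical
    refine ⟨fun g => if g = 1 then r else 0, fun g h => by simp [mul_inv_eq_one], fun g => ?_,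
      fun χ => by simp⟩
    dsimp only
    split_ifs
    exacts [r.2, isIntegral_zero]

theorem w_mem : w ∈ 𝒜 G := by
  classical
  refine ⟨fun g => if g ∈ O G then 1 else 0, fun g h => by simp only [conj_mem_O], fun g => ?_,
    fun χ => ?_⟩
  · dsimp only
    split_ifs
    exacts [isIntegral_one, isIntegral_zero]
  · simp [w, div_mul_cancel₀ _ (deg_ne χ)]

open Classical in
theorem exists_idem : ∃ u : R, u ∉ 𝔭 ∧ (fun χ => if w χ ∉ 𝔭 then u else 0) ∈ 𝒜 G := by
  have := 𝔭_prime
  let B : Finset (Irr G) := univ.filter fun χ => w χ ∉ 𝔭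
  let P : Irr G → R := ∏ ψ ∈ Bᶜ, (w - algebraMap R _ (w ψ))
  have hP : P ∈ 𝒜 G := prod_mem fun ψ _ => sub_mem w_mem ((𝒜 G).algebraMap_mem _)
  have h1 : ∀ χ, w χ ∈ 𝔭 → P χ = 0 := fun χ h => by
    simp only [P, Finset.prod_apply]
    exact prod_eq_zero (i := χ) (by simpa [B] using h) (by simp)
  have h2 : ∀ χ, w χ ∉ 𝔭 → P χ ∉ 𝔭 := fun χ h e => by
    simp only [P, Finset.prod_apply, Ideal.IsPrime.prod_mem_iff] at e
    obtain ⟨ψ, a, b⟩ := e
    exact h (by simpa using 𝔭.add_mem b (show w ψ ∈ 𝔭 by simpa [B] using a))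
  refine ⟨∏ ψ ∈ B, -P ψ, fun e => ?_, ?_⟩
  · obtain ⟨ψ, a, b⟩ := Ideal.IsPrime.prod_mem_iff.1 e
    exact h2 ψ (mem_filter.1 a).2 (neg_mem_iff.1 b)
  · convert sub_mem ((𝒜 G).algebraMap_mem (∏ ψ ∈ B, -P ψ))
      (prod_mem (t := B) fun ψ _ => sub_mem hP ((𝒜 G).algebraMap_mem (P ψ))) using 1
    funext χ
    rw [Pi.sub_apply, Finset.prod_apply]
    split_ifs with h
    · simp [h1 χ h]
    · rw [prod_eq_zero (s := B) (f := fun c => (P - algebraMap R _ (P c)) χ) (i := χ)
        (by simpa [B] using h) (by simp)]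
      simp

theorem unit_of_int [DecidableEq G] {b : Matrix G G ℂ} (hb : ∀ i j, IsIntegral ℤ (b i j)) {μ : ℂ}
    (hμ : ¬ IsIntegral ℤ (μ / 2)) : IsUnit ((2 : ℂ) • b - μ • 1) := by
  let B : Matrix G G R := fun i j => ⟨b i j, hb i j⟩
  have e : (2 : ℂ) • b - μ • 1 = (-2 : ℂ) • (Matrix.scalar G (μ / 2) - B.map (algebraMap R ℂ)) := by
    rw [Matrix.scalar_apply, ← Matrix.smul_one_eq_diagonal, show B.map (algebraMap R ℂ) = b from rfl]
    module
  rw [Matrix.isUnit_iff_isUnit_det, e, Matrix.det_smul, ← Matrix.eval_charpoly, Matrix.charpoly_map,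
    isUnit_iff_ne_zero]
  refine mul_ne_zero (pow_ne_zero _ (by norm_num)) fun h => hμ ?_
  exact isIntegral_trans (A := R) _ ⟨B.charpoly, B.charpoly_monic, by rwa [Polynomial.eval₂_eq_eval_map]⟩

open Classical in
/-- block orthogonality at an involution -/
theorem orth {s : G} (hs : s * s = 1) (s1 : s ≠ 1) :
    ∑ χ : Irr G with w χ ∉ 𝔭, χ.1 1 * χ.1 s = 0 := by
  obtain ⟨u, hu, F, a1, a2, a3⟩ := exists_idem (G := G)
  dsimp only at a3
  have si : s⁻¹ = s := inv_eq_of_mul_eq_one_right hs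
  let L : (G → ℂ) → Matrix G G ℂ := fun F => .of fun g h => F (g * h⁻¹)
  have hL : ∀ F F', L F * L F' = L (conv F F') := fun F F' => by
    ext g h
    simp only [L, Matrix.mul_apply, Matrix.of_apply, conv]
    exact Fintype.sum_equiv ((Equiv.inv G).trans (Equiv.mulLeft g)) _ _ fun k => by simp [mul_assoc]
  have hFF : L F * L F = (u : ℂ) • L F := by
    rw [hL]
    ext g h
    apply mul_left_cancel₀ (card_ne (G := G))
    simp only [L, Matrix.of_apply, Matrix.smul_apply, smul_eq_mul]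
    rw [← inv_inv (g * h⁻¹), mul_left_comm, recover (conv_cl a1 a1), recover a1, Finset.mul_sum]
    refine sum_congr rfl fun χ _ => ?_
    have := deg_ne χ
    rw [conv_sum F a1, a3]
    split_ifs
    · simp
    · field_simp
  let P := L fun x => if x = s then 1 else 0
  obtain ⟨e, he⟩ := exists_half (fun g : G => s * g) fun g => by rw [← mul_assoc, hs, one_mul]
  let a : Matrix G G ℂ := .diagonal fun g => e g
  have hP1 : ∀ (A : Matrix G G ℂ) g h, (P * A) g h = A (s * g) h := fun A g h => by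
    simp only [P, L, Matrix.mul_apply, Matrix.of_apply, ite_mul, one_mul, zero_mul]
    rw [sum_eq_single (s * g) (fun k _ hk => if_neg fun e => hk (by rw [← si, ← e]; simp)) (by simp),
      if_pos (by simp [si])]
  have hP2 : ∀ (A : Matrix G G ℂ) g h, (A * P) g h = A g (s * h) := fun A g h => by
    simp only [P, L, Matrix.mul_apply, Matrix.of_apply, mul_ite, mul_one, mul_zero]
    rw [sum_eq_single (s * h) (fun k _ hk => if_neg fun e => hk (by rw [← e]; simp)) (by simp),
      if_pos (by simp)]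
  have hfs : L F * P = P * L F := by
    ext g h
    rw [hP1, hP2]
    simp only [L, Matrix.of_apply]
    rw [← a1 _ s]
    congr 1
    simp [si, mul_assoc, hs]
  have ha : a + P * a * P = 1 := by
    ext g h
    rw [Matrix.add_apply, hP2, hP1]
    simp only [a, Matrix.diagonal_apply, mul_right_inj, Matrix.one_apply]
    split_ifs
    · exact_mod_cast he g (by simpa using s1)
    · simp
  have := trace_zero (Matrix.traceLinearMap G ℂ ℂ) Matrix.trace_mul_comm (s := P) (g := 1) (f := L F)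
    (b := L F * a * L F) (m := u) (c := u)
    (by rw [← mul_assoc, ← mul_assoc, hFF, smul_mul_assoc, smul_mul_assoc])
    (by rw [mul_assoc, hFF, mul_smul_comm])
    (by rw [← hFF, mul_assoc P, mul_assoc _ _ P, hfs, ← mul_assoc, ← mul_assoc, ← mul_assoc, ← hfs, ← add_mul,
      mul_assoc (L F * P), mul_assoc (L F) P, ← mul_add, ← mul_assoc P, ha, mul_one])
    (by ext g h; rw [hP1]; simp [P, L, Matrix.one_apply, mul_assoc, mul_inv_eq_one]) hfs (by simp) (by simp)
    (unit_of_int (fun g h => by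
      simp only [Matrix.mul_apply (M := L F * a), a, Matrix.mul_diagonal]
      exact .sum _ fun k _ => ((a2 _).mul (isIntegral_intCast _)).mul (a2 _))
      (not_half (u := u * u) fun e => (𝔭_prime.mem_or_mem e).elim hu hu))
  rw [mul_one, Matrix.traceLinearMap_apply, Matrix.trace] at this
  simp only [Matrix.diag, hP1, L, Matrix.of_apply, mul_inv_cancel_right, sum_const, card_univ, nsmul_eq_mul,
    ← Nat.card_eq_fintype_card] at this
  rw [← si, recover a1] at this
  apply mul_left_cancel₀ (a := (u : ℂ)) fun e => hu (by rw [show u = 0 from Subtype.ext e]; exact zero_mem _)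
  rw [mul_zero, ← this, sum_filter, Finset.mul_sum]
  refine sum_congr rfl fun χ _ => ?_
  rw [a3]
  split_ifs
  · simp
  · ring

end Cfsg.Agent.H5.ZStar
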